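import Mathlib
import Cfsg.Agent.Helper25.BlockPairs15
import Cfsg.Agent.Helper7.SecondMain

/-!
# Shared block-theory library (helper25), part 29: blocks of an overgroup of `p`-power index

* `blockCoeff_eq_zero_of_not_pRegular`: the idempotent of a block vanishes at `p`-singular
  elements (Osima).
* `mem_of_pRegular_of_index`: `p`-regular elements lie in every normal subgroup of `p`-power
  index.
* `eq_blockCoeff_of_idem`: a class function that is a convolution idempotent is the idempotent
  of a set of characters.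
* `exists_block_of_pIndex`: for `N ⊴ G` of `p`-power index and a `G`-stable block `c` of `N`,
  there is a block of `G` with the same idempotent.
-/

set_option autoImplicit false

namespace Cfsg.Agent.Helper25

open Cfsg Cfsg.Agent.Helper2
open scoped ComplexConjugate Pointwise

universe u

variable {G : Type u} [Group G] {p : ℕ} {M : Ideal AlgInt}

/-- **Osima.** The idempotent of a block vanishes at the `p`-singular elements. -/
theorem blockCoeff_eq_zero_of_not_pRegular [Finite G] (hM : IsPModular p M)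
    {B : Set (IrrCharacter G)} (hB : IsPBlock M B) (g : G) (hg : p ∣ orderOf g) :
    blockCoeff B g = 0 := by
  classical
  have hp := hM.1
  obtain ⟨y, hy⟩ := Cfsg.Agent.Helper7.exists_isPPart hp g
  have h1 : IsPPart p (1 : G) 1 :=
    ⟨1, mul_one 1, Commute.one_left 1, ⟨0, by simp⟩, by
      rw [orderOf_one]
      exact hp.one_lt.ne' ∘ Nat.dvd_one.mp⟩
  have hy1 : ¬ IsConj (1 : G) y := by
    intro hc
    have hy1 : y = 1 := isConj_one_right.mp hc
    obtain ⟨y₁, e1, -, -, e4⟩ := hy
    rw [hy1, one_mul] at e1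
    rw [e1] at e4
    exact e4 hg
  have h2 := Cfsg.Agent.Helper7.block_orth hM hB 1 g 1 y h1 hy hy1
  rw [blockCoeff_eq_sum, h2, mul_zero]

/-- The `p`-regular elements lie in every normal subgroup of `p`-power index. -/
theorem mem_of_pRegular_of_index [Finite G] (hp : p.Prime) (N : Subgroup G) [N.Normal] (k : ℕ)
    (hN : N.index = p ^ k) (g : G) (hg : ¬ p ∣ orderOf g) : g ∈ N := by
  apply mem_of_pow_mem_of_coprime N g
    (Nat.Coprime.pow_left k ((Nat.Prime.coprime_iff_not_dvd hp).mpr hg))
  · rw [← hN]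
    exact Subgroup.pow_index_mem N g
  · rw [pow_orderOf_eq_one]
    exact N.one_mem

theorem omega_eq_zero_or_one_of_idem [Fintype G] {f : G → ℂ}
    (hf : ∀ g x : G, f (x * g * x⁻¹) = f g) (hidem : conv f f = f) (χ : IrrCharacter G) :
    omega f χ = 0 ∨ omega f χ = 1 := by
  have h := omega_conv (f₂ := f) hf χ
  rw [hidem] at h
  have h2 : omega f χ * (omega f χ - 1) = 0 := by
    rw [mul_sub, ← h, mul_one, sub_self]
  rcases mul_eq_zero.mp h2 with h0 | h1
  · exact Or.inl h0
  · exact Or.inr (sub_eq_zero.mp h1)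

/-- A class function that is a convolution idempotent is the idempotent of the set of
characters at which its central character value is `1`. -/
theorem eq_blockCoeff_of_idem [Fintype G] {f : G → ℂ}
    (hf : ∀ g x : G, f (x * g * x⁻¹) = f g) (hidem : conv f f = f) :
    f = blockCoeff {χ : IrrCharacter G | omega f χ = 1} := by
  classical
  apply eq_blockCoeff_of_omega _ f hf
  intro χ
  by_cases h : χ ∈ {χ : IrrCharacter G | omega f χ = 1}
  · rw [if_pos h]
    exact h
  · rw [if_neg h]
    exact (omega_eq_zero_or_one_of_idem hf hidem χ).resolve_right h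

theorem subgroupBlockCoeff_eq_extendByZero (N : Subgroup G) (c : Set (IrrCharacter N)) (g : G) :
    subgroupBlockCoeff N c g = extendByZero N (blockCoeff c) g := by
  classical
  unfold subgroupBlockCoeff
  by_cases hg : g ∈ N
  · rw [dif_pos hg, extendByZero_of_mem N _ hg]
  · rw [dif_neg hg, extendByZero_of_not_mem N _ hg]

theorem extendByZero_injective (N : Subgroup G) {f₁ f₂ : N → ℂ}
    (h : extendByZero N f₁ = extendByZero N f₂) : f₁ = f₂ := by
  funext n
  have h1 := congrFun h (n : G)
  rw [extendByZero_coe, extendByZero_coe] at h1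
  exact h1

/-- For a normal subgroup `N` supporting the idempotents of all blocks of `G` and a `G`-stable
block `c` of `N`, some block of `G` has the same idempotent as `c`. -/
theorem exists_block_of_support [Finite G] (hM : IsPModular p M) (N : Subgroup G) [N.Normal]
    (hsupp : ∀ B : Set (IrrCharacter G), IsPBlock M B → ∀ g : G, g ∉ N → blockCoeff B g = 0)
    {c : Set (IrrCharacter N)} (hc : IsPBlock M c)
    (hst : ∀ x : G, StabilizesBlock N c x) :
    ∃ B : Set (IrrCharacter G), IsPBlock M B ∧
      ∀ g : G, blockCoeff B g = subgroupBlockCoeff N c g := by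
  classical
  let _ : Fintype G := Fintype.ofFinite G
  let _ : Fintype N := Fintype.ofFinite N
  have hp := hM.1
  -- the extended idempotent
  obtain ⟨ε, hε⟩ : ∃ ε : G → ℂ, ε = extendByZero N (blockCoeff c) := ⟨_, rfl⟩
  have hεcl : ∀ g x : G, ε (x * g * x⁻¹) = ε g := by
    intro g x
    have hxN : x ∈ Subgroup.normalizer (N : Set G) := by
      rw [Subgroup.normalizer_eq_top]
      exact Subgroup.mem_top x
    have hsm : (⟨x, hxN⟩ : Subgroup.normalizer (N : Set G)) • c = c :=
      (stabilizesBlock_iff_smul_eq N c ⟨x, hxN⟩).mp (hst x)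
    have hcc := isConjCharOf_blockCoeff N ⟨x, hxN⟩ c hsm
    rw [hε]
    by_cases hg : g ∈ N
    · have hg' : x * g * x⁻¹ ∈ N := Subgroup.Normal.conj_mem inferInstance g hg x
      rw [extendByZero_of_mem N _ hg, extendByZero_of_mem N _ hg']
      exact hcc ⟨g, hg⟩ ⟨x * g * x⁻¹, hg'⟩ rfl
    · have hg' : x * g * x⁻¹ ∉ N := by
        intro h
        apply hg
        have h2 := Subgroup.Normal.conj_mem (inferInstance : N.Normal) _ h x⁻¹
        have e : x⁻¹ * (x * g * x⁻¹) * x⁻¹⁻¹ = g := by group
        rw [e] at h2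
        exact h2
      rw [extendByZero_of_not_mem N _ hg, extendByZero_of_not_mem N _ hg']
  have hεidem : conv ε ε = ε := by
    rw [hε, Cfsg.Agent.Helper7.conv_extendByZero, conv_blockCoeff_self]
  have hεlr : ∀ g, MemLocalRing M (ε g) := by
    intro g
    rw [hε]
    exact Cfsg.Agent.Helper7.lr_extendByZero hM N (fun n => blockCoeff_lr hM hc n) g
  have hεE := eq_blockCoeff_of_idem hεcl hεidem
  obtain ⟨ζ₁, hζ₁⟩ : ∃ ζ, ζ ∈ c := by
    obtain ⟨ξ₀, rfl⟩ := hc
    exact ⟨ξ₀, self_mem_blockOf hM ξ₀⟩
  -- a character of `G` in the support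
  obtain ⟨θ₀, hθ₀⟩ : ∃ θ₀ : IrrCharacter G, omega ε θ₀ = 1 := by
    by_contra hcon
    push Not at hcon
    have h0 : {χ : IrrCharacter G | omega ε χ = 1} = ∅ := by
      ext χ
      simp only [Set.mem_setOf_eq, Set.mem_empty_iff_false, iff_false]
      exact hcon χ
    rw [h0] at hεE
    have h1 : blockCoeff c = 0 := by
      apply extendByZero_injective N
      rw [← hε, hεE]
      funext g
      rw [blockCoeff_empty]
      by_cases hg : g ∈ N
      · rw [extendByZero_of_mem N _ hg]
        rfl
      · rw [extendByZero_of_not_mem N _ hg]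
    have h2 := omega_blockCoeff c ζ₁
    rw [if_pos hζ₁, h1] at h2
    unfold omega at h2
    simp at h2
  have hB : IsPBlock M (blockOf M (θ₀ : G → ℂ)) := isPBlock_blockOf θ₀
  have hBE : ∀ θ ∈ blockOf M (θ₀ : G → ℂ), omega ε θ = 1 := by
    intro θ hθ
    rcases omega_eq_zero_or_one_of_idem hεcl hεidem θ with h0 | h1
    · exfalso
      have h2 := omega_congr hM ε hεcl hεlr (hθ : SameBlock M (θ₀ : G → ℂ) (θ : G → ℂ))
      rw [hθ₀, h0, sub_zero] at h2
      exact not_li_one hM h2
    · exact h1
  -- the idempotent of the block lives on `N`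
  obtain ⟨β', hβ'⟩ : ∃ β' : N → ℂ, β' = fun n : N => blockCoeff (blockOf M (θ₀ : G → ℂ)) (n : G) :=
    ⟨_, rfl⟩
  have hβ : blockCoeff (blockOf M (θ₀ : G → ℂ)) = extendByZero N β' := by
    funext g
    by_cases hg : g ∈ N
    · rw [extendByZero_of_mem N _ hg, hβ']
    · rw [extendByZero_of_not_mem N _ hg]
      exact hsupp _ hB g hg
  have hβ'cl : ∀ g x : N, β' (x * g * x⁻¹) = β' g := by
    intro g x
    rw [hβ']
    exact blockCoeff_conj _ (g : G) (x : G)
  have hβ'lr : ∀ n, MemLocalRing M (β' n) := by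
    intro n
    rw [hβ']
    exact blockCoeff_lr hM hB _
  have hβ'idem : conv β' β' = β' := by
    apply extendByZero_injective N
    rw [← Cfsg.Agent.Helper7.conv_extendByZero, ← hβ, conv_blockCoeff_self]
  have hβ'c : conv β' (blockCoeff c) = β' := by
    apply extendByZero_injective N
    rw [← Cfsg.Agent.Helper7.conv_extendByZero, ← hβ, ← hε, hεE, conv_blockCoeff]
    congr 1
    ext θ
    simp only [Set.mem_inter_iff, Set.mem_setOf_eq, and_iff_left_iff_imp]
    exact hBE θ
  have hβ'F := eq_blockCoeff_of_idem hβ'cl hβ'idem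
  -- the support of `β'` is the block `c`
  have hFc : ∀ ζ : IrrCharacter N, omega β' ζ = 1 → ζ ∈ c := by
    intro ζ hζ
    have h1 := omega_conv (f₂ := blockCoeff c) hβ'cl ζ
    rw [hβ'c, hζ, one_mul, omega_blockCoeff] at h1
    by_contra hnot
    rw [if_neg hnot] at h1
    exact one_ne_zero h1
  obtain ⟨ζ₀, hζ₀⟩ : ∃ ζ₀ : IrrCharacter N, omega β' ζ₀ = 1 := by
    by_contra hcon
    push Not at hcon
    have h0 : {χ : IrrCharacter N | omega β' χ = 1} = ∅ := by
      ext χ
      simp only [Set.mem_setOf_eq, Set.mem_empty_iff_false, iff_false]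
      exact hcon χ
    rw [h0] at hβ'F
    have h1 : blockCoeff (blockOf M (θ₀ : G → ℂ)) = 0 := by
      rw [hβ, hβ'F]
      funext g
      by_cases hg : g ∈ N
      · rw [extendByZero_of_mem N _ hg, blockCoeff_empty]
        rfl
      · rw [extendByZero_of_not_mem N _ hg]
        rfl
    have h2 := omega_blockCoeff (blockOf M (θ₀ : G → ℂ)) θ₀
    rw [if_pos (self_mem_blockOf hM θ₀), h1] at h2
    unfold omega at h2
    simp at h2
  have hcF : ∀ ζ ∈ c, omega β' ζ = 1 := by
    intro ζ hζ
    rcases omega_eq_zero_or_one_of_idem hβ'cl hβ'idem ζ with h0 | h1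
    · exfalso
      have h2 := omega_congr hM β' hβ'cl hβ'lr (sameBlock_of_mem hM hc (hFc ζ₀ hζ₀) hζ)
      rw [hζ₀, h0, sub_zero] at h2
      exact not_li_one hM h2
    · exact h1
  have hFeq : {χ : IrrCharacter N | omega β' χ = 1} = c := by
    ext ζ
    exact ⟨hFc ζ, hcF ζ⟩
  rw [hFeq] at hβ'F
  refine ⟨blockOf M (θ₀ : G → ℂ), hB, fun g => ?_⟩
  rw [subgroupBlockCoeff_eq_extendByZero, hβ, hβ'F]

/-- For a normal subgroup `N` of `p`-power index and a `G`-stable block `c` of `N`, some block of
`G` has the same idempotent as `c`. -/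
theorem exists_block_of_pIndex [Finite G] (hM : IsPModular p M) (N : Subgroup G) [N.Normal]
    (k : ℕ) (hN : N.index = p ^ k) {c : Set (IrrCharacter N)} (hc : IsPBlock M c)
    (hst : ∀ x : G, StabilizesBlock N c x) :
    ∃ B : Set (IrrCharacter G), IsPBlock M B ∧
      ∀ g : G, blockCoeff B g = subgroupBlockCoeff N c g := by
  apply exists_block_of_support hM N _ hc hst
  intro B hB g hg
  apply blockCoeff_eq_zero_of_not_pRegular hM hB
  by_contra hreg
  exact hg (mem_of_pRegular_of_index hM.1 N k hN g hreg)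

end Cfsg.Agent.Helper25
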