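import Mathlib
import Cfsg.Agent.Helper25.BlockPairs16

/-!
# Shared block-theory library (helper25), part 30: centric normal pairs

* `isPBlock_image_irrEquiv`, `blockCoeff_image_irrEquiv`: transport of blocks along an
  isomorphism.
* `exists_block_of_subgroup`: a block of `C` stable under an overgroup `H` in which `C` is normal
  of `p`-power index is the idempotent of a block of `H`.
* `blockCoeff_eq_of_normal_pair`: if `G` normalizes the Brauer pair `(Q, f)` of `B`, the
  idempotent of `B` is the idempotent of `f`.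
* `isNilpotentBlock_sup_centralizer`: for a normal `p`-subgroup `Q` and a block `f` of `C_G(Q)`
  with defect group `Z(Q)`, the block of `Q C_G(Q)` with the idempotent of `f` is nilpotent.
-/

set_option autoImplicit false

namespace Cfsg.Agent.Helper25

open Cfsg Cfsg.Agent.Helper2
open scoped ComplexConjugate Pointwise

universe u

variable {G : Type u} [Group G] {p : ℕ} {M : Ideal AlgInt}

section Equiv

variable {H : Type u} [Group H]

theorem irrEquiv_symm_irrEquiv (φ : G ≃* H) (χ : IrrCharacter H) :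
    irrEquiv φ.symm (irrEquiv φ χ) = χ := by
  apply Subtype.ext
  funext h
  rw [irrEquiv_apply, irrEquiv_apply, MulEquiv.apply_symm_apply]

theorem irrEquiv_irrEquiv_symm (φ : G ≃* H) (χ : IrrCharacter G) :
    irrEquiv φ (irrEquiv φ.symm χ) = χ := by
  apply Subtype.ext
  funext g
  rw [irrEquiv_apply, irrEquiv_apply, MulEquiv.symm_apply_apply]

theorem irrEquiv_injective (φ : G ≃* H) : Function.Injective (irrEquiv φ) :=
  Function.LeftInverse.injective (irrEquiv_symm_irrEquiv φ)

/-- The image of a block under an isomorphism is a block. -/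
theorem isPBlock_image_irrEquiv (φ : G ≃* H) {f : Set (IrrCharacter H)} (hf : IsPBlock M f) :
    IsPBlock M (irrEquiv φ '' f) := by
  obtain ⟨ξ, rfl⟩ := hf
  refine ⟨irrEquiv φ ξ, ?_⟩
  ext ψ
  constructor
  · rintro ⟨ψ₀, hψ₀, rfl⟩
    exact sameBlock_irrComp_equiv (M := M) φ ξ ψ₀ hψ₀
  · intro h
    refine ⟨irrEquiv φ.symm ψ, ?_, irrEquiv_irrEquiv_symm φ ψ⟩
    have h1 := sameBlock_irrComp_equiv (M := M) φ.symm _ _ h
    rw [irrEquiv_symm_irrEquiv] at h1
    exact h1

theorem blockCoeff_image_irrEquiv (φ : G ≃* H) (f : Set (IrrCharacter H)) (g : G) :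
    blockCoeff (irrEquiv φ '' f) g = blockCoeff f (φ g) := by
  unfold blockCoeff
  rw [finsum_mem_image (fun a _ b _ h => irrEquiv_injective φ h), Nat.card_congr φ.toEquiv]
  congr 1
  apply finsum_congr
  intro χ
  apply finsum_congr
  intro _
  rw [irrEquiv_apply, irrEquiv_apply, map_one]

end Equiv

/-- A block of `C` stable under an overgroup `H` in which `C` is normal of `p`-power index is the
idempotent of a block of `H`. -/
theorem exists_block_of_subgroup [Finite G] (hM : IsPModular p M) (C H : Subgroup G)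
    (hCH : C ≤ H) [(C.subgroupOf H).Normal] (k : ℕ) (hidx : (C.subgroupOf H).index = p ^ k)
    {f : Set (IrrCharacter C)} (hf : IsPBlock M f)
    (hst : ∀ x ∈ H, StabilizesBlock C f x) :
    ∃ b : Set (IrrCharacter H), IsPBlock M b ∧
      ∀ t : H, blockCoeff b t = subgroupBlockCoeff C f (t : G) := by
  classical
  have hst' : ∀ x : H, StabilizesBlock (C.subgroupOf H)
      (irrEquiv (Subgroup.subgroupOfEquivOfLe hCH) '' f) x := by
    intro x
    refine ⟨?_, ?_⟩
    · rw [Subgroup.normalizer_eq_top]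
      exact Subgroup.mem_top x
    · rintro _ ⟨χ, hχ, rfl⟩
      obtain ⟨χ₂, hχ₂, hcc⟩ := (hst (x : G) x.2).2 χ hχ
      refine ⟨irrEquiv (Subgroup.subgroupOfEquivOfLe hCH) χ₂, ⟨χ₂, hχ₂, rfl⟩, ?_⟩
      intro k₁ k₂ hk
      rw [irrEquiv_apply, irrEquiv_apply]
      apply hcc
      have h1 := congrArg Subtype.val hk
      exact h1
  obtain ⟨b, hb, hbc⟩ := exists_block_of_pIndex hM (C.subgroupOf H) k hidx
    (isPBlock_image_irrEquiv (Subgroup.subgroupOfEquivOfLe hCH) hf) hst'
  refine ⟨b, hb, fun t => ?_⟩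
  rw [hbc]
  unfold subgroupBlockCoeff
  by_cases ht : (t : G) ∈ C
  · rw [dif_pos ht, dif_pos (Subgroup.mem_subgroupOf.mpr ht), blockCoeff_image_irrEquiv]
    rfl
  · rw [dif_neg ht, dif_neg (fun h => ht (Subgroup.mem_subgroupOf.mp h))]

/-- If every element of `G` normalizes the Brauer pair `(Q, f)` of the block `B`, then the
idempotent of `B` is the idempotent of `f`. -/
theorem blockCoeff_eq_of_normal_pair [Finite G] (hM : IsPModular p M)
    {B : Set (IrrCharacter G)} {Q : Subgroup G}
    {f : Set (IrrCharacter (Subgroup.centralizer (Q : Set G)))}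
    (hQf : IsBrauerPairOf p M B Q f)
    (hG : ∀ x : G, x ∈ Subgroup.normalizer (Q : Set G) ∧
      StabilizesBlock (Subgroup.centralizer (Q : Set G)) f x) (g : G) :
    blockCoeff B g = subgroupBlockCoeff (Subgroup.centralizer (Q : Set G)) f g := by
  classical
  let _ : Fintype G := Fintype.ofFinite G
  let _ : Fintype (Subgroup.centralizer (Q : Set G)) := Fintype.ofFinite _
  have hQn : Q.Normal := by
    rw [← Subgroup.normalizer_eq_top_iff]
    exact top_unique (fun x _ => (hG x).1)
  obtain ⟨B', hB', hB'c⟩ := exists_block_of_support hM (Subgroup.centralizer (Q : Set G))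
    (fun B₁ hB₁ g hg => blockCoeff_eq_zero_of_not_mem_centralizer hM Q hQf.1.1 hB₁ hg)
    hQf.1.2 (fun x => (hG x).2)
  obtain ⟨ξ, hξ⟩ : ∃ ξ, ξ ∈ f := by
    obtain ⟨ξ₀, rfl⟩ := hQf.1.2
    exact ⟨ξ₀, self_mem_blockOf hM ξ₀⟩
  obtain ⟨B₀, -, -, huniq⟩ := exists_unique_block_brauerOmega Q hM hQf.1.1 ξ
  have e1 : B = B₀ := huniq B hQf.2.1 (hQf.2.2 ξ hξ)
  have e2 : B' = B₀ := by
    apply huniq B' hB'
    have h1 : brauerOmega Q (blockCoeff B') (ξ : Subgroup.centralizer (Q : Set G) → ℂ) = 1 := by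
      rw [brauerOmega_eq_omega]
      have h2 : (fun x : Subgroup.centralizer (Q : Set G) => blockCoeff B' (x : G))
          = blockCoeff f := by
        funext x
        rw [hB'c]
        unfold subgroupBlockCoeff
        rw [dif_pos x.2]
      rw [h2, omega_blockCoeff, if_pos hξ]
    rw [h1, sub_self]
    exact li_zero hM
  rw [e1, ← e2]
  exact hB'c g

/-- For a normal `p`-subgroup `Q` and a block `f` of `C_G(Q)` with defect group `Z(Q)`, the block
of `Q C_G(Q)` with the idempotent of `f` is nilpotent. -/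
theorem isNilpotentBlock_sup_centralizer [Finite G] [Fact p.Prime] (hM : IsPModular p M)
    (Q : Subgroup G) [Q.Normal] (hQ : IsPGroup p Q)
    {f : Set (IrrCharacter (Subgroup.centralizer (Q : Set G)))} (hf : IsPBlock M f)
    (hcen : IsDefectGroup p M f
      ((Q ⊓ Subgroup.centralizer (Q : Set G)).subgroupOf (Subgroup.centralizer (Q : Set G))))
    {F' : Set (IrrCharacter ↥(Q ⊔ Subgroup.centralizer (Q : Set G)))} (hF' : IsPBlock M F')
    (hc : ∀ t : ↥(Q ⊔ Subgroup.centralizer (Q : Set G)),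
      blockCoeff F' t = subgroupBlockCoeff (Subgroup.centralizer (Q : Set G)) f (t : G)) :
    IsNilpotentBlock p M F' := by
  classical
  have hp := hM.1
  refine ⟨hF', ?_⟩
  intro R φ hRφ x hxN hxst hxreg
  -- `x` lies in `C_G(Q)`
  have hxC : (x : G) ∈ Subgroup.centralizer (Q : Set G) := by
    obtain ⟨n, hn⟩ := hQ.exists_card_eq
    have h1 : ((Subgroup.centralizer (Q : Set G)).subgroupOf
        (Q ⊔ Subgroup.centralizer (Q : Set G))).index ∣ p ^ n := by
      have h2 : ((Subgroup.centralizer (Q : Set G)).subgroupOf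
          (Q ⊔ Subgroup.centralizer (Q : Set G))).index
          = ((Subgroup.centralizer (Q : Set G)).subgroupOf Q).index :=
        Subgroup.relIndex_sup_right Q (Subgroup.centralizer (Q : Set G))
      rw [h2, ← hn]
      exact Subgroup.index_dvd_card _
    obtain ⟨m, -, hm⟩ := (Nat.dvd_prime_pow hp).mp h1
    exact Subgroup.mem_subgroupOf.mp (mem_of_pRegular_of_index hp _ m hm x hxreg)
  -- a member of `φ` and an element with non-vanishing coefficient centralizing `R`
  obtain ⟨ξ, hξ⟩ : ∃ ξ, ξ ∈ φ := by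
    obtain ⟨ξ₀, rfl⟩ := hRφ.1.2
    exact ⟨ξ₀, self_mem_blockOf hM ξ₀⟩
  have hω := hRφ.2.2 ξ hξ
  obtain ⟨y, hy⟩ : ∃ y : Subgroup.centralizer (R : Set ↥(Q ⊔ Subgroup.centralizer (Q : Set G))),
      ¬ MemLocalIdeal M (blockCoeff F' (y : ↥(Q ⊔ Subgroup.centralizer (Q : Set G)))) := by
    by_contra hcon
    push Not at hcon
    let _ : Fintype (Subgroup.centralizer (R : Set ↥(Q ⊔ Subgroup.centralizer (Q : Set G)))) :=
      Fintype.ofFinite _
    rw [brauerOmega_eq_omega] at hω
    have h1 := li_omega_of_li hM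
      (fun x : Subgroup.centralizer (R : Set ↥(Q ⊔ Subgroup.centralizer (Q : Set G))) =>
        blockCoeff F' (x : ↥(Q ⊔ Subgroup.centralizer (Q : Set G))))
      (fun g x => blockCoeff_conj F' _ _) hcon ξ
    have h2 := li_sub hM h1 hω
    rw [sub_sub_cancel] at h2
    exact not_li_one hM h2
  have hyC : ((y : ↥(Q ⊔ Subgroup.centralizer (Q : Set G))) : G)
      ∈ Subgroup.centralizer (Q : Set G) := by
    by_contra h
    apply hy
    rw [hc]
    unfold subgroupBlockCoeff
    rw [dif_neg h]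
    exact li_zero hM
  have hy' : ¬ MemLocalIdeal M (blockCoeff f ⟨_, hyC⟩) := by
    intro h
    apply hy
    rw [hc]
    unfold subgroupBlockCoeff
    rw [dif_pos hyC]
    exact h
  -- the `p`-group generated by `R` and `Q`
  have hR' : IsPGroup p (R.map (Q ⊔ Subgroup.centralizer (Q : Set G) : Subgroup G).subtype) :=
    hRφ.1.1.map _
  have hE : IsPGroup p ↥(R.map (Q ⊔ Subgroup.centralizer (Q : Set G) : Subgroup G).subtype ⊔ Q) :=
    IsPGroup.to_sup_of_normal_right hR' hQ
  have hEy : ∀ u ∈ R.map (Q ⊔ Subgroup.centralizer (Q : Set G) : Subgroup G).subtype ⊔ Q,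
      u * ((y : ↥(Q ⊔ Subgroup.centralizer (Q : Set G))) : G)
        = ((y : ↥(Q ⊔ Subgroup.centralizer (Q : Set G))) : G) * u := by
    have h1 : R.map (Q ⊔ Subgroup.centralizer (Q : Set G) : Subgroup G).subtype ⊔ Q
        ≤ Subgroup.centralizer
          ({((y : ↥(Q ⊔ Subgroup.centralizer (Q : Set G))) : G)} : Set G) := by
      apply sup_le
      · rintro _ ⟨r, hr, rfl⟩
        rw [Subgroup.mem_centralizer_iff]
        intro h hh
        rw [Set.mem_singleton_iff.mp hh]
        have h2 := Subgroup.mem_centralizer_iff.mp y.2 r hr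
        exact (congrArg Subtype.val h2).symm
      · intro q hq
        rw [Subgroup.mem_centralizer_iff]
        intro h hh
        rw [Set.mem_singleton_iff.mp hh]
        exact (Subgroup.mem_centralizer_iff.mp hyC q hq).symm
    intro u hu
    exact (Subgroup.mem_centralizer_iff.mp (h1 hu) _ rfl).symm
  have hD'p : IsPGroup p (((R.map (Q ⊔ Subgroup.centralizer (Q : Set G) : Subgroup G).subtype ⊔ Q)
      ⊓ Subgroup.centralizer (Q : Set G)).subgroupOf (Subgroup.centralizer (Q : Set G))) :=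
    (hE.to_le inf_le_left).comap_subtype
  have hD'y : ((R.map (Q ⊔ Subgroup.centralizer (Q : Set G) : Subgroup G).subtype ⊔ Q)
      ⊓ Subgroup.centralizer (Q : Set G)).subgroupOf (Subgroup.centralizer (Q : Set G))
      ≤ Subgroup.centralizer ({(⟨_, hyC⟩ : Subgroup.centralizer (Q : Set G))} :
        Set (Subgroup.centralizer (Q : Set G))) := by
    intro d hd
    rw [Subgroup.mem_centralizer_iff]
    intro h hh
    rw [Set.mem_singleton_iff.mp hh]
    apply Subtype.ext
    exact (hEy (d : G) (Subgroup.mem_subgroupOf.mp hd).1).symm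
  obtain ⟨D, hD, hD'D⟩ := exists_defectGroup_ge hM hf ⟨_, hyC⟩ hy' _ hD'p hD'y
  have hcard : Nat.card D = Nat.card ((Q ⊓ Subgroup.centralizer (Q : Set G)).subgroupOf
      (Subgroup.centralizer (Q : Set G))) := by
    rw [Cfsg.Agent.Helper7.card_defectGroup hM hf hD,
      Cfsg.Agent.Helper7.card_defectGroup hM hf hcen]
  have hZD' : (Q ⊓ Subgroup.centralizer (Q : Set G)).subgroupOf
      (Subgroup.centralizer (Q : Set G))
      ≤ ((R.map (Q ⊔ Subgroup.centralizer (Q : Set G) : Subgroup G).subtype ⊔ Q)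
      ⊓ Subgroup.centralizer (Q : Set G)).subgroupOf (Subgroup.centralizer (Q : Set G)) := by
    intro d hd
    have h1 := Subgroup.mem_subgroupOf.mp hd
    exact Subgroup.mem_subgroupOf.mpr ⟨(le_sup_right : Q ≤ _) h1.1, h1.2⟩
  have hZD : (Q ⊓ Subgroup.centralizer (Q : Set G)).subgroupOf
      (Subgroup.centralizer (Q : Set G)) = D :=
    Subgroup.eq_of_le_of_card_ge (hZD'.trans hD'D) hcard.le
  -- `R ≤ Q`
  have hRQ : ∀ r ∈ R, ((r : ↥(Q ⊔ Subgroup.centralizer (Q : Set G))) : G) ∈ Q := by
    intro r hr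
    have h1 : ((r : ↥(Q ⊔ Subgroup.centralizer (Q : Set G))) : G)
        ∈ ((Q ⊔ Subgroup.centralizer (Q : Set G) : Subgroup G) : Set G) := r.2
    rw [Subgroup.normal_mul] at h1
    obtain ⟨q, hq, c, hcC, hqc⟩ := Set.mem_mul.mp h1
    have hcE : c ∈ R.map (Q ⊔ Subgroup.centralizer (Q : Set G) : Subgroup G).subtype ⊔ Q := by
      have e : c = q⁻¹ * ((r : ↥(Q ⊔ Subgroup.centralizer (Q : Set G))) : G) := by
        rw [← hqc]
        group
      rw [e]
      exact Subgroup.mul_mem _ ((le_sup_right : Q ≤ _) (Q.inv_mem hq))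
        ((le_sup_left : R.map (Q ⊔ Subgroup.centralizer (Q : Set G) : Subgroup G).subtype ≤ _)
          ⟨r, hr, rfl⟩)
    have h2 : (⟨c, hcC⟩ : Subgroup.centralizer (Q : Set G)) ∈ D :=
      hD'D (Subgroup.mem_subgroupOf.mpr ⟨hcE, hcC⟩)
    rw [← hZD] at h2
    have hcQ : c ∈ Q := (Subgroup.mem_subgroupOf.mp h2).1
    rw [← hqc]
    exact Q.mul_mem hq hcQ
  rw [Subgroup.mem_centralizer_iff]
  intro r hr
  apply Subtype.ext
  exact Subgroup.mem_centralizer_iff.mp hxC _ (hRQ r hr)

end Cfsg.Agent.Helper25
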