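import Mathlib
import Cfsg.Agent.Helper25.BlockPairs17

/-!
# Shared block-theory library (helper25), part 31: Brauer pairs of a stabilizer subgroup

For a subgroup `H` of `G`, the pairs `(S, σ)` of `G` with `S ≤ H` and `C_G(S) ≤ H` are pairs of
`H` (`subIdx`).  For a Brauer pair `(Q, f)` of `G` normalized by `H ⊇ C_G(Q)`, with `H / C_G(Q)` a
`p`-group, the block `f` is the idempotent of a block `b` of `H`, the pairs of `G` normal above
`(Q, f)` are the `b`-pairs of `H`, and inclusions in `H` lift to `G`.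

* `exists_conj_le_of_normal_above`: any two pairs normal above `(Q, f)` are, up to conjugation in
  `H`, below a common one.
-/

set_option autoImplicit false

namespace Cfsg.Agent.Helper25

open Cfsg Cfsg.Agent.Helper2
open scoped ComplexConjugate Pointwise

universe u

variable {G : Type u} [Group G] {p : ℕ} {M : Ideal AlgInt}

section SubIdx

variable (H : Subgroup G)

/-- The pair of `H` attached to a pair `(S, σ)` of `G` with `S ≤ H` and `C_G(S) ≤ H`. -/
def subIdx (a : BrauerPairIdx G) (h1 : a.1 ≤ H)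
    (h2 : Subgroup.centralizer (a.1 : Set G) ≤ H) : BrauerPairIdx H :=
  ⟨a.1.subgroupOf H, subBlock H a.1 h1 h2 a.2⟩

theorem subIdx_injective {a a' : BrauerPairIdx G} (h1 : a.1 ≤ H)
    (h2 : Subgroup.centralizer (a.1 : Set G) ≤ H) (h1' : a'.1 ≤ H)
    (h2' : Subgroup.centralizer (a'.1 : Set G) ≤ H)
    (h : subIdx H a h1 h2 = subIdx H a' h1' h2') : a = a' := by
  obtain ⟨S, σ⟩ := a
  obtain ⟨S', σ'⟩ := a'
  have hS : S = S' := by
    have h3 : S.subgroupOf H = S'.subgroupOf H := congrArg Sigma.fst h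
    rw [Subgroup.subgroupOf_inj, inf_eq_left.mpr (h1 : S ≤ H),
      inf_eq_left.mpr (h1' : S' ≤ H)] at h3
    exact h3
  subst hS
  have h4 : subBlock H S h1 h2 σ = subBlock H S h1' h2' σ' :=
    eq_of_heq (Sigma.mk.inj h).2
  rw [subBlock_injective H S h1 h2 h4]

theorem exists_eq_subIdx (z : BrauerPairIdx H)
    (hz : Subgroup.centralizer ((z.1.map H.subtype : Subgroup G) : Set G) ≤ H) :
    ∃ (a : BrauerPairIdx G) (h1 : a.1 ≤ H) (h2 : Subgroup.centralizer (a.1 : Set G) ≤ H),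
      z = subIdx H a h1 h2 := by
  have key : ∀ (S : Subgroup G) (hSH : S ≤ H) (hCH : Subgroup.centralizer (S : Set G) ≤ H)
      (S' : Subgroup H) (_ : S' = S.subgroupOf H)
      (σ' : Set (IrrCharacter (Subgroup.centralizer (S' : Set H)))),
      ∃ σ : Set (IrrCharacter (Subgroup.centralizer (S : Set G))),
        (⟨S', σ'⟩ : BrauerPairIdx H) = ⟨S.subgroupOf H, subBlock H S hSH hCH σ⟩ := by
    intro S hSH hCH S' h
    subst h
    intro σ'
    refine ⟨subCharInv H S hSH hCH '' σ', ?_⟩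
    refine Sigma.ext rfl (heq_of_eq ?_)
    show σ' = subChar H S hSH hCH '' (subCharInv H S hSH hCH '' σ')
    rw [Set.image_image]
    simp only [subChar_subCharInv, Set.image_id']
  obtain ⟨S', σ'⟩ := z
  obtain ⟨σ, hσ⟩ := key (S'.map H.subtype) (Subgroup.map_subtype_le S') hz S'
    (Subgroup.comap_map_eq_self_of_injective (Subgroup.subtype_injective H) S').symm σ'
  exact ⟨⟨S'.map H.subtype, σ⟩, Subgroup.map_subtype_le S', hz, hσ⟩

theorem isPBlock_of_subBlock (P : Subgroup G) (hPH : P ≤ H)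
    (hCH : Subgroup.centralizer (P : Set G) ≤ H)
    {e : Set (IrrCharacter (Subgroup.centralizer (P : Set G)))}
    (he : IsPBlock M (subBlock H P hPH hCH e)) : IsPBlock M e := by
  obtain ⟨ψ, hψ⟩ := he
  refine ⟨subCharInv H P hPH hCH ψ, ?_⟩
  apply subBlock_injective H P hPH hCH
  rw [hψ, subBlock_blockOf, subChar_subCharInv]

theorem mem_centralizer_subgroupOf_iff (P : Subgroup G) (hPH : P ≤ H) (k : H) :
    k ∈ Subgroup.centralizer ((P.subgroupOf H : Subgroup H) : Set H) ↔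
      (k : G) ∈ Subgroup.centralizer (P : Set G) := by
  constructor
  · intro hk
    rw [Subgroup.mem_centralizer_iff]
    intro u hu
    exact congrArg Subtype.val
      (Subgroup.mem_centralizer_iff.mp hk ⟨u, hPH hu⟩ (Subgroup.mem_subgroupOf.mpr hu))
  · intro hk
    rw [Subgroup.mem_centralizer_iff]
    intro u hu
    apply Subtype.ext
    exact Subgroup.mem_centralizer_iff.mp hk (u : G) (Subgroup.mem_subgroupOf.mp hu)

theorem subgroupBlockCoeff_subBlock (P : Subgroup G) (hPH : P ≤ H)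
    (hCH : Subgroup.centralizer (P : Set G) ≤ H)
    (e : Set (IrrCharacter (Subgroup.centralizer (P : Set G)))) (k : H) :
    subgroupBlockCoeff (Subgroup.centralizer ((P.subgroupOf H : Subgroup H) : Set H))
        (subBlock H P hPH hCH e) k
      = subgroupBlockCoeff (Subgroup.centralizer (P : Set G)) e (k : G) := by
  classical
  unfold subgroupBlockCoeff
  by_cases hk : (k : G) ∈ Subgroup.centralizer (P : Set G)
  · rw [dif_pos hk, dif_pos ((mem_centralizer_subgroupOf_iff H P hPH k).mpr hk)]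
    show blockCoeff (irrEquiv (subCent H P hPH hCH) '' e) _ = _
    rw [blockCoeff_image_irrEquiv]
    rfl
  · rw [dif_neg hk, dif_neg (fun h => hk ((mem_centralizer_subgroupOf_iff H P hPH k).mp h))]

/-- Normal inclusion of pairs in `H` gives normal inclusion in `G`. -/
theorem isNormalSubpair_of_sub [Finite G] {Q P : Subgroup G} (hQH : Q ≤ H)
    (hCQ : Subgroup.centralizer (Q : Set G) ≤ H) (hPH : P ≤ H)
    (hCP : Subgroup.centralizer (P : Set G) ≤ H)
    {f : Set (IrrCharacter (Subgroup.centralizer (Q : Set G)))}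
    {e : Set (IrrCharacter (Subgroup.centralizer (P : Set G)))}
    (h : IsNormalSubpair p M (Q.subgroupOf H) (subBlock H Q hQH hCQ f) (P.subgroupOf H)
      (subBlock H P hPH hCP e)) :
    IsNormalSubpair p M Q f P e := by
  obtain ⟨hQf, hPe, hQP, hPN, hst, hω⟩ := h
  have hQP' : Q ≤ P := by
    intro q hq
    exact Subgroup.mem_subgroupOf.mp
      (hQP (Subgroup.mem_subgroupOf.mpr hq : (⟨q, hQH hq⟩ : H) ∈ Q.subgroupOf H))
  have hPN' : P ≤ Subgroup.normalizer (Q : Set G) := by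
    intro x hx
    have h1 := Subgroup.mem_normalizer_iff.mp
      (hPN (Subgroup.mem_subgroupOf.mpr hx : (⟨x, hPH hx⟩ : H) ∈ P.subgroupOf H))
    rw [Subgroup.mem_normalizer_iff]
    intro g
    constructor
    · intro hg
      exact Subgroup.mem_subgroupOf.mp ((h1 ⟨g, hQH hg⟩).mp (Subgroup.mem_subgroupOf.mpr hg))
    · intro hg
      have hgH : g ∈ H := by
        have h2 := H.mul_mem (H.mul_mem (H.inv_mem (hPH hx)) (hQH hg)) (hPH hx)
        have e : x⁻¹ * (x * g * x⁻¹) * x = g := by group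
        rw [e] at h2
        exact h2
      exact Subgroup.mem_subgroupOf.mp ((h1 ⟨g, hgH⟩).mpr (Subgroup.mem_subgroupOf.mpr hg))
  refine ⟨⟨hQf.1.of_equiv (Subgroup.subgroupOfEquivOfLe hQH),
      isPBlock_of_subBlock H Q hQH hCQ hQf.2⟩,
    ⟨hPe.1.of_equiv (Subgroup.subgroupOfEquivOfLe hPH),
      isPBlock_of_subBlock H P hPH hCP hPe.2⟩, hQP', hPN', ?_, ?_⟩
  · intro x hx
    have hxN : x ∈ Subgroup.normalizer
        ((Subgroup.centralizer (Q : Set G) : Subgroup G) : Set G) :=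
      normalizer_le_normalizer_centralizer Q (hPN' hx)
    have h1 := hst ⟨x, hPH hx⟩ (Subgroup.mem_subgroupOf.mpr hx)
    have h2 := (stabilizesBlock_iff_smul_eq
      (Subgroup.centralizer ((Q.subgroupOf H : Subgroup H) : Set H))
      (subBlock H Q hQH hCQ f) (⟨(⟨x, hPH hx⟩ : H), h1.1⟩ : Subgroup.normalizer
        ((Subgroup.centralizer ((Q.subgroupOf H : Subgroup H) : Set H) : Subgroup H) : Set H))).mp h1
    rw [smul_subBlock H Q hQH hCQ f (⟨(⟨x, hPH hx⟩ : H), h1.1⟩ : Subgroup.normalizer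
        ((Subgroup.centralizer ((Q.subgroupOf H : Subgroup H) : Set H) : Subgroup H) : Set H))
      hxN] at h2
    have h3 := subBlock_injective H Q hQH hCQ h2
    exact (stabilizesBlock_iff_smul_eq _ f ⟨x, hxN⟩).mpr h3
  · intro ξ hξ
    have h1 := hω (subChar H P hPH hCP ξ) ⟨ξ, hξ, rfl⟩
    rw [brauerOmega_subChar H P hPH hCP _
      (subgroupBlockCoeff (Subgroup.centralizer (Q : Set G)) f)
      (fun k => (subgroupBlockCoeff_subBlock H Q hQH hCQ f k).symm)] at h1
    exact h1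

/-- A pair of the block `b` of `H` (with the idempotent of `f`) gives a pair normal above
`(Q, f)`. -/
theorem isNormalSubpair_of_isBrauerPairOf_sub {Q S : Subgroup G} (hSH : S ≤ H)
    (hCS : Subgroup.centralizer (S : Set G) ≤ H)
    {f : Set (IrrCharacter (Subgroup.centralizer (Q : Set G)))}
    {σ : Set (IrrCharacter (Subgroup.centralizer (S : Set G)))} {b : Set (IrrCharacter H)}
    (hb : ∀ t : H, blockCoeff b t = subgroupBlockCoeff (Subgroup.centralizer (Q : Set G)) f (t : G))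
    (hQf : IsBrauerPair p M Q f) (hQS : Q ≤ S) (hSN : S ≤ Subgroup.normalizer (Q : Set G))
    (hst : ∀ x ∈ S, StabilizesBlock (Subgroup.centralizer (Q : Set G)) f x)
    (h : IsBrauerPairOf p M b (S.subgroupOf H) (subBlock H S hSH hCS σ)) :
    IsNormalSubpair p M Q f S σ := by
  obtain ⟨hSσ, -, hω⟩ := h
  refine ⟨hQf, ⟨hSσ.1.of_equiv (Subgroup.subgroupOfEquivOfLe hSH),
    isPBlock_of_subBlock H S hSH hCS hSσ.2⟩, hQS, hSN, hst, ?_⟩
  intro ξ hξ
  have h1 := hω (subChar H S hSH hCS ξ) ⟨ξ, hξ, rfl⟩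
  rw [brauerOmega_subChar H S hSH hCS (blockCoeff b)
    (subgroupBlockCoeff (Subgroup.centralizer (Q : Set G)) f) (fun k => (hb k).symm)] at h1
  exact h1

/-- A pair normal above `(Q, f)` is a pair of the block `b` of `H` with the idempotent of `f`. -/
theorem isBrauerPairOf_sub_of_isNormalSubpair {Q S : Subgroup G} (hSH : S ≤ H)
    (hCS : Subgroup.centralizer (S : Set G) ≤ H)
    {f : Set (IrrCharacter (Subgroup.centralizer (Q : Set G)))}
    {σ : Set (IrrCharacter (Subgroup.centralizer (S : Set G)))} {b : Set (IrrCharacter H)}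
    (hb : ∀ t : H, blockCoeff b t = subgroupBlockCoeff (Subgroup.centralizer (Q : Set G)) f (t : G))
    (hbB : IsPBlock M b) (h : IsNormalSubpair p M Q f S σ) :
    IsBrauerPairOf p M b (S.subgroupOf H) (subBlock H S hSH hCS σ) := by
  obtain ⟨-, hSσ, -, -, -, hω⟩ := h
  refine ⟨⟨hSσ.1.comap_subtype, isPBlock_subBlock H S hSH hCS hSσ.2⟩, hbB, ?_⟩
  rintro _ ⟨ξ, hξ, rfl⟩
  rw [brauerOmega_subChar H S hSH hCS (blockCoeff b)
    (subgroupBlockCoeff (Subgroup.centralizer (Q : Set G)) f) (fun k => (hb k).symm)]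
  exact hω ξ hξ

theorem map_conj_subgroupOf (S : Subgroup G) (t : H) :
    (S.subgroupOf H).map (MulAut.conj t).toMonoidHom
      = (S.map (MulAut.conj (t : G)).toMonoidHom).subgroupOf H := by
  ext h
  rw [mem_map_conj_iff, Subgroup.mem_subgroupOf, Subgroup.mem_subgroupOf, mem_map_conj_iff]
  rfl

/-- Compatibility of `subIdx` with conjugation by elements of `H`. -/
theorem conjIdx_subIdx (t : H) (a : BrauerPairIdx G) (h1 : a.1 ≤ H)
    (h2 : Subgroup.centralizer (a.1 : Set G) ≤ H) (h1' : (conjIdx (t : G) a).1 ≤ H)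
    (h2' : Subgroup.centralizer ((conjIdx (t : G) a).1 : Set G) ≤ H) :
    conjIdx t (subIdx H a h1 h2) = subIdx H (conjIdx (t : G) a) h1' h2' := by
  obtain ⟨S, σ⟩ := a
  have hsub := map_conj_subgroupOf H S t
  apply idx_ext _ _ hsub
  intro (ξ : IrrCharacter (Subgroup.centralizer
    (((S.subgroupOf H).map (MulAut.conj t).toMonoidHom : Subgroup H) : Set H)))
    (ξ' : IrrCharacter (Subgroup.centralizer
      (((S.map (MulAut.conj (t : G)).toMonoidHom).subgroupOf H : Subgroup H) : Set H))) hag0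
  have hag : ∀ (c : Subgroup.centralizer
      (((S.subgroupOf H).map (MulAut.conj t).toMonoidHom : Subgroup H) : Set H))
      (c' : Subgroup.centralizer
        (((S.map (MulAut.conj (t : G)).toMonoidHom).subgroupOf H : Subgroup H) : Set H)),
      (c : H) = (c' : H) → ξ.1 c = ξ'.1 c' := hag0
  clear hag0
  show ξ ∈ conjBlock (S.subgroupOf H) t (subBlock H S h1 h2 σ) ↔
    ξ' ∈ subBlock H (S.map (MulAut.conj (t : G)).toMonoidHom) h1' h2' (conjBlock S (t : G) σ)
  rw [conjBlock_eq_image, conjBlock_eq_image]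
  have key : ∀ ξ₀ : IrrCharacter (Subgroup.centralizer (S : Set G)),
      conjChar (S.subgroupOf H) t (subChar H S h1 h2 ξ₀) = ξ ↔
        subChar H (S.map (MulAut.conj (t : G)).toMonoidHom) h1' h2' (conjChar S (t : G) ξ₀)
          = ξ' := by
    intro ξ₀
    constructor
    · intro h
      apply Subtype.ext
      funext c'
      have hc : (c' : H) ∈ Subgroup.centralizer
          (((S.subgroupOf H).map (MulAut.conj t).toMonoidHom : Subgroup H) : Set H) := by
        rw [hsub]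
        exact c'.2
      rw [← hag ⟨c', hc⟩ c' rfl, ← h]
      show ξ₀.1 (centConj S (t : G) (subCent H _ h1' h2' c'))
        = ξ₀.1 (subCent H S h1 h2 (centConj (S.subgroupOf H) t ⟨c', hc⟩))
      have e : centConj S (t : G) (subCent H _ h1' h2' c')
          = subCent H S h1 h2 (centConj (S.subgroupOf H) t ⟨c', hc⟩) := by
        apply Subtype.ext
        simp only [centConj_apply, subCent_apply]
        rfl
      rw [e]
    · intro h
      apply Subtype.ext
      funext c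
      have hc : (c : H) ∈ Subgroup.centralizer
          (((S.map (MulAut.conj (t : G)).toMonoidHom).subgroupOf H : Subgroup H) : Set H) := by
        rw [← hsub]
        exact c.2
      rw [hag c ⟨c, hc⟩ rfl, ← h]
      show ξ₀.1 (subCent H S h1 h2 (centConj (S.subgroupOf H) t c))
        = ξ₀.1 (centConj S (t : G) (subCent H _ h1' h2' ⟨c, hc⟩))
      have e : subCent H S h1 h2 (centConj (S.subgroupOf H) t c)
          = centConj S (t : G) (subCent H _ h1' h2' ⟨c, hc⟩) := by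
        apply Subtype.ext
        simp only [centConj_apply, subCent_apply]
        rfl
      rw [e]
  constructor
  · rintro ⟨ξ₁, ⟨ξ₀, hξ₀, rfl⟩, h⟩
    exact ⟨_, ⟨ξ₀, hξ₀, rfl⟩, (key ξ₀).mp h⟩
  · rintro ⟨ξ₁, ⟨ξ₀, hξ₀, rfl⟩, h⟩
    exact ⟨_, ⟨ξ₀, hξ₀, rfl⟩, (key ξ₀).mpr h⟩

/-- Inclusions of pairs of `H` above a pair containing `Q` lift to `G`. -/
theorem subpairLE_of_sub [Finite G] (Q : Subgroup G)
    (hCQ : Subgroup.centralizer (Q : Set G) ≤ H) (a : BrauerPairIdx G) (h1 : a.1 ≤ H)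
    (h2 : Subgroup.centralizer (a.1 : Set G) ≤ H) (hQa : Q ≤ a.1) (z : BrauerPairIdx H)
    (h : Relation.ReflTransGen (NormalSubpairRel p M) (subIdx H a h1 h2) z) :
    ∃ (c : BrauerPairIdx G) (h1' : c.1 ≤ H) (h2' : Subgroup.centralizer (c.1 : Set G) ≤ H),
      z = subIdx H c h1' h2' ∧ a.1 ≤ c.1 ∧ Relation.ReflTransGen (NormalSubpairRel p M) a c := by
  induction h with
  | refl => exact ⟨a, h1, h2, rfl, le_rfl, Relation.ReflTransGen.refl⟩
  | @tail y z _ hyz ih =>
    obtain ⟨c, h1c, h2c, rfl, hac, hch⟩ := ih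
    have hcz : c.1.subgroupOf H ≤ z.1 := hyz.2.2.1
    have hz : Subgroup.centralizer ((z.1.map H.subtype : Subgroup G) : Set G) ≤ H := by
      refine le_trans (Subgroup.centralizer_le ?_) hCQ
      intro q hq
      exact ⟨⟨q, h1c (hac (hQa hq))⟩,
        hcz (Subgroup.mem_subgroupOf.mpr (hac (hQa hq))), rfl⟩
    obtain ⟨d, h1d, h2d, rfl⟩ := exists_eq_subIdx H z hz
    have hcd : NormalSubpairRel p M c d := isNormalSubpair_of_sub H h1c h2c h1d h2d hyz
    exact ⟨d, h1d, h2d, rfl, hac.trans hcd.2.2.1, hch.tail hcd⟩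

end SubIdx

/-- Let `(Q, f)` be a Brauer pair normalized by a subgroup `H ⊇ C_G(Q)` in which `C_G(Q)` has
`p`-power index.  Any two pairs normal above `(Q, f)` with subgroups in `H` are, up to conjugation
in `H`, below a common pair normal above `(Q, f)`. -/
theorem exists_conj_le_of_normal_above [Fintype G] [Fact p.Prime] (hM : IsPModular p M)
    {Q : Subgroup G} {f : Set (IrrCharacter (Subgroup.centralizer (Q : Set G)))}
    (hQf : IsBrauerPair p M Q f) (H : Subgroup G)
    (hCH : Subgroup.centralizer (Q : Set G) ≤ H) (hHN : H ≤ Subgroup.normalizer (Q : Set G))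
    (hHst : ∀ x ∈ H, StabilizesBlock (Subgroup.centralizer (Q : Set G)) f x) (k : ℕ)
    (hidx : ((Subgroup.centralizer (Q : Set G)).subgroupOf H).index = p ^ k)
    (a₁ a₂ : BrauerPairIdx G) (h1 : NormalSubpairRel p M ⟨Q, f⟩ a₁)
    (h2 : NormalSubpairRel p M ⟨Q, f⟩ a₂) (ha₁ : a₁.1 ≤ H) (ha₂ : a₂.1 ≤ H) :
    ∃ a₃ : BrauerPairIdx G, NormalSubpairRel p M ⟨Q, f⟩ a₃ ∧ a₃.1 ≤ H ∧
      Relation.ReflTransGen (NormalSubpairRel p M) a₁ a₃ ∧
      ∃ t ∈ H, Relation.ReflTransGen (NormalSubpairRel p M) (conjIdx t a₂) a₃ := by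
  classical
  have : ((Subgroup.centralizer (Q : Set G)).subgroupOf H).Normal :=
    Subgroup.normal_subgroupOf_of_le_normalizer
      (hHN.trans (normalizer_le_normalizer_centralizer Q))
  obtain ⟨b, hb, hbc⟩ := exists_block_of_subgroup hM (Subgroup.centralizer (Q : Set G)) H hCH k
    hidx hQf.2 hHst
  have hQa₁ : Q ≤ a₁.1 := h1.2.2.1
  have hQa₂ : Q ≤ a₂.1 := h2.2.2.1
  have hC₁ : Subgroup.centralizer (a₁.1 : Set G) ≤ H := (Subgroup.centralizer_le hQa₁).trans hCH
  have hC₂ : Subgroup.centralizer (a₂.1 : Set G) ≤ H := (Subgroup.centralizer_le hQa₂).trans hCH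
  have hp₁ : IsBrauerPairOf p M b (subIdx H a₁ ha₁ hC₁).1 (subIdx H a₁ ha₁ hC₁).2 :=
    isBrauerPairOf_sub_of_isNormalSubpair H ha₁ hC₁ hbc hb h1
  have hp₂ : IsBrauerPairOf p M b (subIdx H a₂ ha₂ hC₂).1 (subIdx H a₂ ha₂ hC₂).2 :=
    isBrauerPairOf_sub_of_isNormalSubpair H ha₂ hC₂ hbc hb h2
  obtain ⟨m, hm, hchain⟩ := exists_maximal_ge (Nat.card H) (subIdx H a₁ ha₁ hC₁) hp₁
    (Nat.sub_le _ _)
  obtain ⟨a₃, h31, h32, rfl, h13, hG₁⟩ := subpairLE_of_sub H Q hCH a₁ ha₁ hC₁ hQa₁ m hchain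
  have hQa₃ : Q ≤ a₃.1 := hQa₁.trans h13
  have hn₃ : NormalSubpairRel p M ⟨Q, f⟩ a₃ :=
    isNormalSubpair_of_isBrauerPairOf_sub H h31 h32 hbc hQf hQa₃ (h31.trans hHN)
      (fun x hx => hHst x (h31 hx)) hm.1
  obtain ⟨t, ht⟩ := exists_conj_subpairLE hM hm hp₂
  have h1' : (conjIdx (t : G) a₂).1 ≤ H := by
    rintro _ ⟨s, hs, rfl⟩
    exact H.mul_mem (H.mul_mem t.2 (ha₂ hs)) (H.inv_mem t.2)
  have hQt : Q ≤ (conjIdx (t : G) a₂).1 := by
    intro q hq
    show q ∈ a₂.1.map (MulAut.conj (t : G)).toMonoidHom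
    rw [mem_map_conj_iff]
    apply hQa₂
    have h3 := (Subgroup.mem_normalizer_iff.mp (Subgroup.inv_mem _ (hHN t.2)) q).mp hq
    rw [inv_inv] at h3
    exact h3
  have h2' : Subgroup.centralizer ((conjIdx (t : G) a₂).1 : Set G) ≤ H :=
    (Subgroup.centralizer_le hQt).trans hCH
  have ht' : Relation.ReflTransGen (NormalSubpairRel p M)
      (subIdx H (conjIdx (t : G) a₂) h1' h2') (subIdx H a₃ h31 h32) := by
    rw [← conjIdx_subIdx H t a₂ ha₂ hC₂ h1' h2']
    exact ht
  obtain ⟨a₄, h41, h42, h4eq, -, hG₂⟩ := subpairLE_of_sub H Q hCH _ h1' h2' hQt _ ht'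
  have h34 : a₃ = a₄ := subIdx_injective H h31 h32 h41 h42 h4eq
  rw [← h34] at hG₂
  exact ⟨a₃, hn₃, h31, hG₁, t, t.2, hG₂⟩

end Cfsg.Agent.Helper25
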