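import Mathlib
import Cfsg.Agent.Helper25.BlockPairs18

/-!
# Shared block-theory library (helper25), part 32: pairs with full automizer

* `exists_mul_sylow`: if every element of a finite group has a `p`-power in the normal subgroup
  `N`, then the group is `N` times any Sylow `p`-subgroup.
* `exists_fixed_class_of_pgroup`: a `p`-subgroup of `N_G(K)` stabilizing a block of `K` fixes a
  class of `K` on which the idempotent of the block is a unit.
* `pairStab`: the stabilizer `N_G(Q, f)` of a Brauer pair.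
* `exists_normalSubpair_full`: if `N_G(Q, f) / C_G(Q)` is a `p`-group, some pair `(S, σ)` normal
  above `(Q, f)` has `N_G(Q, f) = C_G(Q) S`.
-/

set_option autoImplicit false

namespace Cfsg.Agent.Helper25

open Cfsg Cfsg.Agent.Helper2
open scoped ComplexConjugate Pointwise

universe u

variable {G : Type u} [Group G] {p : ℕ} {M : Ideal AlgInt}

/-- If every element of a finite group has a `p`-power in the normal subgroup `N`, then every
element is a product of an element of `N` and an element of a given Sylow `p`-subgroup. -/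
theorem exists_mul_sylow {X : Type*} [Group X] [Finite X] [Fact p.Prime] (N : Subgroup X)
    [N.Normal] (hN : ∀ x : X, ∃ j : ℕ, x ^ (p ^ j) ∈ N) (S : Sylow p X) (x : X) :
    ∃ n ∈ N, ∃ s ∈ (S : Subgroup X), x = n * s := by
  have hp : p.Prime := Fact.out
  have hq : IsPGroup p (X ⧸ N) := by
    intro y
    obtain ⟨x, rfl⟩ := QuotientGroup.mk_surjective y
    obtain ⟨j, hj⟩ := hN x
    refine ⟨j, ?_⟩
    rw [← QuotientGroup.mk_pow]
    exact (QuotientGroup.eq_one_iff _).mpr hj
  obtain ⟨k, hk⟩ := hq.exists_card_eq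
  have hidx : N.index = p ^ k := hk
  have h1 : (N ⊔ (S : Subgroup X)).index ∣ p ^ k := by
    rw [← hidx]
    exact Subgroup.index_dvd_of_le le_sup_left
  have h2 : (N ⊔ (S : Subgroup X)).index ∣ (S : Subgroup X).index :=
    Subgroup.index_dvd_of_le le_sup_right
  obtain ⟨i, -, hi⟩ := (Nat.dvd_prime_pow hp).mp h1
  have hi0 : i = 0 := by
    by_contra hne
    apply S.not_dvd_index
    rw [hi] at h2
    exact (dvd_pow_self p hne).trans h2
  rw [hi0, pow_zero] at hi
  have htop : N ⊔ (S : Subgroup X) = ⊤ := Subgroup.index_eq_one.mp hi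
  have hx : x ∈ ((N ⊔ (S : Subgroup X) : Subgroup X) : Set X) := by
    rw [htop]
    exact Subgroup.mem_top x
  rw [Subgroup.normal_mul] at hx
  obtain ⟨n, hn, s, hs, hns⟩ := Set.mem_mul.mp hx
  exact ⟨n, hn, s, hs, hns.symm⟩

/-- A `p`-subgroup of `N_G(K)` stabilizing the block `e` of `K` fixes a conjugacy class of `K` on
which the idempotent of `e` is a unit. -/
theorem exists_fixed_class_of_pgroup [Finite G] (hM : IsPModular p M) (K : Subgroup G)
    {e : Set (IrrCharacter K)} (he : IsPBlock M e)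
    (X : Subgroup (Subgroup.normalizer (K : Set G))) (hX : IsPGroup p X)
    (hst : ∀ q ∈ X, q • e = e) :
    ∃ k : K, ¬ MemLocalIdeal M (blockCoeff e k) ∧
      ∀ q ∈ X, IsConj ((conjEquiv K ((q : Subgroup.normalizer (K : Set G)) : G) q.2) k) k := by
  classical
  haveI : Fact p.Prime := ⟨hM.1⟩
  letI : Fintype K := Fintype.ofFinite _
  letI : Fintype (ConjClasses K) := Fintype.ofFinite _
  by_contra hcon
  push Not at hcon
  obtain ⟨ζ, hζ⟩ : ∃ ζ, ζ ∈ e := by
    obtain ⟨ξ₀, rfl⟩ := he
    exact ⟨ξ₀, self_mem_blockOf hM ξ₀⟩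
  obtain ⟨φ, hφ⟩ : ∃ φ : ConjClasses K → ℂ, φ = fun c =>
      blockCoeff e (Quotient.out c) * centralChar (ζ : K → ℂ) (Quotient.out c) := ⟨_, rfl⟩
  have hsum : ∑ c : ConjClasses K, φ c = 1 := by
    have h1 := omega_blockCoeff e ζ
    rw [if_pos hζ] at h1
    unfold omega at h1
    rw [Cfsg.Agent.Helper1.sum_eq_sum_conjClasses (fun x => blockCoeff e x * (ζ : K → ℂ) x)
      (fun g h => by
        show blockCoeff e (h * g * h⁻¹) * (ζ : K → ℂ) (h * g * h⁻¹) = blockCoeff e g * (ζ : K → ℂ) g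
        rw [blockCoeff_conj, irr_conj])] at h1
    rw [← h1, Finset.sum_div]
    apply Finset.sum_congr rfl
    intro c _
    rw [hφ]
    show blockCoeff e (Quotient.out c) * centralChar (ζ : K → ℂ) (Quotient.out c) = _
    unfold centralChar
    ring
  have hcl : ∀ (q : Subgroup.normalizer (K : Set G)) (c : ConjClasses K),
      IsConj (Quotient.out (q • c)) ((conjEquiv K (q : G) q.2) (Quotient.out c)) := by
    intro q c
    rw [← ConjClasses.mk_eq_mk_iff_isConj, ← classConjAction_mk]
    have h1 : ConjClasses.mk (Quotient.out c) = c := Quotient.out_eq c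
    have h2 : ConjClasses.mk (Quotient.out (q • c)) = q • c := Quotient.out_eq (q • c)
    rw [h1, h2]
  have hli := li_sum_of_pgroup_action_li hM hX φ ?_ ?_ ?_
  · rw [hsum] at hli
    exact not_li_one hM hli
  · rintro ⟨q, hq⟩ c
    have hqe : q • e = e := hst q hq
    have hqe' : q⁻¹ • e = e := by
      rw [inv_smul_eq_iff, hqe]
    show MemLocalIdeal M (φ (q • c) - φ c)
    obtain ⟨t, ht⟩ := isConj_iff.mp (hcl q c)
    rw [hφ]
    show MemLocalIdeal M (blockCoeff e (Quotient.out (q • c))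
      * centralChar (ζ : K → ℂ) (Quotient.out (q • c))
      - blockCoeff e (Quotient.out c) * centralChar (ζ : K → ℂ) (Quotient.out c))
    rw [← blockCoeff_conj e (Quotient.out (q • c)) t, ← centralChar_conj ζ (Quotient.out (q • c)) t,
      ht]
    have h1 : blockCoeff e ((conjEquiv K (q : G) q.2) (Quotient.out c))
        = blockCoeff e (Quotient.out c) := by
      have h2 := blockCoeff_smul K q⁻¹ e (Quotient.out c)
      rw [hqe', conjEquiv_inv_symm] at h2
      exact h2.symm
    have h3 : centralChar (ζ : K → ℂ) ((conjEquiv K (q : G) q.2) (Quotient.out c))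
        = centralChar ((q⁻¹ • ζ : IrrCharacter K) : K → ℂ) (Quotient.out c) := by
      rw [irr_smul_eq, centralChar_irrComp_equiv, conjEquiv_inv_symm]
    rw [h1, h3, ← mul_sub]
    apply lr_mul_li hM (blockCoeff_lr hM he _)
    have h4 : q⁻¹ • ζ ∈ e := by
      have : q⁻¹ • ζ ∈ q⁻¹ • e := Set.smul_mem_smul_set hζ
      rw [hqe'] at this
      exact this
    exact sameBlock_of_mem hM he h4 hζ _
  · intro c
    rw [hφ]
    exact lr_mul hM (blockCoeff_lr hM he _) (lr_centralChar hM ζ _)
  · intro c hc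
    rw [hφ]
    apply li_mul_lr hM _ (lr_centralChar hM ζ _)
    by_contra hnl
    obtain ⟨q, hq, hnc⟩ := hcon _ hnl
    apply hnc
    have h1 : q • c = c := hc ⟨q, hq⟩
    have h2 := hcl q c
    rw [h1] at h2
    exact h2.symm

/-- The stabilizer `N_G(Q, f)` of a Brauer pair. -/
noncomputable def pairStab (Q : Subgroup G)
    (f : Set (IrrCharacter (Subgroup.centralizer (Q : Set G)))) : Subgroup G :=
  blockStab (Subgroup.centralizer (Q : Set G)) f ⊓ Subgroup.normalizer (Q : Set G)

theorem mem_pairStab [Finite G] (Q : Subgroup G)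
    (f : Set (IrrCharacter (Subgroup.centralizer (Q : Set G)))) (x : G) :
    x ∈ pairStab Q f ↔ x ∈ Subgroup.normalizer (Q : Set G) ∧
      StabilizesBlock (Subgroup.centralizer (Q : Set G)) f x := by
  unfold pairStab
  rw [Subgroup.mem_inf, mem_blockStab, and_comm]

theorem centralizer_le_pairStab [Finite G] (Q : Subgroup G)
    (f : Set (IrrCharacter (Subgroup.centralizer (Q : Set G)))) :
    Subgroup.centralizer (Q : Set G) ≤ pairStab Q f :=
  le_inf (le_blockStab_self _ f) (Subgroup.centralizer_le_normalizer _)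

theorem le_pairStab_self [Finite G] (Q : Subgroup G)
    (f : Set (IrrCharacter (Subgroup.centralizer (Q : Set G)))) : Q ≤ pairStab Q f :=
  le_inf ((Subgroup.le_centralizer_iff.mp le_rfl).trans (centralizer_le_blockStab _ f))
    Subgroup.le_normalizer

theorem pairStab_le_normalizer (Q : Subgroup G)
    (f : Set (IrrCharacter (Subgroup.centralizer (Q : Set G)))) :
    pairStab Q f ≤ Subgroup.normalizer (Q : Set G) := inf_le_right

theorem pairStab_le_normalizer_centralizer (Q : Subgroup G)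
    (f : Set (IrrCharacter (Subgroup.centralizer (Q : Set G)))) :
    pairStab Q f ≤ Subgroup.normalizer
      ((Subgroup.centralizer (Q : Set G) : Subgroup G) : Set G) :=
  inf_le_left.trans (blockStab_le_normalizer _ f)

/-- If `N_G(Q, f) / C_G(Q)` is a `p`-group, some pair `(S, σ)` normal above `(Q, f)` has
`N_G(Q, f) = C_G(Q) S`. -/
theorem exists_normalSubpair_full [Fintype G] [Fact p.Prime] (hM : IsPModular p M)
    {Q : Subgroup G} {f : Set (IrrCharacter (Subgroup.centralizer (Q : Set G)))}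
    (hQf : IsBrauerPair p M Q f)
    (hT : ∀ x ∈ pairStab Q f, ∃ j : ℕ, x ^ (p ^ j) ∈ Subgroup.centralizer (Q : Set G)) :
    ∃ a : BrauerPairIdx G, NormalSubpairRel p M ⟨Q, f⟩ a ∧
      ∀ x ∈ pairStab Q f, ∃ c ∈ Subgroup.centralizer (Q : Set G), ∃ s ∈ a.1, x = c * s := by
  classical
  have hCT : Subgroup.centralizer (Q : Set G) ≤ pairStab Q f := centralizer_le_pairStab Q f
  have hTN := pairStab_le_normalizer_centralizer Q f
  have hTNQ := pairStab_le_normalizer Q f
  -- a Sylow subgroup of the stabilizer and a fixed class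
  have hn : ((Subgroup.centralizer (Q : Set G)).subgroupOf (pairStab Q f)).Normal :=
    Subgroup.normal_subgroupOf_of_le_normalizer hTN
  obtain ⟨S₀⟩ : Nonempty (Sylow p (pairStab Q f)) := inferInstance
  have hX : IsPGroup p ((S₀ : Subgroup (pairStab Q f)).map (Subgroup.inclusion hTN)) :=
    S₀.isPGroup'.map _
  have hXst : ∀ q ∈ (S₀ : Subgroup (pairStab Q f)).map (Subgroup.inclusion hTN), q • f = f := by
    rintro _ ⟨s, -, rfl⟩
    exact (stabilizesBlock_iff_smul_eq (Subgroup.centralizer (Q : Set G)) f _).mp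
      ((mem_pairStab Q f _).mp s.2).2
  obtain ⟨k, hk, hfix⟩ := exists_fixed_class_of_pgroup hM (Subgroup.centralizer (Q : Set G))
    hQf.2 _ hX hXst
  -- every element of the stabilizer centralizes `k` up to an element of `C_G(Q)`
  have hstep2 : ∀ x ∈ pairStab Q f, ∃ c ∈ Subgroup.centralizer (Q : Set G),
      (c * x) * (k : G) = (k : G) * (c * x) := by
    intro x hx
    obtain ⟨n, hn', s, hs, hxs⟩ := exists_mul_sylow
      ((Subgroup.centralizer (Q : Set G)).subgroupOf (pairStab Q f)) (fun y => by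
        obtain ⟨j, hj⟩ := hT (y : G) y.2
        refine ⟨j, ?_⟩
        rw [Subgroup.mem_subgroupOf, Subgroup.coe_pow]
        exact hj) S₀ ⟨x, hx⟩
    have h1 := hfix (Subgroup.inclusion hTN s) ⟨s, hs, rfl⟩
    obtain ⟨c₀, hc₀⟩ := isConj_iff.mp h1
    have h2 : (c₀ : G) * ((s : G) * (k : G) * (s : G)⁻¹) * (c₀ : G)⁻¹ = (k : G) := by
      have h3 := congrArg Subtype.val hc₀
      simpa [conjEquiv_apply] using h3
    have hx' : x = (n : G) * (s : G) := congrArg Subtype.val hxs
    refine ⟨(c₀ : G) * (n : G)⁻¹, Subgroup.mul_mem _ c₀.2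
      (Subgroup.inv_mem _ (Subgroup.mem_subgroupOf.mp hn')), ?_⟩
    rw [hx']
    have e1 : (c₀ : G) * (n : G)⁻¹ * ((n : G) * (s : G)) = (c₀ : G) * (s : G) := by group
    rw [e1]
    calc (c₀ : G) * (s : G) * (k : G)
        = ((c₀ : G) * ((s : G) * (k : G) * (s : G)⁻¹) * (c₀ : G)⁻¹) * ((c₀ : G) * (s : G)) := by
          group
      _ = (k : G) * ((c₀ : G) * (s : G)) := by rw [h2]
  -- the centralizer of `k` in the stabilizer and a Sylow subgroup of it
  obtain ⟨T', hT'⟩ : ∃ T' : Subgroup G,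
      T' = pairStab Q f ⊓ Subgroup.centralizer ({(k : G)} : Set G) := ⟨_, rfl⟩
  have hT'T : T' ≤ pairStab Q f := by
    rw [hT']
    exact inf_le_left
  have hT'k : ∀ y ∈ T', (k : G) * y = y * (k : G) := by
    intro y hy
    rw [hT'] at hy
    exact Subgroup.mem_centralizer_iff.mp hy.2 (k : G) rfl
  have hmemT' : ∀ y ∈ pairStab Q f, y * (k : G) = (k : G) * y → y ∈ T' := by
    intro y hy hyk
    rw [hT']
    refine Subgroup.mem_inf.mpr ⟨hy, ?_⟩
    rw [Subgroup.mem_centralizer_iff]
    intro h hh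
    rw [Set.mem_singleton_iff.mp hh]
    exact hyk.symm
  have hn' : ((Subgroup.centralizer (Q : Set G)).subgroupOf T').Normal :=
    Subgroup.normal_subgroupOf_of_le_normalizer (hT'T.trans hTN)
  obtain ⟨S₁⟩ : Nonempty (Sylow p T') := inferInstance
  have hS₁T' : (S₁ : Subgroup T').map T'.subtype ≤ T' := Subgroup.map_subtype_le _
  have hQT' : Q ≤ T' := by
    intro q hq
    apply hmemT' q (le_pairStab_self Q f hq)
    exact Subgroup.mem_centralizer_iff.mp k.2 q hq
  have hRT' : (S₁ : Subgroup T').map T'.subtype ⊔ Q ≤ T' := sup_le hS₁T' hQT'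
  have hR : IsPGroup p ↥((S₁ : Subgroup T').map T'.subtype ⊔ Q) :=
    IsPGroup.to_sup_of_normal_right' (S₁.isPGroup'.map _) hQf.1
      (hS₁T'.trans (hT'T.trans hTNQ))
  have hRN : (S₁ : Subgroup T').map T'.subtype ⊔ Q ≤ Subgroup.normalizer (Q : Set G) :=
    hRT'.trans (hT'T.trans hTNQ)
  have hRst : ∀ x ∈ (S₁ : Subgroup T').map T'.subtype ⊔ Q,
      StabilizesBlock (Subgroup.centralizer (Q : Set G)) f x :=
    fun x hx => ((mem_pairStab Q f x).mp (hT'T (hRT' hx))).2
  have hkR : (k : G) ∈ Subgroup.centralizer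
      ((((S₁ : Subgroup T').map T'.subtype ⊔ Q : Subgroup G)) : Set G) := by
    rw [Subgroup.mem_centralizer_iff]
    intro r hr
    exact (hT'k r (hRT' hr)).symm
  obtain ⟨g, hg⟩ := exists_normalSubpair_above hM hQf _ hR le_sup_right hRN hRst k hkR hk
  refine ⟨⟨_, g⟩, hg, ?_⟩
  intro x hx
  obtain ⟨c₁, hc₁, hcomm⟩ := hstep2 x hx
  have hy : c₁ * x ∈ T' := hmemT' _ (Subgroup.mul_mem _ (hCT hc₁) hx) hcomm
  obtain ⟨n, hn2, s, hs, hys⟩ := exists_mul_sylow
    ((Subgroup.centralizer (Q : Set G)).subgroupOf T') (fun y => by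
      obtain ⟨j, hj⟩ := hT (y : G) (hT'T y.2)
      refine ⟨j, ?_⟩
      rw [Subgroup.mem_subgroupOf, Subgroup.coe_pow]
      exact hj) S₁ ⟨c₁ * x, hy⟩
  have hy' : c₁ * x = (n : G) * (s : G) := congrArg Subtype.val hys
  refine ⟨c₁⁻¹ * (n : G), Subgroup.mul_mem _ (Subgroup.inv_mem _ hc₁)
    (Subgroup.mem_subgroupOf.mp hn2), (s : G), ?_, ?_⟩
  · exact (le_sup_left : (S₁ : Subgroup T').map T'.subtype ≤ _) ⟨s, hs, rfl⟩
  · rw [mul_assoc, ← hy']
    group

end Cfsg.Agent.Helper25
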