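import Mathlib
import Cfsg.Agent.Helper25.BlockPairs19

/-!
# Shared block-theory library (helper25), part 33: fusion in a nilpotent block

* `mem_mul_centralizer_of_nilpotent`: for a nilpotent block `B` with maximal pair `(P, e)`, if
  `(Q, f) ≤ (P, e)` and `(Q, f)^g ≤ (P, e)` then `g ∈ P C_G(Q)`.
-/

set_option autoImplicit false

namespace Cfsg.Agent.Helper25

open Cfsg Cfsg.Agent.Helper2
open scoped ComplexConjugate Pointwise

universe u

variable {G : Type u} [Group G] {p : ℕ} {M : Ideal AlgInt}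

theorem conjIdx_one [Finite G] (a : BrauerPairIdx G) : conjIdx 1 a = a := by
  obtain ⟨Q, f⟩ := a
  exact conjIdx_eq_self Q f 1 (Subgroup.one_mem _)
    ((mem_blockStab _ f 1).mp (Subgroup.one_mem _))

theorem conjIdx_inv_conjIdx [Finite G] (x : G) (a : BrauerPairIdx G) :
    conjIdx x⁻¹ (conjIdx x a) = a := by
  rw [conjIdx_conjIdx, inv_mul_cancel, conjIdx_one]

theorem mem_normalizer_of_map_conj_eq (P : Subgroup G) (g : G)
    (h : P.map (MulAut.conj g).toMonoidHom = P) : g ∈ Subgroup.normalizer (P : Set G) := by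
  rw [Subgroup.mem_normalizer_iff]
  intro k
  constructor
  · intro hk
    rw [← h]
    exact conj_mem_map_conj P g hk
  · intro hk
    rw [← h, mem_map_conj_iff] at hk
    have e : g⁻¹ * (g * k * g⁻¹) * g = k := by group
    rw [e] at hk
    exact hk

/-- An element fixing a Brauer pair normalizes the subgroup and stabilizes the block. -/
theorem stabilizes_of_conjIdx_eq [Finite G] (P : Subgroup G)
    (e : Set (IrrCharacter (Subgroup.centralizer (P : Set G)))) (g : G)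
    (h : conjIdx g (⟨P, e⟩ : BrauerPairIdx G) = ⟨P, e⟩) :
    g ∈ Subgroup.normalizer (P : Set G) ∧
      StabilizesBlock (Subgroup.centralizer (P : Set G)) e g := by
  have h1 : P.map (MulAut.conj g).toMonoidHom = P := congrArg Sigma.fst h
  have hgN := mem_normalizer_of_map_conj_eq P g h1
  refine ⟨hgN, ?_⟩
  have h2 := conjIdx_eq_smul P e ⟨g, normalizer_le_normalizer_centralizer P hgN⟩ hgN
  rw [h] at h2
  have h3 := eq_of_heq (Sigma.mk.inj h2).2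
  exact (stabilizesBlock_iff_smul_eq _ e ⟨g, normalizer_le_normalizer_centralizer P hgN⟩).mpr
    h3.symm

theorem exists_subpairLE_of_le [Fintype G] (hM : IsPModular p M) {P : Subgroup G}
    {e : Set (IrrCharacter (Subgroup.centralizer (P : Set G)))} (hPe : IsBrauerPair p M P e)
    (S : Subgroup G) (hSP : S ≤ P) :
    ∃ σ : Set (IrrCharacter (Subgroup.centralizer (S : Set G))),
      Relation.ReflTransGen (NormalSubpairRel p M) (⟨S, σ⟩ : BrauerPairIdx G) ⟨P, e⟩ := by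
  obtain ⟨σ, ⟨-, h⟩, -⟩ := exists_unique_subpair hM P S e hPe hSP
  exact ⟨σ, h⟩

theorem subpairLE_of_le_of_subpairLE [Fintype G] (hM : IsPModular p M) {P : Subgroup G}
    {e : Set (IrrCharacter (Subgroup.centralizer (P : Set G)))} (hPe : IsBrauerPair p M P e)
    {Q S : Subgroup G} {f : Set (IrrCharacter (Subgroup.centralizer (Q : Set G)))}
    {σ : Set (IrrCharacter (Subgroup.centralizer (S : Set G)))}
    (hQ : Relation.ReflTransGen (NormalSubpairRel p M) (⟨Q, f⟩ : BrauerPairIdx G) ⟨P, e⟩)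
    (hS : Relation.ReflTransGen (NormalSubpairRel p M) (⟨S, σ⟩ : BrauerPairIdx G) ⟨P, e⟩)
    (hQS : Q ≤ S) :
    Relation.ReflTransGen (NormalSubpairRel p M) (⟨Q, f⟩ : BrauerPairIdx G) ⟨S, σ⟩ := by
  have hSσ : IsBrauerPair p M S σ := isBrauerPair_of_subpairLE hPe hS
  have hSP : S ≤ P := subpairLE_le _ _ hS
  obtain ⟨f', ⟨hf', hle'⟩, -⟩ := exists_unique_subpair hM S Q σ hSσ hQS
  obtain ⟨f₀, -, huniq⟩ := exists_unique_subpair hM P Q e hPe (hQS.trans hSP)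
  have hle'' : Relation.ReflTransGen (NormalSubpairRel p M) (⟨Q, f'⟩ : BrauerPairIdx G) ⟨S, σ⟩ :=
    hle'
  have e1 : f' = f₀ := huniq f' ⟨hf', hle''.trans hS⟩
  have e2 : f = f₀ := huniq f ⟨(isBrauerPair_of_subpairLE hPe hQ).2, hQ⟩
  rw [e2, ← e1]
  exact hle''

/-- The base case: an element carrying the maximal pair of a nilpotent block below itself lies in
`P C_G(P)`. -/
theorem mem_mul_centralizer_of_maximal [Fintype G] [Fact p.Prime] (hM : IsPModular p M)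
    {B : Set (IrrCharacter G)} {P : Subgroup G}
    {e : Set (IrrCharacter (Subgroup.centralizer (P : Set G)))}
    (hmax : IsMaximalBrauerPair p M B P e) (hnil : IsNilpotentBlock p M B) (g : G)
    (h : Relation.ReflTransGen (NormalSubpairRel p M) (conjIdx g (⟨P, e⟩ : BrauerPairIdx G))
      ⟨P, e⟩) :
    ∃ u ∈ P, ∃ c ∈ Subgroup.centralizer (P : Set G), g = u * c := by
  classical
  have hp : p.Prime := Fact.out
  have hle : P.map (MulAut.conj g).toMonoidHom ≤ P := subpairLE_le _ _ h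
  have hcard : Nat.card (P.map (MulAut.conj g).toMonoidHom) = Nat.card P :=
    Subgroup.card_map_of_injective (MulAut.conj g).injective
  have heq : P.map (MulAut.conj g).toMonoidHom = P :=
    Subgroup.eq_of_le_of_card_ge hle hcard.ge
  have h2 : conjIdx g (⟨P, e⟩ : BrauerPairIdx G) = ⟨P, e⟩ := eq_of_subpairLE_of_eq hM _ _ h heq
  obtain ⟨hgN, hgst⟩ := stabilizes_of_conjIdx_eq P e g h2
  have hH : NoUpperPair p M P e := fun R hR hPR hne hRN hst x hx =>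
    li_blockCoeff_of_maximal hM hmax R hR hPR hne hRN hst x hx
  obtain ⟨j, m, hm, hn⟩ := Nat.exists_eq_pow_mul_and_not_dvd (orderOf_pos g).ne' p hp.ne_one
  have hgT : g ∈ blockStab (Subgroup.centralizer (P : Set G)) e :=
    (mem_blockStab _ e g).mpr hgst
  have h3 : g ^ (p ^ j) ∈ Subgroup.centralizer (P : Set G) := by
    apply hnil.2 P e hmax.1 _ (Subgroup.pow_mem _ hgN _)
      ((mem_blockStab _ e _).mp (Subgroup.pow_mem _ hgT _))
    intro hdvd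
    apply hm
    have h4 : orderOf (g ^ (p ^ j)) ∣ m := by
      apply orderOf_dvd_of_pow_eq_one
      rw [← pow_mul, ← hn, pow_orderOf_eq_one]
    exact hdvd.trans h4
  have h4 : g ^ m ∈ P ⊔ Subgroup.centralizer (P : Set G) :=
    mem_sup_of_noUpperPair hM hmax.1.1 hH (g ^ m) (Subgroup.pow_mem _ hgN _)
      ((mem_blockStab _ e _).mp (Subgroup.pow_mem _ hgT _)) j
      (by rw [← pow_mul, mul_comm, ← hn, pow_orderOf_eq_one])
  have h5 : g ∈ P ⊔ Subgroup.centralizer (P : Set G) :=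
    mem_of_pow_mem_of_coprime _ g
      (Nat.Coprime.pow_left j ((Nat.Prime.coprime_iff_not_dvd hp).mpr hm))
      ((le_sup_right : Subgroup.centralizer (P : Set G) ≤ _) h3) h4
  have h6 : g ∈ ((P ⊔ Subgroup.centralizer (P : Set G) : Subgroup G) : Set G) := h5
  rw [Subgroup.coe_mul_of_left_le_normalizer_right P (Subgroup.centralizer (P : Set G))
    (Subgroup.le_normalizer.trans (normalizer_le_normalizer_centralizer P))] at h6
  obtain ⟨u, hu, c, hc, huc⟩ := Set.mem_mul.mp h6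
  exact ⟨u, hu, c, hc, huc.symm⟩

/-- The inductive step for a fully normalized pair. -/
theorem mem_mul_centralizer_step [Fintype G] [Fact p.Prime] (hM : IsPModular p M)
    {B : Set (IrrCharacter G)} {P : Subgroup G}
    {e : Set (IrrCharacter (Subgroup.centralizer (P : Set G)))}
    (hmax : IsMaximalBrauerPair p M B P e) (hnil : IsNilpotentBlock p M B) (n : ℕ)
    (ih : ∀ (Q : Subgroup G) (f : Set (IrrCharacter (Subgroup.centralizer (Q : Set G)))) (g : G),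
      Relation.ReflTransGen (NormalSubpairRel p M) (⟨Q, f⟩ : BrauerPairIdx G) ⟨P, e⟩ →
      Relation.ReflTransGen (NormalSubpairRel p M) (conjIdx g (⟨Q, f⟩ : BrauerPairIdx G))
        ⟨P, e⟩ →
      Nat.card P - Nat.card Q ≤ n →
      ∃ u ∈ P, ∃ c ∈ Subgroup.centralizer (Q : Set G), g = u * c)
    {Q₁ : Subgroup G} {f₁ : Set (IrrCharacter (Subgroup.centralizer (Q₁ : Set G)))}
    (h1le : Relation.ReflTransGen (NormalSubpairRel p M) (⟨Q₁, f₁⟩ : BrauerPairIdx G) ⟨P, e⟩)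
    (hcard : Nat.card P - Nat.card Q₁ ≤ n + 1) (hne : Q₁ ≠ P)
    (hfn : ∀ x : G,
      Relation.ReflTransGen (NormalSubpairRel p M) (conjIdx x (⟨Q₁, f₁⟩ : BrauerPairIdx G))
        ⟨P, e⟩ →
      Nat.card ↥(P ⊓ Subgroup.normalizer
        (((conjIdx x (⟨Q₁, f₁⟩ : BrauerPairIdx G)).1 : Subgroup G) : Set G))
        ≤ Nat.card ↥(P ⊓ Subgroup.normalizer (Q₁ : Set G)))
    (h : G)
    (hh : Relation.ReflTransGen (NormalSubpairRel p M) (conjIdx h (⟨Q₁, f₁⟩ : BrauerPairIdx G))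
      ⟨P, e⟩) :
    ∃ u ∈ P, ∃ c ∈ Subgroup.centralizer (Q₁ : Set G), h = u * c := by
  classical
  have hp : p.Prime := Fact.out
  have hPe : IsBrauerPair p M P e := hmax.1.1
  have hQ₁P : Q₁ ≤ P := subpairLE_le _ _ h1le
  have hQ₁f₁ : IsBrauerPair p M Q₁ f₁ := isBrauerPair_of_subpairLE hPe h1le
  have hB₁ : IsBrauerPairOf p M B Q₁ f₁ :=
    (isBrauerPairOf_iff_of_subpairLE hM B _ _ h1le).mp hmax.1
  -- the stabilizer modulo the centralizer is a `p`-group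
  have hT : ∀ x ∈ pairStab Q₁ f₁, ∃ j : ℕ, x ^ (p ^ j) ∈ Subgroup.centralizer (Q₁ : Set G) := by
    intro x hx
    obtain ⟨j, m, hm, hn⟩ := Nat.exists_eq_pow_mul_and_not_dvd (orderOf_pos x).ne' p hp.ne_one
    refine ⟨j, ?_⟩
    have hxj : x ^ (p ^ j) ∈ pairStab Q₁ f₁ := Subgroup.pow_mem _ hx _
    obtain ⟨h1, h2⟩ := (mem_pairStab Q₁ f₁ _).mp hxj
    apply hnil.2 Q₁ f₁ hB₁ _ h1 h2
    intro hdvd
    apply hm
    have h3 : orderOf (x ^ (p ^ j)) ∣ m := by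
      apply orderOf_dvd_of_pow_eq_one
      rw [← pow_mul, ← hn, pow_orderOf_eq_one]
    exact hdvd.trans h3
  have hTN := pairStab_le_normalizer_centralizer Q₁ f₁
  have hnorm : ((Subgroup.centralizer (Q₁ : Set G)).subgroupOf (pairStab Q₁ f₁)).Normal :=
    Subgroup.normal_subgroupOf_of_le_normalizer hTN
  obtain ⟨k, hk⟩ : ∃ k : ℕ,
      ((Subgroup.centralizer (Q₁ : Set G)).subgroupOf (pairStab Q₁ f₁)).index = p ^ k := by
    have hq : IsPGroup p (↥(pairStab Q₁ f₁) ⧸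
        (Subgroup.centralizer (Q₁ : Set G)).subgroupOf (pairStab Q₁ f₁)) := by
      intro y
      obtain ⟨x, rfl⟩ := QuotientGroup.mk_surjective y
      obtain ⟨j, hj⟩ := hT (x : G) x.2
      refine ⟨j, ?_⟩
      rw [← QuotientGroup.mk_pow]
      refine (QuotientGroup.eq_one_iff _).mpr ?_
      rw [Subgroup.mem_subgroupOf, Subgroup.coe_pow]
      exact hj
    exact hq.exists_card_eq
  have hCH := centralizer_le_pairStab Q₁ f₁
  have hHN := pairStab_le_normalizer Q₁ f₁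
  have hHst : ∀ x ∈ pairStab Q₁ f₁,
      StabilizesBlock (Subgroup.centralizer (Q₁ : Set G)) f₁ x :=
    fun x hx => ((mem_pairStab Q₁ f₁ x).mp hx).2
  have hG1 : ∀ a : BrauerPairIdx G, NormalSubpairRel p M ⟨Q₁, f₁⟩ a → a.1 ≤ pairStab Q₁ f₁ :=
    fun a ha x hx => (mem_pairStab Q₁ f₁ x).mpr ⟨ha.2.2.2.1 hx, ha.2.2.2.2.1 x hx⟩
  -- the pair on `N_P(Q₁)`
  obtain ⟨N₁, hN₁⟩ : ∃ N₁ : Subgroup G, N₁ = P ⊓ Subgroup.normalizer (Q₁ : Set G) := ⟨_, rfl⟩
  have hN₁P : N₁ ≤ P := by rw [hN₁]; exact inf_le_left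
  have hN₁N : N₁ ≤ Subgroup.normalizer (Q₁ : Set G) := by rw [hN₁]; exact inf_le_right
  have hQ₁N₁ : Q₁ ≤ N₁ := by rw [hN₁]; exact le_inf hQ₁P Subgroup.le_normalizer
  obtain ⟨ν₁, hν₁⟩ := exists_subpairLE_of_le hM hPe N₁ hN₁P
  have hN₁ν₁ : IsBrauerPair p M N₁ ν₁ := isBrauerPair_of_subpairLE hPe hν₁
  have hn₁ : NormalSubpairRel p M ⟨Q₁, f₁⟩ ⟨N₁, ν₁⟩ :=
    normalSubpair_of_subpairLE hM hN₁ν₁ (subpairLE_of_le_of_subpairLE hM hPe h1le hν₁ hQ₁N₁)
      hN₁N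
  have hN₁T : N₁ ≤ pairStab Q₁ f₁ := hG1 _ hn₁
  -- a pair normal above `(Q₁, f₁)` and above `(N₁, ν₁)` is `(N₁, ν₁)`
  have hv : ∀ a₃ : BrauerPairIdx G, NormalSubpairRel p M ⟨Q₁, f₁⟩ a₃ →
      Relation.ReflTransGen (NormalSubpairRel p M) (⟨N₁, ν₁⟩ : BrauerPairIdx G) a₃ →
      a₃ = ⟨N₁, ν₁⟩ := by
    intro a₃ hn₃ hle₃
    have hB₃ : IsBrauerPairOf p M B a₃.1 a₃.2 :=
      (isBrauerPairOf_iff_of_normalSubpair hM hn₃ B).mpr hB₁
    obtain ⟨x, hx⟩ := exists_conj_subpairLE hM hmax hB₃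
    have hx' : Relation.ReflTransGen (NormalSubpairRel p M) (conjIdx x a₃) ⟨P, e⟩ := hx
    have hxQ : Relation.ReflTransGen (NormalSubpairRel p M)
        (conjIdx x (⟨Q₁, f₁⟩ : BrauerPairIdx G)) ⟨P, e⟩ :=
      (subpairLE_conj x (Relation.ReflTransGen.single hn₃)).trans hx'
    have hc1 := hfn x hxQ
    have hsub : a₃.1.map (MulAut.conj x).toMonoidHom ≤ P ⊓ Subgroup.normalizer
        (((conjIdx x (⟨Q₁, f₁⟩ : BrauerPairIdx G)).1 : Subgroup G) : Set G) := by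
      apply le_inf (subpairLE_le _ _ hx')
      rintro _ ⟨s, hs, rfl⟩
      exact conj_mem_normalizer_map_conj Q₁ x (hn₃.2.2.2.1 hs)
    have hc2 : Nat.card a₃.1 ≤ Nat.card ↥(P ⊓ Subgroup.normalizer
        (((conjIdx x (⟨Q₁, f₁⟩ : BrauerPairIdx G)).1 : Subgroup G) : Set G)) := by
      have h8 : Nat.card (a₃.1.map (MulAut.conj x).toMonoidHom) = Nat.card a₃.1 :=
        Subgroup.card_map_of_injective (MulAut.conj x).injective
      rw [← h8]
      exact Subgroup.card_le_of_le hsub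
    have hc3 : Nat.card a₃.1 ≤ Nat.card N₁ := by
      rw [hN₁]
      exact hc2.trans hc1
    have hle₁ : N₁ ≤ a₃.1 := subpairLE_le _ _ hle₃
    have heq : N₁ = a₃.1 := Subgroup.eq_of_le_of_card_ge hle₁ hc3
    exact (eq_of_subpairLE_of_eq hM _ _ hle₃ heq).symm
  -- the stabilizer is `C_G(Q₁) N₁`
  obtain ⟨aS, hnS, hfull⟩ := exists_normalSubpair_full hM hQ₁f₁ hT
  have hST : aS.1 ≤ pairStab Q₁ f₁ := hG1 _ hnS
  obtain ⟨a₃, hn₃, -, hle₃, t, htT, ht⟩ := exists_conj_le_of_normal_above hM hQ₁f₁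
    (pairStab Q₁ f₁) hCH hHN hHst k hk ⟨N₁, ν₁⟩ aS hn₁ hnS hN₁T hST
  have h3eq := hv a₃ hn₃ hle₃
  rw [h3eq] at ht
  have htS : aS.1.map (MulAut.conj t).toMonoidHom ≤ N₁ := subpairLE_le _ _ ht
  have hTCN : ∀ x ∈ pairStab Q₁ f₁, ∃ c ∈ Subgroup.centralizer (Q₁ : Set G), ∃ s ∈ N₁,
      x = c * s := by
    intro x hx
    have hx' : t⁻¹ * x * t ∈ pairStab Q₁ f₁ :=
      Subgroup.mul_mem _ (Subgroup.mul_mem _ (Subgroup.inv_mem _ htT) hx) htT
    obtain ⟨c, hc, s, hs, hxs⟩ := hfull _ hx'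
    refine ⟨t * c * t⁻¹, (Subgroup.mem_normalizer_iff.mp (hTN htT) c).mp hc, t * s * t⁻¹,
      htS ⟨s, hs, rfl⟩, ?_⟩
    have e1 : t * c * t⁻¹ * (t * s * t⁻¹) = t * (c * s) * t⁻¹ := by group
    rw [e1, ← hxs]
    group
  -- the conjugate pair `(Q₂, f₂)`
  obtain ⟨⟨Q₂, f₂⟩, hq2⟩ : ∃ q : BrauerPairIdx G, q = conjIdx h ⟨Q₁, f₁⟩ := ⟨_, rfl⟩
  rw [← hq2] at hh
  have hQ₂ : Q₂ = Q₁.map (MulAut.conj h).toMonoidHom := congrArg Sigma.fst hq2
  have hQ₂P : Q₂ ≤ P := subpairLE_le _ _ hh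
  have hcQ : Nat.card Q₂ = Nat.card Q₁ := by
    rw [hQ₂]
    exact Subgroup.card_map_of_injective (MulAut.conj h).injective
  have hQ₂ne : Q₂ ≠ P := by
    intro heq
    apply hne
    apply Subgroup.eq_of_le_of_card_ge hQ₁P
    rw [← heq, hcQ]
  obtain ⟨x₀, hx₀P, hx₀N, hx₀Q⟩ := exists_normalizer_of_lt hp hPe.1 hQ₂P hQ₂ne
  obtain ⟨N₂, hN₂⟩ : ∃ N₂ : Subgroup G, N₂ = P ⊓ Subgroup.normalizer (Q₂ : Set G) := ⟨_, rfl⟩
  have hN₂P : N₂ ≤ P := by rw [hN₂]; exact inf_le_left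
  have hN₂N : N₂ ≤ Subgroup.normalizer (Q₂ : Set G) := by rw [hN₂]; exact inf_le_right
  have hQ₂N₂ : Q₂ ≤ N₂ := by rw [hN₂]; exact le_inf hQ₂P Subgroup.le_normalizer
  have hx₀N₂ : x₀ ∈ N₂ := by rw [hN₂]; exact ⟨hx₀P, hx₀N⟩
  obtain ⟨ν₂, hν₂⟩ := exists_subpairLE_of_le hM hPe N₂ hN₂P
  have hN₂ν₂ : IsBrauerPair p M N₂ ν₂ := isBrauerPair_of_subpairLE hPe hν₂
  have hn₂ : NormalSubpairRel p M ⟨Q₂, f₂⟩ ⟨N₂, ν₂⟩ :=
    normalSubpair_of_subpairLE hM hN₂ν₂ (subpairLE_of_le_of_subpairLE hM hPe hh hν₂ hQ₂N₂)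
      hN₂N
  have hn₂' : NormalSubpairRel p M ⟨Q₁, f₁⟩ (conjIdx h⁻¹ (⟨N₂, ν₂⟩ : BrauerPairIdx G)) := by
    have h5 : NormalSubpairRel p M (conjIdx h⁻¹ (⟨Q₂, f₂⟩ : BrauerPairIdx G))
        (conjIdx h⁻¹ (⟨N₂, ν₂⟩ : BrauerPairIdx G)) := isNormalSubpair_conj h⁻¹ hn₂
    rw [hq2, conjIdx_inv_conjIdx] at h5
    exact h5
  have ha₂T : (conjIdx h⁻¹ (⟨N₂, ν₂⟩ : BrauerPairIdx G)).1 ≤ pairStab Q₁ f₁ := hG1 _ hn₂'
  obtain ⟨a₃', hn₃', -, hle₃', t', ht'T, ht'⟩ := exists_conj_le_of_normal_above hM hQ₁f₁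
    (pairStab Q₁ f₁) hCH hHN hHst k hk ⟨N₁, ν₁⟩ (conjIdx h⁻¹ (⟨N₂, ν₂⟩ : BrauerPairIdx G))
    hn₁ hn₂' hN₁T ha₂T
  have h3eq' := hv a₃' hn₃' hle₃'
  rw [h3eq', conjIdx_conjIdx] at ht'
  have ht'' : Relation.ReflTransGen (NormalSubpairRel p M)
      (conjIdx (t' * h⁻¹) (⟨N₂, ν₂⟩ : BrauerPairIdx G)) ⟨P, e⟩ := ht'.trans hν₁
  have hcardN₂ : Nat.card P - Nat.card N₂ ≤ n := by
    have hlt : Nat.card Q₂ < Nat.card N₂ := by
      by_contra hnot
      have h6 := Subgroup.eq_of_le_of_card_ge hQ₂N₂ (not_lt.mp hnot)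
      apply hx₀Q
      rw [h6]
      exact hx₀N₂
    omega
  obtain ⟨u, hu, c, hc, huc⟩ := ih N₂ ν₂ (t' * h⁻¹) hν₂ ht'' hcardN₂
  obtain ⟨c₁, hc₁, n₁, hn₁', ht'eq⟩ := hTCN t' ht'T
  have hcQ₂ : c ∈ Subgroup.centralizer (Q₂ : Set G) := Subgroup.centralizer_le hQ₂N₂ hc
  have hc₃ : h⁻¹ * c⁻¹ * h ∈ Subgroup.centralizer (Q₁ : Set G) := by
    apply (mem_centralizer_map_conj_iff Q₁ h c⁻¹).mp
    rw [← hQ₂]
    exact Subgroup.inv_mem _ hcQ₂
  refine ⟨u⁻¹ * n₁, P.mul_mem (P.inv_mem hu) (hN₁P hn₁'),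
    n₁⁻¹ * c₁ * n₁ * (h⁻¹ * c⁻¹ * h), ?_, ?_⟩
  · apply Subgroup.mul_mem _ _ hc₃
    have hn₁N := normalizer_le_normalizer_centralizer Q₁ (hN₁N hn₁')
    have h7 := (Subgroup.mem_normalizer_iff.mp (Subgroup.inv_mem _ hn₁N) c₁).mp hc₁
    rw [inv_inv] at h7
    exact h7
  · have e1 : u⁻¹ * n₁ * (n₁⁻¹ * c₁ * n₁ * (h⁻¹ * c⁻¹ * h))
        = u⁻¹ * ((c₁ * n₁) * h⁻¹) * c⁻¹ * h := by group
    rw [e1, ← ht'eq, huc]
    group

/-- **Fusion in a nilpotent block.** For a nilpotent block `B` with maximal Brauer pair `(P, e)`: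
if `(Q, f) ≤ (P, e)` and the conjugate `(Q, f)^g` also lies below `(P, e)`, then
`g ∈ P C_G(Q)`. -/
theorem mem_mul_centralizer_of_nilpotent [Fintype G] [Fact p.Prime] (hM : IsPModular p M)
    {B : Set (IrrCharacter G)} {P : Subgroup G}
    {e : Set (IrrCharacter (Subgroup.centralizer (P : Set G)))}
    (hmax : IsMaximalBrauerPair p M B P e) (hnil : IsNilpotentBlock p M B) :
    ∀ (n : ℕ) (Q : Subgroup G) (f : Set (IrrCharacter (Subgroup.centralizer (Q : Set G))))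
      (g : G),
      Relation.ReflTransGen (NormalSubpairRel p M) (⟨Q, f⟩ : BrauerPairIdx G) ⟨P, e⟩ →
      Relation.ReflTransGen (NormalSubpairRel p M) (conjIdx g (⟨Q, f⟩ : BrauerPairIdx G))
        ⟨P, e⟩ →
      Nat.card P - Nat.card Q ≤ n →
      ∃ u ∈ P, ∃ c ∈ Subgroup.centralizer (Q : Set G), g = u * c := by
  classical
  have hPe : IsBrauerPair p M P e := hmax.1.1
  have hbase : ∀ (Q : Subgroup G) (f : Set (IrrCharacter (Subgroup.centralizer (Q : Set G))))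
      (g : G),
      Relation.ReflTransGen (NormalSubpairRel p M) (⟨Q, f⟩ : BrauerPairIdx G) ⟨P, e⟩ →
      Relation.ReflTransGen (NormalSubpairRel p M) (conjIdx g (⟨Q, f⟩ : BrauerPairIdx G))
        ⟨P, e⟩ → Q = P →
      ∃ u ∈ P, ∃ c ∈ Subgroup.centralizer (Q : Set G), g = u * c := by
    intro Q f g hle hle' hQeq
    have h1 : (⟨Q, f⟩ : BrauerPairIdx G) = ⟨P, e⟩ := eq_of_subpairLE_of_eq hM _ _ hle hQeq
    rw [h1] at hle'
    obtain ⟨u, hu, c, hc, huc⟩ := mem_mul_centralizer_of_maximal hM hmax hnil g hle'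
    refine ⟨u, hu, c, ?_, huc⟩
    rw [hQeq]
    exact hc
  intro n
  induction n with
  | zero =>
    intro Q f g hle hle' hn
    have hQP : Q ≤ P := subpairLE_le _ _ hle
    exact hbase Q f g hle hle' (Subgroup.eq_of_le_of_card_ge hQP (by omega))
  | succ n ih =>
    intro Q f g hle hle' hn
    by_cases hQeq : Q = P
    · exact hbase Q f g hle hle' hQeq
    have hQP : Q ≤ P := subpairLE_le _ _ hle
    -- a conjugate with the largest normalizer in `P`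
    obtain ⟨a₀, ha₀, hmaxa⟩ := Set.exists_max_image
      {x : G | Relation.ReflTransGen (NormalSubpairRel p M)
        (conjIdx x (⟨Q, f⟩ : BrauerPairIdx G)) ⟨P, e⟩}
      (fun x => Nat.card ↥(P ⊓ Subgroup.normalizer
        (((conjIdx x (⟨Q, f⟩ : BrauerPairIdx G)).1 : Subgroup G) : Set G)))
      (Set.toFinite _) ⟨g, hle'⟩
    obtain ⟨⟨Q₁, f₁⟩, hq1⟩ : ∃ q : BrauerPairIdx G, q = conjIdx a₀ ⟨Q, f⟩ := ⟨_, rfl⟩
    have hQ₁ : Q₁ = Q.map (MulAut.conj a₀).toMonoidHom := congrArg Sigma.fst hq1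
    have h1le : Relation.ReflTransGen (NormalSubpairRel p M) (⟨Q₁, f₁⟩ : BrauerPairIdx G)
        ⟨P, e⟩ := by
      rw [hq1]
      exact ha₀
    have hcQ : Nat.card Q₁ = Nat.card Q := by
      rw [hQ₁]
      exact Subgroup.card_map_of_injective (MulAut.conj a₀).injective
    have hQ₁ne : Q₁ ≠ P := by
      intro heq
      apply hQeq
      apply Subgroup.eq_of_le_of_card_ge hQP
      rw [← heq, hcQ]
    have hfn : ∀ x : G,
        Relation.ReflTransGen (NormalSubpairRel p M) (conjIdx x (⟨Q₁, f₁⟩ : BrauerPairIdx G))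
          ⟨P, e⟩ →
        Nat.card ↥(P ⊓ Subgroup.normalizer
          (((conjIdx x (⟨Q₁, f₁⟩ : BrauerPairIdx G)).1 : Subgroup G) : Set G))
          ≤ Nat.card ↥(P ⊓ Subgroup.normalizer (Q₁ : Set G)) := by
      intro x hx
      rw [hq1, conjIdx_conjIdx] at hx
      have h2 := hmaxa (x * a₀) hx
      have h3 : (conjIdx x (⟨Q₁, f₁⟩ : BrauerPairIdx G)).1
          = (conjIdx (x * a₀) (⟨Q, f⟩ : BrauerPairIdx G)).1 := by
        rw [hq1, conjIdx_conjIdx]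
      rw [h3, hQ₁]
      exact h2
    have hstep := mem_mul_centralizer_step hM hmax hnil n ih h1le (by omega) hQ₁ne hfn
    obtain ⟨u₁, hu₁, c₁, hc₁, e1⟩ := hstep a₀⁻¹ (by
      rw [hq1, conjIdx_inv_conjIdx]
      exact hle)
    obtain ⟨u₂, hu₂, c₂, hc₂, e2⟩ := hstep (g * a₀⁻¹) (by
      rw [hq1, conjIdx_conjIdx, inv_mul_cancel_right]
      exact hle')
    refine ⟨u₂ * u₁⁻¹, P.mul_mem hu₂ (P.inv_mem hu₁), a₀⁻¹ * (c₁⁻¹ * c₂) * a₀, ?_, ?_⟩
    · apply (mem_centralizer_map_conj_iff Q a₀ _).mp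
      rw [← hQ₁]
      exact Subgroup.mul_mem _ (Subgroup.inv_mem _ hc₁) hc₂
    · have e3 : g = (g * a₀⁻¹) * a₀ := by group
      rw [e3, e2, e1]
      group

end Cfsg.Agent.Helper25
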