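import Mathlib
import Cfsg.Agent.Helper25.BlockPairs20

/-!
# Shared block-theory library (helper25), part 34: local blocks of a nilpotent block

* `cenCent`: for `R ≤ C_G(Q)`, the centralizer of `R` in `C_G(Q)` is `C_G(R Q)`.
* `isNilpotentBlock_centralizer`: for a Brauer pair `(Q, f)` of a nilpotent block, `f` is a
  nilpotent block of `C_G(Q)`.
* `isDefectGroup_inf_centralizer_of_nilpotent`: for a nilpotent block with maximal pair `(P, e)`
  and `(Q, f) ≤ (P, e)`, `C_P(Q)` is a defect group of `f`.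
-/

set_option autoImplicit false

namespace Cfsg.Agent.Helper25

open Cfsg Cfsg.Agent.Helper2
open scoped ComplexConjugate Pointwise

universe u

variable {G : Type u} [Group G] {p : ℕ} {M : Ideal AlgInt}

theorem mem_centralizer_sup_iff (A B : Subgroup G) (y : G) :
    y ∈ Subgroup.centralizer ((A ⊔ B : Subgroup G) : Set G) ↔
      y ∈ Subgroup.centralizer (A : Set G) ∧ y ∈ Subgroup.centralizer (B : Set G) := by
  constructor
  · intro h
    exact ⟨Subgroup.centralizer_le (le_sup_left : A ≤ A ⊔ B) h,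
      Subgroup.centralizer_le (le_sup_right : B ≤ A ⊔ B) h⟩
  · rintro ⟨hA, hB⟩
    have h : A ⊔ B ≤ Subgroup.centralizer ({y} : Set G) := by
      apply sup_le
      · intro a ha
        rw [Subgroup.mem_centralizer_iff]
        intro h hh
        rw [Set.mem_singleton_iff.mp hh]
        exact (Subgroup.mem_centralizer_iff.mp hA a ha).symm
      · intro a ha
        rw [Subgroup.mem_centralizer_iff]
        intro h hh
        rw [Set.mem_singleton_iff.mp hh]
        exact (Subgroup.mem_centralizer_iff.mp hB a ha).symm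
    rw [Subgroup.mem_centralizer_iff]
    intro s hs
    exact (Subgroup.mem_centralizer_iff.mp (h hs) y rfl).symm

/-- For `R ≤ C_G(Q)`, the centralizer of `R` in `C_G(Q)` is `C_G(R Q)`. -/
def cenCent (Q : Subgroup G) (R : Subgroup (Subgroup.centralizer (Q : Set G))) :
    ↥(Subgroup.centralizer (R : Set (Subgroup.centralizer (Q : Set G)))) ≃*
      ↥(Subgroup.centralizer
        ((R.map (Subgroup.centralizer (Q : Set G)).subtype ⊔ Q : Subgroup G) : Set G)) where
  toFun y := ⟨((y : Subgroup.centralizer (Q : Set G)) : G),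
    (mem_centralizer_sup_iff _ _ _).mpr ⟨by
      rw [Subgroup.mem_centralizer_iff]
      rintro _ ⟨r, hr, rfl⟩
      exact congrArg Subtype.val (Subgroup.mem_centralizer_iff.mp y.2 r hr),
      (y : Subgroup.centralizer (Q : Set G)).2⟩⟩
  invFun z := ⟨⟨(z : G), ((mem_centralizer_sup_iff _ _ _).mp z.2).2⟩, by
    rw [Subgroup.mem_centralizer_iff]
    intro r hr
    apply Subtype.ext
    exact Subgroup.mem_centralizer_iff.mp ((mem_centralizer_sup_iff _ _ _).mp z.2).1 (r : G)
      ⟨r, hr, rfl⟩⟩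
  left_inv y := rfl
  right_inv z := rfl
  map_mul' a b := rfl

/-- For a Brauer pair `(Q, f)` of a nilpotent block, `f` is a nilpotent block of `C_G(Q)`. -/
theorem isNilpotentBlock_centralizer [Fintype G] [Fact p.Prime] (hM : IsPModular p M)
    {B : Set (IrrCharacter G)} (hnil : IsNilpotentBlock p M B) {Q : Subgroup G}
    {f : Set (IrrCharacter (Subgroup.centralizer (Q : Set G)))}
    (hQf : IsBrauerPairOf p M B Q f) : IsNilpotentBlock p M f := by
  classical
  refine ⟨hQf.1.2, ?_⟩
  intro R g hRg x hxN hxst hxreg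
  have hR' : IsPGroup p (R.map (Subgroup.centralizer (Q : Set G)).subtype) := hRg.1.1.map _
  have hR'C : R.map (Subgroup.centralizer (Q : Set G)).subtype
      ≤ Subgroup.centralizer (Q : Set G) := Subgroup.map_subtype_le R
  have hR'N : R.map (Subgroup.centralizer (Q : Set G)).subtype
      ≤ Subgroup.normalizer (Q : Set G) :=
    hR'C.trans (Subgroup.centralizer_le_normalizer _)
  have hS : IsPGroup p ↥(R.map (Subgroup.centralizer (Q : Set G)).subtype ⊔ Q) :=
    IsPGroup.to_sup_of_normal_right' hR' hQf.1.1 hR'N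
  have hSN : R.map (Subgroup.centralizer (Q : Set G)).subtype ⊔ Q
      ≤ Subgroup.normalizer (Q : Set G) := sup_le hR'N Subgroup.le_normalizer
  have hST : R.map (Subgroup.centralizer (Q : Set G)).subtype ⊔ Q ≤ pairStab Q f :=
    sup_le (hR'C.trans (centralizer_le_pairStab Q f)) (le_pairStab_self Q f)
  have hσB : IsPBlock M (irrEquiv (cenCent Q R).symm '' g) :=
    isPBlock_image_irrEquiv _ hRg.1.2
  have hns : IsNormalSubpair p M Q f (R.map (Subgroup.centralizer (Q : Set G)).subtype ⊔ Q)
      (irrEquiv (cenCent Q R).symm '' g) := by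
    refine ⟨hQf.1, ⟨hS, hσB⟩, le_sup_right, hSN,
      fun x hx => ((mem_pairStab Q f x).mp (hST hx)).2, ?_⟩
    rintro _ ⟨ξ₀, hξ₀, rfl⟩
    have h1 := hRg.2.2 ξ₀ hξ₀
    have h2 : brauerOmega (R.map (Subgroup.centralizer (Q : Set G)).subtype ⊔ Q)
        (subgroupBlockCoeff (Subgroup.centralizer (Q : Set G)) f)
        ((irrEquiv (cenCent Q R).symm ξ₀ : IrrCharacter _) : _ → ℂ)
        = brauerOmega R (blockCoeff f) (ξ₀ : _ → ℂ) := by
      unfold brauerOmega
      rw [← finsum_comp_equiv (cenCent Q R).toEquiv]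
      apply finsum_congr
      intro y
      have e1 : subgroupBlockCoeff (Subgroup.centralizer (Q : Set G)) f
          (((cenCent Q R).toEquiv y : Subgroup.centralizer
            ((R.map (Subgroup.centralizer (Q : Set G)).subtype ⊔ Q : Subgroup G) : Set G)) : G)
          = blockCoeff f (y : Subgroup.centralizer (Q : Set G)) := by
        have hmem : (((cenCent Q R).toEquiv y : Subgroup.centralizer
            ((R.map (Subgroup.centralizer (Q : Set G)).subtype ⊔ Q : Subgroup G) : Set G)) : G)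
            ∈ Subgroup.centralizer (Q : Set G) := (y : Subgroup.centralizer (Q : Set G)).2
        unfold subgroupBlockCoeff
        rw [dif_pos hmem]
        rfl
      rw [e1, irrEquiv_apply, irrEquiv_apply, map_one]
      show _ * ξ₀.1 ((cenCent Q R).symm ((cenCent Q R) y)) / _ = _
      rw [MulEquiv.symm_apply_apply]
    rw [h2]
    exact h1
  have hSB : IsBrauerPairOf p M B (R.map (Subgroup.centralizer (Q : Set G)).subtype ⊔ Q)
      (irrEquiv (cenCent Q R).symm '' g) :=
    (isBrauerPairOf_iff_of_normalSubpair hM hns B).mpr hQf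
  -- `x` normalizes the pair
  have hxR' : (x : G) ∈ Subgroup.normalizer
      ((R.map (Subgroup.centralizer (Q : Set G)).subtype : Subgroup G) : Set G) := by
    rw [Subgroup.mem_normalizer_iff]
    intro h
    constructor
    · rintro ⟨r, hr, rfl⟩
      exact ⟨x * r * x⁻¹, (Subgroup.mem_normalizer_iff.mp hxN r).mp hr, rfl⟩
    · rintro ⟨r, hr, hrh⟩
      have h3 := (Subgroup.mem_normalizer_iff.mp (Subgroup.inv_mem _ hxN) r).mp hr
      refine ⟨x⁻¹ * r * x⁻¹⁻¹, h3, ?_⟩
      have h4 : ((r : Subgroup.centralizer (Q : Set G)) : G) = (x : G) * h * (x : G)⁻¹ := hrh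
      show (x : G)⁻¹ * (r : G) * (x : G)⁻¹⁻¹ = h
      rw [h4]
      group
  have hxS : (x : G) ∈ Subgroup.normalizer
      ((R.map (Subgroup.centralizer (Q : Set G)).subtype ⊔ Q : Subgroup G) : Set G) :=
    Subgroup.normalizer_inf_normalizer_le_normalizer_sup _ _
      ⟨hxR', Subgroup.centralizer_le_normalizer _ x.2⟩
  have hxst' : StabilizesBlock (Subgroup.centralizer
      ((R.map (Subgroup.centralizer (Q : Set G)).subtype ⊔ Q : Subgroup G) : Set G))
      (irrEquiv (cenCent Q R).symm '' g) (x : G) := by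
    refine ⟨normalizer_le_normalizer_centralizer _ hxS, ?_⟩
    rintro _ ⟨χ, hχ, rfl⟩
    obtain ⟨χ', hχ', hcc⟩ := hxst.2 χ hχ
    refine ⟨irrEquiv (cenCent Q R).symm χ', ⟨χ', hχ', rfl⟩, ?_⟩
    intro k k' hk
    rw [irrEquiv_apply, irrEquiv_apply]
    apply hcc
    apply Subtype.ext
    exact hk
  have hxreg' : IsPRegular p (x : G) := by
    unfold IsPRegular
    rw [Subgroup.orderOf_coe]
    exact hxreg
  have hxC := hnil.2 _ _ hSB (x : G) hxS hxst' hxreg'
  rw [Subgroup.mem_centralizer_iff]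
  intro r hr
  apply Subtype.ext
  exact Subgroup.mem_centralizer_iff.mp ((mem_centralizer_sup_iff _ _ _).mp hxC).1 (r : G)
    ⟨r, hr, rfl⟩

/-- For a nilpotent block with maximal Brauer pair `(P, e)` and `(Q, f) ≤ (P, e)`, the group
`C_P(Q)` is a defect group of `f`. -/
theorem isDefectGroup_inf_centralizer_of_nilpotent [Fintype G] [Fact p.Prime]
    (hM : IsPModular p M) {B : Set (IrrCharacter G)} {P : Subgroup G}
    {e : Set (IrrCharacter (Subgroup.centralizer (P : Set G)))}
    (hmax : IsMaximalBrauerPair p M B P e) (hnil : IsNilpotentBlock p M B) {Q : Subgroup G}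
    {f : Set (IrrCharacter (Subgroup.centralizer (Q : Set G)))}
    (hle : SubpairLE p M Q f P e) :
    IsDefectGroup p M f ((P ⊓ Subgroup.centralizer (Q : Set G)).subgroupOf
      (Subgroup.centralizer (Q : Set G))) := by
  classical
  have hPe := hmax.1.1
  have hQP : Q ≤ P := subpairLE_le (⟨Q, f⟩ : BrauerPairIdx G) ⟨P, e⟩ hle
  have hf : IsPBlock M f :=
    (isBrauerPair_of_subpairLE (a := (⟨Q, f⟩ : BrauerPairIdx G)) (c := ⟨P, e⟩) hPe hle).2
  obtain ⟨x, hx, hD⟩ := exists_conj_defectGroup hM hmax hle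
  obtain ⟨u, hu, c, hc, huc⟩ := mem_mul_centralizer_of_nilpotent hM hmax hnil (Nat.card P)
    Q f x hle hx (Nat.sub_le _ _)
  obtain ⟨D, hDf, hDle⟩ := exists_defectGroup_of_subpairLE hM hPe hQP hle
  have hcard1 : Nat.card D = p ^ blockDefect p f :=
    Cfsg.Agent.Helper7.card_defectGroup hM hf hDf
  have hfx : IsPBlock M (conjBlock Q x f) :=
    (isBrauerPair_of_subpairLE (a := (⟨_, conjBlock Q x f⟩ : BrauerPairIdx G)) (c := ⟨P, e⟩)
      hPe hx).2
  have hcard2 := Cfsg.Agent.Helper7.card_defectGroup hM hfx hD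
  rw [blockDefect_conjBlock] at hcard2
  have hc3 : Nat.card ↥((P ⊓ Subgroup.centralizer
      ((Q.map (MulAut.conj x).toMonoidHom : Subgroup G) : Set G)).subgroupOf
      (Subgroup.centralizer ((Q.map (MulAut.conj x).toMonoidHom : Subgroup G) : Set G)))
      = Nat.card ↥(P ⊓ Subgroup.centralizer
        ((Q.map (MulAut.conj x).toMonoidHom : Subgroup G) : Set G)) :=
    Nat.card_congr (Subgroup.subgroupOfEquivOfLe inf_le_right).toEquiv
  have hc4 : Nat.card ↥((P ⊓ Subgroup.centralizer (Q : Set G)).subgroupOf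
      (Subgroup.centralizer (Q : Set G)))
      = Nat.card ↥(P ⊓ Subgroup.centralizer (Q : Set G)) :=
    Nat.card_congr (Subgroup.subgroupOfEquivOfLe inf_le_right).toEquiv
  have hmap : (P ⊓ Subgroup.centralizer (Q : Set G)).map (MulAut.conj u).toMonoidHom
      = P ⊓ Subgroup.centralizer ((Q.map (MulAut.conj x).toMonoidHom : Subgroup G) : Set G) := by
    ext h
    rw [mem_map_conj_iff, Subgroup.mem_inf, Subgroup.mem_inf, mem_centralizer_map_conj_iff]
    have e1 : x⁻¹ * h * x = c⁻¹ * (u⁻¹ * h * u) * c := by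
      rw [huc]
      group
    rw [e1]
    constructor
    · rintro ⟨h1, h2⟩
      refine ⟨?_, Subgroup.mul_mem _ (Subgroup.mul_mem _ (Subgroup.inv_mem _ hc) h2) hc⟩
      have h3 := P.mul_mem (P.mul_mem hu h1) (P.inv_mem hu)
      have e2 : u * (u⁻¹ * h * u) * u⁻¹ = h := by group
      rw [e2] at h3
      exact h3
    · rintro ⟨h1, h2⟩
      refine ⟨P.mul_mem (P.mul_mem (P.inv_mem hu) h1) hu, ?_⟩
      have h3 := Subgroup.mul_mem _ (Subgroup.mul_mem _ hc h2) (Subgroup.inv_mem _ hc)
      have e2 : c * (c⁻¹ * (u⁻¹ * h * u) * c) * c⁻¹ = u⁻¹ * h * u := by group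
      rw [e2] at h3
      exact h3
  have hc5 : Nat.card ↥(P ⊓ Subgroup.centralizer
      ((Q.map (MulAut.conj x).toMonoidHom : Subgroup G) : Set G))
      = Nat.card ↥(P ⊓ Subgroup.centralizer (Q : Set G)) := by
    rw [← hmap]
    exact Subgroup.card_map_of_injective (MulAut.conj u).injective
  have hcardeq : Nat.card D ≤ Nat.card ↥((P ⊓ Subgroup.centralizer (Q : Set G)).subgroupOf
      (Subgroup.centralizer (Q : Set G))) := by
    rw [hcard1, ← hcard2, hc3, hc5, hc4]
  have hDeq := Subgroup.eq_of_le_of_card_ge hDle hcardeq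
  rw [hDeq]
  exact hDf

end Cfsg.Agent.Helper25
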