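import Mathlib
import Cfsg.Agent.Helper25.BlockPairs21
import Cfsg.Agent.Helper25.BlockPairs14
import Cfsg.Agent.Helper25.BlockPairs15
import Cfsg.Agent.Helper7.SectionSum
import Cfsg.Agent.Helper7.FirstMain

/-!
# Abelian defect groups: free action of the inertial quotient and nilpotent local blocks (helper25)

* `af_lift`: a Brauer pair `(R, g)` of the block `f` of `C_G(Q)` lifts to the Brauer pair
  `(RQ, g)` of `B`, together with the elements stabilizing it.
* `af_maximal`: a defect group `P` with a block `c` of `C_G(P)` inducing `B` is a maximal Brauer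
  pair.
* `af_inducedIn`, `af_inducedIn_unique`: for `(Q, f) ≤ (P, c)` with `P ≤ C_G(Q)`, the block `c`
  induces `f` inside `C_G(Q)`, and nothing else.
* `af_mem_centralizer`, `af_nilpotent`: the two directions of the main statement.
-/

set_option autoImplicit false

namespace Cfsg.Agent.Helper25

open Cfsg Cfsg.Agent.Helper2
open scoped ComplexConjugate Pointwise

universe u

variable {G : Type u} [Group G] {p : ℕ} {M : Ideal AlgInt}

/-- Lift of a Brauer pair of the block `f` of `C_G(Q)` to a Brauer pair of `B`. -/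
theorem af_lift [Fintype G] [Fact p.Prime] (hM : IsPModular p M)
    {B : Set (IrrCharacter G)} {Q : Subgroup G}
    {f : Set (IrrCharacter (Subgroup.centralizer (Q : Set G)))}
    (hQf : IsBrauerPairOf p M B Q f) (R : Subgroup (Subgroup.centralizer (Q : Set G)))
    (g : Set (IrrCharacter (Subgroup.centralizer (R : Set (Subgroup.centralizer (Q : Set G))))))
    (hRg : IsBrauerPairOf p M f R g) (x : Subgroup.centralizer (Q : Set G))
    (hxN : x ∈ Subgroup.normalizer (R : Set (Subgroup.centralizer (Q : Set G))))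
    (hxst : StabilizesBlock (Subgroup.centralizer (R : Set (Subgroup.centralizer (Q : Set G))))
      g x) :
    IsBrauerPairOf p M B (R.map (Subgroup.centralizer (Q : Set G)).subtype ⊔ Q)
        (irrEquiv (cenCent Q R).symm '' g) ∧
      (x : G) ∈ Subgroup.normalizer
        ((R.map (Subgroup.centralizer (Q : Set G)).subtype ⊔ Q : Subgroup G) : Set G) ∧
      StabilizesBlock (Subgroup.centralizer
        ((R.map (Subgroup.centralizer (Q : Set G)).subtype ⊔ Q : Subgroup G) : Set G))
        (irrEquiv (cenCent Q R).symm '' g) (x : G) := by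
  classical
  have hR' : IsPGroup p (R.map (Subgroup.centralizer (Q : Set G)).subtype) := hRg.1.1.map _
  have hR'C : R.map (Subgroup.centralizer (Q : Set G)).subtype
      ≤ Subgroup.centralizer (Q : Set G) := Subgroup.map_subtype_le R
  have hR'N : R.map (Subgroup.centralizer (Q : Set G)).subtype
      ≤ Subgroup.normalizer (Q : Set G) :=
    hR'C.trans (Subgroup.centralizer_le_normalizer _)
  have hS : IsPGroup p ↥(R.map (Subgroup.centralizer (Q : Set G)).subtype ⊔ Q) :=
    IsPGroup.to_sup_of_normal_right' hR' hQf.1.1 hR'N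
  have hSN : R.map (Subgroup.centralizer (Q : Set G)).subtype ⊔ Q
      ≤ Subgroup.normalizer (Q : Set G) := sup_le hR'N Subgroup.le_normalizer
  have hST : R.map (Subgroup.centralizer (Q : Set G)).subtype ⊔ Q ≤ pairStab Q f :=
    sup_le (hR'C.trans (centralizer_le_pairStab Q f)) (le_pairStab_self Q f)
  have hσB : IsPBlock M (irrEquiv (cenCent Q R).symm '' g) :=
    isPBlock_image_irrEquiv _ hRg.1.2
  have hns : IsNormalSubpair p M Q f (R.map (Subgroup.centralizer (Q : Set G)).subtype ⊔ Q)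
      (irrEquiv (cenCent Q R).symm '' g) := by
    refine ⟨hQf.1, ⟨hS, hσB⟩, le_sup_right, hSN,
      fun x hx => ((mem_pairStab Q f x).mp (hST hx)).2, ?_⟩
    rintro _ ⟨ξ₀, hξ₀, rfl⟩
    have h1 := hRg.2.2 ξ₀ hξ₀
    have h2 : brauerOmega (R.map (Subgroup.centralizer (Q : Set G)).subtype ⊔ Q)
        (subgroupBlockCoeff (Subgroup.centralizer (Q : Set G)) f)
        ((irrEquiv (cenCent Q R).symm ξ₀ : IrrCharacter _) : _ → ℂ)
        = brauerOmega R (blockCoeff f) (ξ₀ : _ → ℂ) := by
      unfold brauerOmega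
      rw [← finsum_comp_equiv (cenCent Q R).toEquiv]
      apply finsum_congr
      intro y
      have e1 : subgroupBlockCoeff (Subgroup.centralizer (Q : Set G)) f
          (((cenCent Q R).toEquiv y : Subgroup.centralizer
            ((R.map (Subgroup.centralizer (Q : Set G)).subtype ⊔ Q : Subgroup G) : Set G)) : G)
          = blockCoeff f (y : Subgroup.centralizer (Q : Set G)) := by
        have hmem : (((cenCent Q R).toEquiv y : Subgroup.centralizer
            ((R.map (Subgroup.centralizer (Q : Set G)).subtype ⊔ Q : Subgroup G) : Set G)) : G)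
            ∈ Subgroup.centralizer (Q : Set G) := (y : Subgroup.centralizer (Q : Set G)).2
        unfold subgroupBlockCoeff
        rw [dif_pos hmem]
        rfl
      rw [e1, irrEquiv_apply, irrEquiv_apply, map_one]
      show _ * ξ₀.1 ((cenCent Q R).symm ((cenCent Q R) y)) / _ = _
      rw [MulEquiv.symm_apply_apply]
    rw [h2]
    exact h1
  have hSB : IsBrauerPairOf p M B (R.map (Subgroup.centralizer (Q : Set G)).subtype ⊔ Q)
      (irrEquiv (cenCent Q R).symm '' g) :=
    (isBrauerPairOf_iff_of_normalSubpair hM hns B).mpr hQf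
  -- `x` normalizes the pair
  have hxR' : (x : G) ∈ Subgroup.normalizer
      ((R.map (Subgroup.centralizer (Q : Set G)).subtype : Subgroup G) : Set G) := by
    rw [Subgroup.mem_normalizer_iff]
    intro h
    constructor
    · rintro ⟨r, hr, rfl⟩
      exact ⟨x * r * x⁻¹, (Subgroup.mem_normalizer_iff.mp hxN r).mp hr, rfl⟩
    · rintro ⟨r, hr, hrh⟩
      have h3 := (Subgroup.mem_normalizer_iff.mp (Subgroup.inv_mem _ hxN) r).mp hr
      refine ⟨x⁻¹ * r * x⁻¹⁻¹, h3, ?_⟩
      have h4 : ((r : Subgroup.centralizer (Q : Set G)) : G) = (x : G) * h * (x : G)⁻¹ := hrh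
      show (x : G)⁻¹ * (r : G) * (x : G)⁻¹⁻¹ = h
      rw [h4]
      group
  have hxS : (x : G) ∈ Subgroup.normalizer
      ((R.map (Subgroup.centralizer (Q : Set G)).subtype ⊔ Q : Subgroup G) : Set G) :=
    Subgroup.normalizer_inf_normalizer_le_normalizer_sup _ _
      ⟨hxR', Subgroup.centralizer_le_normalizer _ x.2⟩
  have hxst' : StabilizesBlock (Subgroup.centralizer
      ((R.map (Subgroup.centralizer (Q : Set G)).subtype ⊔ Q : Subgroup G) : Set G))
      (irrEquiv (cenCent Q R).symm '' g) (x : G) := by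
    refine ⟨normalizer_le_normalizer_centralizer _ hxS, ?_⟩
    rintro _ ⟨χ, hχ, rfl⟩
    obtain ⟨χ', hχ', hcc⟩ := hxst.2 χ hχ
    refine ⟨irrEquiv (cenCent Q R).symm χ', ⟨χ', hχ', rfl⟩, ?_⟩
    intro k k' hk
    rw [irrEquiv_apply, irrEquiv_apply]
    apply hcc
    apply Subtype.ext
    exact hk
  exact ⟨hSB, hxS, hxst'⟩

/-- A defect group `P` of `B` together with a block of `C_G(P)` inducing `B` is a maximal Brauer
pair of `B`. -/
theorem af_maximal [Fintype G] [Fact p.Prime] (hM : IsPModular p M)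
    {B : Set (IrrCharacter G)} (hB : IsPBlock M B) {P : Subgroup G}
    (hPD : IsDefectGroup p M B P) {c : Set (IrrCharacter (Subgroup.centralizer (P : Set G)))}
    (hc : IsInducedBlock M (Subgroup.centralizer (P : Set G)) c B) :
    IsMaximalBrauerPair p M B P c := by
  have hPp : IsPGroup p P := Cfsg.Agent.Helper7.isPGroup_of_isDefectGroup hPD
  obtain ⟨B', hB'⟩ := exists_isBrauerPairOf hM (⟨hPp, hc.1⟩ : IsBrauerPair p M P c)
  have h1 := isInducedBlock_of_isBrauerPairOf hM hB'
  have h2 : B' = B := Cfsg.Agent.Helper7.isInducedBlock_unique hM _ h1 hc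
  rw [h2] at hB'
  exact isMaximal_of_card hM hB' (Cfsg.Agent.Helper7.card_defectGroup hM hB hPD)

/-- For `(Q, f) ≤ (P, c)` with `P ≤ C_G(Q)`, the block `c` induces `f` inside `C_G(Q)`. -/
theorem af_inducedIn [Fintype G] [Fact p.Prime] (hM : IsPModular p M) {P Q : Subgroup G}
    {c : Set (IrrCharacter (Subgroup.centralizer (P : Set G)))}
    {f : Set (IrrCharacter (Subgroup.centralizer (Q : Set G)))}
    (hPc : IsBrauerPair p M P c) (hQP : Q ≤ P)
    (hPC : P ≤ Subgroup.centralizer (Q : Set G)) (hle : SubpairLE p M Q f P c) :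
    IsInducedBlockIn M (Subgroup.centralizer (Q : Set G)) (Subgroup.centralizer (P : Set G))
      c f := by
  classical
  let _ : Fintype (Subgroup.centralizer (Q : Set G)) := Fintype.ofFinite _
  have hCH : Subgroup.centralizer (P : Set G) ≤ Subgroup.centralizer (Q : Set G) :=
    Subgroup.centralizer_le hQP
  have hns : IsNormalSubpair p M Q f P c :=
    normalSubpair_of_subpairLE hM (a := ⟨Q, f⟩) (c := ⟨P, c⟩) hPc hle
      (hPC.trans (Subgroup.centralizer_le_normalizer _))
  have h1 := isBrauerPairOf_sub P Q hPC hCH hns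
  have h2 := isInducedBlock_of_isBrauerPairOf hM h1
  refine ⟨hPc.2, h2.2.1, ?_⟩
  intro ξ hξ χ hχ h
  have h3 := h2.2.2 (subChar (Subgroup.centralizer (Q : Set G)) P hPC hCH ξ) ⟨ξ, hξ, rfl⟩ χ hχ h
  have h4 : inducedCentralChar (Subgroup.centralizer
        ((P.subgroupOf (Subgroup.centralizer (Q : Set G)) :
          Subgroup (Subgroup.centralizer (Q : Set G))) : Set (Subgroup.centralizer (Q : Set G))))
        ((subChar (Subgroup.centralizer (Q : Set G)) P hPC hCH ξ).1) h
      = inducedCentralCharIn (Subgroup.centralizer (Q : Set G))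
          (Subgroup.centralizer (P : Set G)) (ξ.1) (h : G) := by
    unfold inducedCentralChar inducedCentralCharIn
    apply finsum_mem_eq_of_bijOn
      (fun k' => subCent (Subgroup.centralizer (Q : Set G)) P hPC hCH k')
    · refine ⟨?_, ?_, ?_⟩
      · intro k' hk'
        obtain ⟨t, ht⟩ := isConj_iff.mp hk'
        refine ⟨t⁻¹, ?_⟩
        have ht' : ((t : Subgroup.centralizer (Q : Set G)) : G) * (h : G) * (t : G)⁻¹
            = ((k' : Subgroup.centralizer (Q : Set G)) : G) := congrArg Subtype.val ht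
        show ((t⁻¹ : Subgroup.centralizer (Q : Set G)) : G)
          * ((subCent (Subgroup.centralizer (Q : Set G)) P hPC hCH k' :
              Subgroup.centralizer (P : Set G)) : G)
          * ((t⁻¹ : Subgroup.centralizer (Q : Set G)) : G)⁻¹ = (h : G)
        rw [subCent_apply, ← ht']
        simp [mul_assoc]
      · exact (subCent (Subgroup.centralizer (Q : Set G)) P hPC hCH).injective.injOn
      · intro k hk
        obtain ⟨x, hx⟩ := hk
        refine ⟨(subCent (Subgroup.centralizer (Q : Set G)) P hPC hCH).symm k, ?_,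
          MulEquiv.apply_symm_apply _ k⟩
        apply isConj_iff.mpr
        refine ⟨x⁻¹, ?_⟩
        apply Subtype.ext
        show ((x⁻¹ : Subgroup.centralizer (Q : Set G)) : G) * (h : G)
          * ((x⁻¹ : Subgroup.centralizer (Q : Set G)) : G)⁻¹ = (k : G)
        rw [← hx]
        simp [mul_assoc]
    · intro k' _
      rw [subChar_apply, subChar_apply, map_one]
  rw [← h4]
  exact h3

/-- A block induces at most one block inside a subgroup. -/
theorem af_inducedIn_unique [Finite G] (hM : IsPModular p M) (H K : Subgroup G)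
    {c : Set (IrrCharacter K)} {f f' : Set (IrrCharacter H)}
    (h : IsInducedBlockIn M H K c f) (h' : IsInducedBlockIn M H K c f') : f = f' := by
  obtain ⟨ξ, hξ⟩ : ∃ ξ, ξ ∈ c := by
    obtain ⟨ξ₀, h0⟩ := h.1
    exact ⟨ξ₀, h0 ▸ self_mem_blockOf hM ξ₀⟩
  obtain ⟨χ, hχ⟩ : ∃ χ, χ ∈ f := by
    obtain ⟨χ₀, h0⟩ := h.2.1
    exact ⟨χ₀, h0 ▸ self_mem_blockOf hM χ₀⟩
  obtain ⟨χ', hχ'⟩ : ∃ χ, χ ∈ f' := by
    obtain ⟨χ₀, h0⟩ := h'.2.1
    exact ⟨χ₀, h0 ▸ self_mem_blockOf hM χ₀⟩
  have hs : SameBlock M (χ : H → ℂ) (χ' : H → ℂ) := by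
    intro g
    have h1 := h.2.2 ξ hξ χ hχ g
    have h2 := h'.2.2 ξ hξ χ' hχ' g
    have h3 := li_sub hM h2 h1
    rwa [sub_sub_sub_cancel_left] at h3
  have h4 : χ' ∈ f := by
    rw [eq_blockOf_of_mem hM h.2.1 hχ]
    exact hs
  rw [eq_blockOf_of_mem hM h.2.1 h4, eq_blockOf_of_mem hM h'.2.1 hχ']

/-- Decomposition of an element into commuting powers, a `p`-element and a `p`-regular one. -/
theorem af_decomp [Finite G] (hp : p.Prime) (g : G) :
    ∃ (a b : ℤ) (k : ℕ), g ^ a * g ^ b = g ∧ (g ^ a) ^ (p ^ k) = 1 ∧ ¬ p ∣ orderOf (g ^ b) := by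
  obtain ⟨a, m, hm, ham⟩ := Nat.exists_eq_pow_mul_and_not_dvd (orderOf_pos g).ne' p hp.ne_one
  have hcop : Nat.Coprime (p ^ a) m :=
    Nat.Coprime.pow_left a ((Nat.Prime.coprime_iff_not_dvd hp).mpr hm)
  obtain ⟨u, v, huv⟩ := Nat.isCoprime_iff_coprime.mpr hcop
  have hgo : g ^ ((p ^ a : ℕ) * m : ℤ) = 1 := by
    have : ((p ^ a : ℕ) * m : ℤ) = ((orderOf g : ℕ) : ℤ) := by rw [ham]; push_cast; ring
    rw [this, zpow_natCast, pow_orderOf_eq_one]
  refine ⟨v * (m : ℤ), u * ((p ^ a : ℕ) : ℤ), a, ?_, ?_, ?_⟩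
  · rw [← zpow_add]
    have : v * (m : ℤ) + u * ((p ^ a : ℕ) : ℤ) = 1 := by linarith
    rw [this, zpow_one]
  · rw [← zpow_natCast, ← zpow_mul]
    have : v * (m : ℤ) * ((p ^ a : ℕ) : ℤ) = ((p ^ a : ℕ) * m : ℤ) * v := by ring
    rw [this, zpow_mul, hgo, one_zpow]
  · intro hd
    apply hm
    refine hd.trans (orderOf_dvd_of_pow_eq_one ?_)
    rw [← zpow_natCast, ← zpow_mul]
    have : u * ((p ^ a : ℕ) : ℤ) * (m : ℤ) = ((p ^ a : ℕ) * m : ℤ) * u := by ring
    rw [this, zpow_mul, hgo, one_zpow]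

/-- Abelian defect group, `(Q, f) ≤ (P, c)` with `f` nilpotent: an element of the stabilizer of
`(P, c)` centralizing `Q` centralizes `P`. -/
theorem af_mem_centralizer [Fintype G] [Fact p.Prime] (hM : IsPModular p M)
    {B : Set (IrrCharacter G)} {P : Subgroup G}
    {c : Set (IrrCharacter (Subgroup.centralizer (P : Set G)))}
    (hmax : IsMaximalBrauerPair p M B P c) (hPab : P ≤ Subgroup.centralizer (P : Set G))
    {Q : Subgroup G} (hQP : Q ≤ P)
    {f : Set (IrrCharacter (Subgroup.centralizer (Q : Set G)))}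
    (hle : SubpairLE p M Q f P c) (hnil : IsNilpotentBlock p M f) (g : G)
    (hgN : g ∈ Subgroup.normalizer (P : Set G))
    (hgst : StabilizesBlock (Subgroup.centralizer (P : Set G)) c g)
    (hgQ : g ∈ Subgroup.centralizer (Q : Set G)) : g ∈ Subgroup.centralizer (P : Set G) := by
  classical
  have hp : p.Prime := Fact.out
  have hPc := hmax.1.1
  have hPC : P ≤ Subgroup.centralizer (Q : Set G) := fun u hu =>
    Subgroup.centralizer_le hQP (hPab hu)
  have hCH : Subgroup.centralizer (P : Set G) ≤ Subgroup.centralizer (Q : Set G) :=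
    Subgroup.centralizer_le hQP
  have hH : NoUpperPair p M P c := fun R hR hPR hne hRN hst x hx =>
    li_blockCoeff_of_maximal hM hmax R hR hPR hne hRN hst x hx
  have hgB : g ∈ blockStab (Subgroup.centralizer (P : Set G)) c :=
    (mem_blockStab _ c g).mpr hgst
  obtain ⟨a, b, k, hab, hak, hbreg⟩ := af_decomp hp g
  -- the `p`-part
  have hz : g ^ a ∈ Subgroup.centralizer (P : Set G) := by
    have h1 := mem_sup_of_noUpperPair hM hPc hH (g ^ a) (Subgroup.zpow_mem _ hgN a)
      ((mem_blockStab _ c _).mp (Subgroup.zpow_mem _ hgB a))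
      k hak
    exact (sup_le hPab le_rfl) h1
  -- the `p`-regular part
  have hy : g ^ b ∈ Subgroup.centralizer (P : Set G) := by
    have hns : IsNormalSubpair p M Q f P c :=
      normalSubpair_of_subpairLE hM (a := ⟨Q, f⟩) (c := ⟨P, c⟩) hPc hle
        (hPC.trans (Subgroup.centralizer_le_normalizer _))
    have h1 := isBrauerPairOf_sub P Q hPC hCH hns
    have hyQ : g ^ b ∈ Subgroup.centralizer (Q : Set G) := Subgroup.zpow_mem _ hgQ b
    have hyN : g ^ b ∈ Subgroup.normalizer (P : Set G) := Subgroup.zpow_mem _ hgN b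
    have hyst : StabilizesBlock (Subgroup.centralizer (P : Set G)) c (g ^ b) :=
      (mem_blockStab _ c _).mp (Subgroup.zpow_mem _ hgB b)
    obtain ⟨y, hy⟩ : ∃ y : Subgroup.centralizer (Q : Set G), y = ⟨g ^ b, hyQ⟩ := ⟨_, rfl⟩
    have hyv : (y : G) = g ^ b := by rw [hy]
    have hyN' : y ∈ Subgroup.normalizer
        ((P.subgroupOf (Subgroup.centralizer (Q : Set G)) :
          Subgroup (Subgroup.centralizer (Q : Set G))) : Set (Subgroup.centralizer (Q : Set G))) := by
      rw [Subgroup.mem_normalizer_iff]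
      intro h
      rw [Subgroup.mem_subgroupOf, Subgroup.mem_subgroupOf]
      have h2 := Subgroup.mem_normalizer_iff.mp hyN (h : G)
      rw [← hyv] at h2
      exact h2
    have hyst' : StabilizesBlock (Subgroup.centralizer
        ((P.subgroupOf (Subgroup.centralizer (Q : Set G)) :
          Subgroup (Subgroup.centralizer (Q : Set G))) : Set (Subgroup.centralizer (Q : Set G))))
        (subBlock (Subgroup.centralizer (Q : Set G)) P hPC hCH c) y := by
      refine ⟨normalizer_le_normalizer_centralizer _ hyN', ?_⟩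
      rintro _ ⟨ξ, hξ, rfl⟩
      obtain ⟨ξ', hξ', hcc⟩ := hyst.2 ξ hξ
      refine ⟨subChar (Subgroup.centralizer (Q : Set G)) P hPC hCH ξ', ⟨ξ', hξ', rfl⟩, ?_⟩
      intro k₁ k₂ hk
      rw [subChar_apply, subChar_apply]
      apply hcc
      rw [subCent_apply, subCent_apply, ← hyv]
      exact congrArg Subtype.val hk
    have hyreg : IsPRegular p y := by
      unfold IsPRegular
      rw [← Subgroup.orderOf_coe, hyv]
      exact hbreg
    have h2 := hnil.2 _ _ h1 y hyN' hyst' hyreg
    rw [Subgroup.mem_centralizer_iff]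
    intro u hu
    have h3 := Subgroup.mem_centralizer_iff.mp h2 ⟨u, hPC hu⟩ (Subgroup.mem_subgroupOf.mpr hu)
    have h4 := congrArg Subtype.val h3
    rw [← hyv]
    exact h4
  rw [← hab]
  exact Subgroup.mul_mem _ hz hy

/-- Abelian defect group with free action of the stabilizer of `(P, c)` on `P`: the blocks `f`
with `(Q, f) ≤ (P, c)`, `Q ≠ 1`, are nilpotent. -/
theorem af_nilpotent [Fintype G] [Fact p.Prime] (hM : IsPModular p M)
    {B : Set (IrrCharacter G)} {P : Subgroup G}
    {c : Set (IrrCharacter (Subgroup.centralizer (P : Set G)))}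
    (hmax : IsMaximalBrauerPair p M B P c) (hPab : P ≤ Subgroup.centralizer (P : Set G))
    (hfree : ∀ g : G, g ∈ Subgroup.normalizer (P : Set G) →
      StabilizesBlock (Subgroup.centralizer (P : Set G)) c g →
      ∀ x ∈ P, x ≠ 1 → g * x * g⁻¹ = x → g ∈ Subgroup.centralizer (P : Set G))
    {Q : Subgroup G} (hQ1 : Q ≠ ⊥)
    {f : Set (IrrCharacter (Subgroup.centralizer (Q : Set G)))}
    (hle : SubpairLE p M Q f P c) : IsNilpotentBlock p M f := by
  classical
  have hQf : IsBrauerPairOf p M B Q f :=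
    (isBrauerPairOf_iff_of_subpairLE hM B ⟨Q, f⟩ ⟨P, c⟩ hle).mp hmax.1
  refine ⟨hQf.1.2, ?_⟩
  intro R g hRg x hxN hxst _
  obtain ⟨S, g', hSB, hxS, hxst', hS⟩ : ∃ (S : Subgroup G)
      (g' : Set (IrrCharacter (Subgroup.centralizer (S : Set G)))),
      IsBrauerPairOf p M B S g' ∧ (x : G) ∈ Subgroup.normalizer (S : Set G) ∧
      StabilizesBlock (Subgroup.centralizer (S : Set G)) g' (x : G) ∧
      S = R.map (Subgroup.centralizer (Q : Set G)).subtype ⊔ Q := by
    obtain ⟨h1, h2, h3⟩ := af_lift hM hQf R g hRg x hxN hxst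
    exact ⟨_, _, h1, h2, h3, rfl⟩
  have hQS : Q ≤ S := by
    rw [hS]
    exact le_sup_right
  obtain ⟨w, hw⟩ := exists_conj_subpairLE hM hmax hSB
  have hSwP : S.map (MulAut.conj w).toMonoidHom ≤ P :=
    subpairLE_le (⟨S.map (MulAut.conj w).toMonoidHom, _⟩ : BrauerPairIdx G) ⟨P, c⟩ hw
  have hPCw : P ≤ Subgroup.centralizer ((S.map (MulAut.conj w).toMonoidHom : Subgroup G) : Set G) :=
    fun u hu => Subgroup.centralizer_le hSwP (hPab hu)
  have hx₁N := conj_mem_normalizer_map_conj S w hxS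
  have hx₁st := stabilizesBlock_conj S w _ hxst'
  obtain ⟨z, hz, hzN, hzst⟩ := exists_mul_mem_stab hM hmax hSwP hPCw hw _ hx₁N hx₁st
  -- a nontrivial element of `Q`
  obtain ⟨q, hq, hq1⟩ : ∃ q ∈ Q, q ≠ 1 := by
    by_contra hcon
    push Not at hcon
    apply hQ1
    rw [Subgroup.eq_bot_iff_forall]
    exact hcon
  have hq' : w * q * w⁻¹ ∈ S.map (MulAut.conj w).toMonoidHom := conj_mem_map_conj S w (hQS hq)
  have hq'1 : w * q * w⁻¹ ≠ 1 := by
    intro h
    apply hq1
    have h2 : q = w⁻¹ * (w * q * w⁻¹) * w := by group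
    rw [h2, h]
    group
  have hxq : q * (x : G) = (x : G) * q := Subgroup.mem_centralizer_iff.mp x.2 q hq
  have hzq : (w * q * w⁻¹) * z = z * (w * q * w⁻¹) :=
    Subgroup.mem_centralizer_iff.mp hz _ hq'
  have hfix : (z * (w * (x : G) * w⁻¹)) * (w * q * w⁻¹) * (z * (w * (x : G) * w⁻¹))⁻¹
      = w * q * w⁻¹ := by
    have h1 : (z * (w * (x : G) * w⁻¹)) * (w * q * w⁻¹) * (z * (w * (x : G) * w⁻¹))⁻¹
        = z * (w * ((x : G) * q) * (x : G)⁻¹ * w⁻¹) * z⁻¹ := by group
    rw [h1, ← hxq]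
    have h2 : z * (w * (q * (x : G)) * (x : G)⁻¹ * w⁻¹) * z⁻¹ = z * (w * q * w⁻¹) * z⁻¹ := by
      group
    rw [h2, ← hzq]
    group
  have hC := hfree _ hzN hzst _ (hSwP hq') hq'1 hfix
  have hC' : z * (w * (x : G) * w⁻¹)
      ∈ Subgroup.centralizer ((S.map (MulAut.conj w).toMonoidHom : Subgroup G) : Set G) :=
    Subgroup.centralizer_le hSwP hC
  have hx₁C : w * (x : G) * w⁻¹
      ∈ Subgroup.centralizer ((S.map (MulAut.conj w).toMonoidHom : Subgroup G) : Set G) := by
    have h1 : w * (x : G) * w⁻¹ = z⁻¹ * (z * (w * (x : G) * w⁻¹)) := by group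
    rw [h1]
    exact Subgroup.mul_mem _ (Subgroup.inv_mem _ hz) hC'
  have hxC : (x : G) ∈ Subgroup.centralizer (S : Set G) := by
    have h1 := (mem_centralizer_map_conj_iff S w _).mp hx₁C
    have h2 : w⁻¹ * (w * (x : G) * w⁻¹) * w = (x : G) := by group
    rw [h2] at h1
    exact h1
  rw [hS] at hxC
  rw [Subgroup.mem_centralizer_iff]
  intro r hr
  apply Subtype.ext
  exact Subgroup.mem_centralizer_iff.mp ((mem_centralizer_sup_iff _ _ _).mp hxC).1 (r : G)
    ⟨r, hr, rfl⟩

/-- Abelian defect group `P`, `c` a block of `C_G(P)` inducing `B`, `T` the stabilizer of `c` in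
`N_G(P)`: `T / C_G(P)` acts freely on `P ∖ {1}` iff the blocks of `C_G(Q)` induced by `c`, for
`1 ≠ Q ≤ P`, are nilpotent. -/
theorem af_main [Finite G] [Fact p.Prime] (hM : IsPModular p M)
    (B : Set (IrrCharacter G)) (hB : IsPBlock M B) (P : Subgroup G)
    (hPD : IsDefectGroup p M B P) (hPab : ∀ x ∈ P, ∀ y ∈ P, x * y = y * x)
    (c : Set (IrrCharacter (Subgroup.centralizer (P : Set G))))
    (hc : IsInducedBlock M (Subgroup.centralizer (P : Set G)) c B) (T : Subgroup G)
    (hT : ∀ g : G, g ∈ T ↔ (g ∈ Subgroup.normalizer (P : Set G) ∧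
      StabilizesBlock (Subgroup.centralizer (P : Set G)) c g)) :
    (∀ g ∈ T, ∀ x ∈ P, x ≠ 1 → g * x * g⁻¹ = x → g ∈ Subgroup.centralizer (P : Set G)) ↔
      ∀ Q : Subgroup G, Q ≤ P → Q ≠ ⊥ →
        ∀ f : Set (IrrCharacter (Subgroup.centralizer (Q : Set G))),
          IsInducedBlockIn M (Subgroup.centralizer (Q : Set G))
            (Subgroup.centralizer (P : Set G)) c f → IsNilpotentBlock p M f := by
  classical
  let _ : Fintype G := Fintype.ofFinite G
  have hmax := af_maximal hM hB hPD hc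
  have hPabC : P ≤ Subgroup.centralizer (P : Set G) := fun u hu =>
    Subgroup.mem_centralizer_iff.mpr (fun v hv => hPab v hv u hu)
  constructor
  · intro hfree Q hQP hQ1 f hf
    obtain ⟨f₀, ⟨-, hle⟩, -⟩ := exists_unique_subpair hM P Q c hmax.1.1 hQP
    have hPC : P ≤ Subgroup.centralizer (Q : Set G) := fun u hu =>
      Subgroup.centralizer_le hQP (hPabC hu)
    have h1 := af_inducedIn hM hmax.1.1 hQP hPC hle
    have h2 : f = f₀ := af_inducedIn_unique hM _ _ hf h1
    rw [h2]
    exact af_nilpotent hM hmax hPabC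
      (fun g hgN hgst x hx hx1 hfix => hfree g ((hT g).mpr ⟨hgN, hgst⟩) x hx hx1 hfix) hQ1 hle
  · intro hnil g hg x hx hx1 hfix
    obtain ⟨hgN, hgst⟩ := (hT g).mp hg
    have hQP : Subgroup.zpowers x ≤ P := (Subgroup.zpowers_le).mpr hx
    have hQ1 : Subgroup.zpowers x ≠ ⊥ := by
      rw [Ne, Subgroup.zpowers_eq_bot]
      exact hx1
    obtain ⟨f₀, ⟨-, hle⟩, -⟩ := exists_unique_subpair hM P (Subgroup.zpowers x) c hmax.1.1 hQP
    have hPC : P ≤ Subgroup.centralizer ((Subgroup.zpowers x : Subgroup G) : Set G) := fun u hu =>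
      Subgroup.centralizer_le hQP (hPabC hu)
    have h1 := af_inducedIn hM hmax.1.1 hQP hPC hle
    have hn := hnil _ hQP hQ1 f₀ h1
    have hgQ : g ∈ Subgroup.centralizer ((Subgroup.zpowers x : Subgroup G) : Set G) := by
      rw [Subgroup.mem_centralizer_iff]
      intro h hh
      obtain ⟨k, rfl⟩ := Subgroup.mem_zpowers_iff.mp hh
      have hcomm : Commute x g := by
        show x * g = g * x
        have h2 : g * x = g * x * g⁻¹ * g := by group
        rw [h2, hfix]
      exact (hcomm.zpow_left k).eq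
    exact af_mem_centralizer hM hmax hPabC hQP hle hn g hgN hgst hgQ

end Cfsg.Agent.Helper25
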