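import Mathlib
import Cfsg.Agent.Helper25.BlockPairs21

/-!
# Shared block-theory library (helper25), part 35: the block of the stabilizer of a Brauer pair

* `exists_block_of_stab`: for a Brauer pair `(Q, f)` and `Q C_G(Q) ≤ H ≤ N_G(Q, f)`, the
  idempotent of `f` is the idempotent of a block of `H`.
* `exists_defectGroup_above`: every pair normal above `(Q, f)` inside `H` lies below one whose
  subgroup is a defect group of that block.
* `exists_block_defectGroup_ge`, `isDefectGroup_of_fullyNormalized`,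
  `card_normalizer_le_of_isDefectGroup`: for `(Q, f) ≤ (P, e)` maximal, `N_P(Q)` lies in a defect
  group of the block of `N_G(Q, f)`, and is one exactly when `|N_P(Q)|` is largest among the
  conjugates below `(P, e)`.
-/

set_option autoImplicit false

namespace Cfsg.Agent.Helper25

open Cfsg Cfsg.Agent.Helper2
open scoped ComplexConjugate Pointwise

universe u

variable {G : Type u} [Group G] {p : ℕ} {M : Ideal AlgInt}

/-- For a Brauer pair `(Q, f)` and a subgroup `H` with `Q C_G(Q) ≤ H ≤ N_G(Q, f)`, the idempotent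
of `f` is the idempotent of a block of `H`. -/
theorem exists_block_of_stab [Finite G] (hM : IsPModular p M) {Q : Subgroup G}
    {f : Set (IrrCharacter (Subgroup.centralizer (Q : Set G)))} (hQf : IsBrauerPair p M Q f)
    (H : Subgroup G) (hQH : Q ≤ H) (hCH : Subgroup.centralizer (Q : Set G) ≤ H)
    (hHN : H ≤ Subgroup.normalizer (Q : Set G))
    (hHst : ∀ x ∈ H, StabilizesBlock (Subgroup.centralizer (Q : Set G)) f x) :
    ∃ b : Set (IrrCharacter H), IsPBlock M b ∧
      ∀ t : H, blockCoeff b t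
        = subgroupBlockCoeff (Subgroup.centralizer (Q : Set G)) f (t : G) := by
  classical
  have hnC : ((Subgroup.centralizer (Q : Set G)).subgroupOf H).Normal :=
    Subgroup.normal_subgroupOf_of_le_normalizer
      (hHN.trans (normalizer_le_normalizer_centralizer Q))
  have hnQ : (Q.subgroupOf H).Normal := Subgroup.normal_subgroupOf_of_le_normalizer hHN
  have hQp : IsPGroup p (Q.subgroupOf H) := hQf.1.comap_subtype
  have hst' : ∀ x : H, StabilizesBlock ((Subgroup.centralizer (Q : Set G)).subgroupOf H)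
      (irrEquiv (Subgroup.subgroupOfEquivOfLe hCH) '' f) x := by
    intro x
    refine ⟨?_, ?_⟩
    · rw [Subgroup.normalizer_eq_top]
      exact Subgroup.mem_top x
    · rintro _ ⟨χ, hχ, rfl⟩
      obtain ⟨χ₂, hχ₂, hcc⟩ := (hHst (x : G) x.2).2 χ hχ
      refine ⟨irrEquiv (Subgroup.subgroupOfEquivOfLe hCH) χ₂, ⟨χ₂, hχ₂, rfl⟩, ?_⟩
      intro k₁ k₂ hk
      rw [irrEquiv_apply, irrEquiv_apply]
      apply hcc
      have h1 := congrArg Subtype.val hk
      exact h1
  obtain ⟨b, hb, hbc⟩ := exists_block_of_support hM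
    ((Subgroup.centralizer (Q : Set G)).subgroupOf H) (fun B₁ hB₁ t ht => by
      apply blockCoeff_eq_zero_of_not_mem_centralizer hM (Q.subgroupOf H) hQp hB₁
      intro h
      exact ht (Subgroup.mem_subgroupOf.mpr ((mem_centralizer_subgroupOf_iff H Q hQH t).mp h)))
    (isPBlock_image_irrEquiv (Subgroup.subgroupOfEquivOfLe hCH) hQf.2) hst'
  refine ⟨b, hb, fun t => ?_⟩
  rw [hbc]
  unfold subgroupBlockCoeff
  by_cases ht : (t : G) ∈ Subgroup.centralizer (Q : Set G)
  · rw [dif_pos ht, dif_pos (Subgroup.mem_subgroupOf.mpr ht), blockCoeff_image_irrEquiv]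
    rfl
  · rw [dif_neg ht, dif_neg (fun h => ht (Subgroup.mem_subgroupOf.mp h))]

/-- Every pair normal above `(Q, f)` inside `H` lies below a pair normal above `(Q, f)` whose
subgroup is a defect group of the block of `H` with the idempotent of `f`. -/
theorem exists_defectGroup_above [Fintype G] [Fact p.Prime] (hM : IsPModular p M)
    {Q : Subgroup G} {f : Set (IrrCharacter (Subgroup.centralizer (Q : Set G)))}
    (hQf : IsBrauerPair p M Q f) (H : Subgroup G)
    (hCH : Subgroup.centralizer (Q : Set G) ≤ H) (hHN : H ≤ Subgroup.normalizer (Q : Set G))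
    (hHst : ∀ x ∈ H, StabilizesBlock (Subgroup.centralizer (Q : Set G)) f x)
    {b : Set (IrrCharacter H)} (hb : IsPBlock M b)
    (hbc : ∀ t : H, blockCoeff b t
      = subgroupBlockCoeff (Subgroup.centralizer (Q : Set G)) f (t : G))
    (a₁ : BrauerPairIdx G) (h1 : NormalSubpairRel p M ⟨Q, f⟩ a₁) (ha₁ : a₁.1 ≤ H) :
    ∃ a₃ : BrauerPairIdx G, NormalSubpairRel p M ⟨Q, f⟩ a₃ ∧ a₃.1 ≤ H ∧
      Relation.ReflTransGen (NormalSubpairRel p M) a₁ a₃ ∧
      IsDefectGroup p M b (a₃.1.subgroupOf H) := by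
  classical
  have hQa₁ : Q ≤ a₁.1 := h1.2.2.1
  have hC₁ : Subgroup.centralizer (a₁.1 : Set G) ≤ H := (Subgroup.centralizer_le hQa₁).trans hCH
  have hp₁ : IsBrauerPairOf p M b (subIdx H a₁ ha₁ hC₁).1 (subIdx H a₁ ha₁ hC₁).2 :=
    isBrauerPairOf_sub_of_isNormalSubpair H ha₁ hC₁ hbc hb h1
  obtain ⟨m, hm, hchain⟩ := exists_maximal_ge (Nat.card H) (subIdx H a₁ ha₁ hC₁) hp₁
    (Nat.sub_le _ _)
  obtain ⟨a₃, h31, h32, rfl, h13, hG₁⟩ := subpairLE_of_sub H Q hCH a₁ ha₁ hC₁ hQa₁ m hchain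
  have hQa₃ : Q ≤ a₃.1 := hQa₁.trans h13
  have hn₃ : NormalSubpairRel p M ⟨Q, f⟩ a₃ :=
    isNormalSubpair_of_isBrauerPairOf_sub H h31 h32 hbc hQf hQa₃ (h31.trans hHN)
      (fun x hx => hHst x (h31 hx)) hm.1
  exact ⟨a₃, hn₃, h31, hG₁, isDefectGroup_of_maximal hM hm⟩

theorem le_pairStab_of_normalSubpair [Finite G] {Q : Subgroup G}
    {f : Set (IrrCharacter (Subgroup.centralizer (Q : Set G)))} {a : BrauerPairIdx G}
    (ha : NormalSubpairRel p M ⟨Q, f⟩ a) : a.1 ≤ pairStab Q f :=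
  fun x hx => (mem_pairStab Q f x).mpr ⟨ha.2.2.2.1 hx, ha.2.2.2.2.1 x hx⟩

/-- The pair on `N_P(Q)` below `(P, e)` is normal above `(Q, f)`. -/
theorem exists_normalizer_pair [Fintype G] (hM : IsPModular p M) {P : Subgroup G}
    {e : Set (IrrCharacter (Subgroup.centralizer (P : Set G)))} (hPe : IsBrauerPair p M P e)
    {Q : Subgroup G} {f : Set (IrrCharacter (Subgroup.centralizer (Q : Set G)))}
    (hle : Relation.ReflTransGen (NormalSubpairRel p M) (⟨Q, f⟩ : BrauerPairIdx G) ⟨P, e⟩) :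
    ∃ ν : Set (IrrCharacter (Subgroup.centralizer
        ((P ⊓ Subgroup.normalizer (Q : Set G) : Subgroup G) : Set G))),
      Relation.ReflTransGen (NormalSubpairRel p M)
        (⟨P ⊓ Subgroup.normalizer (Q : Set G), ν⟩ : BrauerPairIdx G) ⟨P, e⟩ ∧
      NormalSubpairRel p M ⟨Q, f⟩ ⟨P ⊓ Subgroup.normalizer (Q : Set G), ν⟩ := by
  have hQP : Q ≤ P := subpairLE_le _ _ hle
  obtain ⟨ν, hν⟩ := exists_subpairLE_of_le hM hPe (P ⊓ Subgroup.normalizer (Q : Set G))
    inf_le_left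
  have hNν : IsBrauerPair p M (P ⊓ Subgroup.normalizer (Q : Set G)) ν :=
    isBrauerPair_of_subpairLE hPe hν
  exact ⟨ν, hν, normalSubpair_of_subpairLE hM hNν
    (subpairLE_of_le_of_subpairLE hM hPe hle hν (le_inf hQP Subgroup.le_normalizer))
    inf_le_right⟩

/-- If `|N_P(Q₁)|` is largest among the conjugates of `(Q₁, f₁)` below the maximal pair `(P, e)`,
then the pair on `N_P(Q₁)` is the only pair normal above `(Q₁, f₁)` and above itself. -/
theorem eq_of_normal_above_of_card [Fintype G] [Fact p.Prime] (hM : IsPModular p M)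
    {B : Set (IrrCharacter G)} {P : Subgroup G}
    {e : Set (IrrCharacter (Subgroup.centralizer (P : Set G)))}
    (hmax : IsMaximalBrauerPair p M B P e) {Q₁ : Subgroup G}
    {f₁ : Set (IrrCharacter (Subgroup.centralizer (Q₁ : Set G)))}
    (hB₁ : IsBrauerPairOf p M B Q₁ f₁)
    (hfn : ∀ x : G,
      Relation.ReflTransGen (NormalSubpairRel p M) (conjIdx x (⟨Q₁, f₁⟩ : BrauerPairIdx G))
        ⟨P, e⟩ →
      Nat.card ↥(P ⊓ Subgroup.normalizer
        (((conjIdx x (⟨Q₁, f₁⟩ : BrauerPairIdx G)).1 : Subgroup G) : Set G))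
        ≤ Nat.card ↥(P ⊓ Subgroup.normalizer (Q₁ : Set G)))
    {ν₁ : Set (IrrCharacter (Subgroup.centralizer
      ((P ⊓ Subgroup.normalizer (Q₁ : Set G) : Subgroup G) : Set G)))}
    (a₃ : BrauerPairIdx G) (hn₃ : NormalSubpairRel p M ⟨Q₁, f₁⟩ a₃)
    (hle₃ : Relation.ReflTransGen (NormalSubpairRel p M)
      (⟨P ⊓ Subgroup.normalizer (Q₁ : Set G), ν₁⟩ : BrauerPairIdx G) a₃) :
    a₃ = ⟨P ⊓ Subgroup.normalizer (Q₁ : Set G), ν₁⟩ := by
  classical
  have hB₃ : IsBrauerPairOf p M B a₃.1 a₃.2 :=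
    (isBrauerPairOf_iff_of_normalSubpair hM hn₃ B).mpr hB₁
  obtain ⟨x, hx⟩ := exists_conj_subpairLE hM hmax hB₃
  have hx' : Relation.ReflTransGen (NormalSubpairRel p M) (conjIdx x a₃) ⟨P, e⟩ := hx
  have hxQ : Relation.ReflTransGen (NormalSubpairRel p M)
      (conjIdx x (⟨Q₁, f₁⟩ : BrauerPairIdx G)) ⟨P, e⟩ :=
    (subpairLE_conj x (Relation.ReflTransGen.single hn₃)).trans hx'
  have hc1 := hfn x hxQ
  have hsub : a₃.1.map (MulAut.conj x).toMonoidHom ≤ P ⊓ Subgroup.normalizer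
      (((conjIdx x (⟨Q₁, f₁⟩ : BrauerPairIdx G)).1 : Subgroup G) : Set G) := by
    apply le_inf (subpairLE_le _ _ hx')
    rintro _ ⟨s, hs, rfl⟩
    exact conj_mem_normalizer_map_conj Q₁ x (hn₃.2.2.2.1 hs)
  have hc2 : Nat.card a₃.1 ≤ Nat.card ↥(P ⊓ Subgroup.normalizer
      (((conjIdx x (⟨Q₁, f₁⟩ : BrauerPairIdx G)).1 : Subgroup G) : Set G)) := by
    have h8 : Nat.card (a₃.1.map (MulAut.conj x).toMonoidHom) = Nat.card a₃.1 :=
      Subgroup.card_map_of_injective (MulAut.conj x).injective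
    rw [← h8]
    exact Subgroup.card_le_of_le hsub
  have hle₁ : P ⊓ Subgroup.normalizer (Q₁ : Set G) ≤ a₃.1 := subpairLE_le _ _ hle₃
  have heq : P ⊓ Subgroup.normalizer (Q₁ : Set G) = a₃.1 :=
    Subgroup.eq_of_le_of_card_ge hle₁ (hc2.trans hc1)
  exact (eq_of_subpairLE_of_eq hM _ _ hle₃ heq).symm

/-- For `(Q, f) ≤ (P, e)` maximal, the idempotent of `f` is a block idempotent of `N_G(Q, f)`,
and `N_P(Q)` lies in a defect group of that block. -/
theorem exists_block_defectGroup_ge [Fintype G] [Fact p.Prime] (hM : IsPModular p M)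
    {B : Set (IrrCharacter G)} {P : Subgroup G}
    {e : Set (IrrCharacter (Subgroup.centralizer (P : Set G)))}
    (hmax : IsMaximalBrauerPair p M B P e) {Q : Subgroup G}
    {f : Set (IrrCharacter (Subgroup.centralizer (Q : Set G)))}
    (hle : Relation.ReflTransGen (NormalSubpairRel p M) (⟨Q, f⟩ : BrauerPairIdx G) ⟨P, e⟩) :
    ∃ F : Set (IrrCharacter (pairStab Q f)), IsPBlock M F ∧
      (∀ t : pairStab Q f, blockCoeff F t
        = subgroupBlockCoeff (Subgroup.centralizer (Q : Set G)) f (t : G)) ∧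
      ∃ D : Subgroup (pairStab Q f), IsDefectGroup p M F D ∧
        (P ⊓ Subgroup.normalizer (Q : Set G)).subgroupOf (pairStab Q f) ≤ D := by
  classical
  have hPe := hmax.1.1
  have hQf : IsBrauerPair p M Q f := isBrauerPair_of_subpairLE hPe hle
  have hHst : ∀ x ∈ pairStab Q f, StabilizesBlock (Subgroup.centralizer (Q : Set G)) f x :=
    fun x hx => ((mem_pairStab Q f x).mp hx).2
  obtain ⟨b, hb, hbc⟩ := exists_block_of_stab hM hQf (pairStab Q f) (le_pairStab_self Q f)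
    (centralizer_le_pairStab Q f) (pairStab_le_normalizer Q f) hHst
  obtain ⟨ν₁, hν₁, hn₁⟩ := exists_normalizer_pair hM hPe hle
  obtain ⟨a₃, -, -, hle₃, hD⟩ := exists_defectGroup_above hM hQf (pairStab Q f)
    (centralizer_le_pairStab Q f) (pairStab_le_normalizer Q f) hHst hb hbc _ hn₁
    (le_pairStab_of_normalSubpair hn₁)
  refine ⟨b, hb, hbc, a₃.1.subgroupOf (pairStab Q f), hD, ?_⟩
  intro t ht
  exact Subgroup.mem_subgroupOf.mpr (subpairLE_le _ _ hle₃ (Subgroup.mem_subgroupOf.mp ht))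

/-- If `|N_P(Q)|` is largest among the conjugates of `(Q, f)` below the maximal pair `(P, e)`,
then `N_P(Q)` is a defect group of the block of `N_G(Q, f)` with the idempotent of `f`. -/
theorem isDefectGroup_of_fullyNormalized [Fintype G] [Fact p.Prime] (hM : IsPModular p M)
    {B : Set (IrrCharacter G)} {P : Subgroup G}
    {e : Set (IrrCharacter (Subgroup.centralizer (P : Set G)))}
    (hmax : IsMaximalBrauerPair p M B P e) {Q : Subgroup G}
    {f : Set (IrrCharacter (Subgroup.centralizer (Q : Set G)))}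
    (hle : Relation.ReflTransGen (NormalSubpairRel p M) (⟨Q, f⟩ : BrauerPairIdx G) ⟨P, e⟩)
    (hfn : ∀ x : G,
      Relation.ReflTransGen (NormalSubpairRel p M) (conjIdx x (⟨Q, f⟩ : BrauerPairIdx G))
        ⟨P, e⟩ →
      Nat.card ↥(P ⊓ Subgroup.normalizer
        (((conjIdx x (⟨Q, f⟩ : BrauerPairIdx G)).1 : Subgroup G) : Set G))
        ≤ Nat.card ↥(P ⊓ Subgroup.normalizer (Q : Set G)))
    {F : Set (IrrCharacter (pairStab Q f))} (hF : IsPBlock M F)
    (hFc : ∀ t : pairStab Q f, blockCoeff F t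
      = subgroupBlockCoeff (Subgroup.centralizer (Q : Set G)) f (t : G)) :
    IsDefectGroup p M F
      ((P ⊓ Subgroup.normalizer (Q : Set G)).subgroupOf (pairStab Q f)) := by
  classical
  have hPe := hmax.1.1
  have hQf : IsBrauerPair p M Q f := isBrauerPair_of_subpairLE hPe hle
  have hHst : ∀ x ∈ pairStab Q f, StabilizesBlock (Subgroup.centralizer (Q : Set G)) f x :=
    fun x hx => ((mem_pairStab Q f x).mp hx).2
  obtain ⟨ν₁, hν₁, hn₁⟩ := exists_normalizer_pair hM hPe hle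
  obtain ⟨a₃, hn₃, -, hle₃, hD⟩ := exists_defectGroup_above hM hQf (pairStab Q f)
    (centralizer_le_pairStab Q f) (pairStab_le_normalizer Q f) hHst hF hFc _ hn₁
    (le_pairStab_of_normalSubpair hn₁)
  have hB₁ : IsBrauerPairOf p M B Q f :=
    (isBrauerPairOf_iff_of_subpairLE hM B _ _ hle).mp hmax.1
  have h3 := eq_of_normal_above_of_card hM hmax hB₁ hfn a₃ hn₃ hle₃
  rw [h3] at hD
  exact hD

/-- If `N_P(Q)` is a defect group of the block of `N_G(Q, f)` with the idempotent of `f`, then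
`|N_P(Q)|` is largest among the conjugates of `(Q, f)` below the maximal pair `(P, e)`. -/
theorem card_normalizer_le_of_isDefectGroup [Fintype G] [Fact p.Prime] (hM : IsPModular p M)
    {B : Set (IrrCharacter G)} {P : Subgroup G}
    {e : Set (IrrCharacter (Subgroup.centralizer (P : Set G)))}
    (hmax : IsMaximalBrauerPair p M B P e) {Q : Subgroup G}
    {f : Set (IrrCharacter (Subgroup.centralizer (Q : Set G)))}
    (hle : Relation.ReflTransGen (NormalSubpairRel p M) (⟨Q, f⟩ : BrauerPairIdx G) ⟨P, e⟩)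
    {F : Set (IrrCharacter (pairStab Q f))} (hF : IsPBlock M F)
    (hFc : ∀ t : pairStab Q f, blockCoeff F t
      = subgroupBlockCoeff (Subgroup.centralizer (Q : Set G)) f (t : G))
    (hD : IsDefectGroup p M F
      ((P ⊓ Subgroup.normalizer (Q : Set G)).subgroupOf (pairStab Q f)))
    (g : G)
    (hg : Relation.ReflTransGen (NormalSubpairRel p M) (conjIdx g (⟨Q, f⟩ : BrauerPairIdx G))
      ⟨P, e⟩) :
    Nat.card ↥(P ⊓ Subgroup.normalizer
      (((conjIdx g (⟨Q, f⟩ : BrauerPairIdx G)).1 : Subgroup G) : Set G))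
      ≤ Nat.card ↥(P ⊓ Subgroup.normalizer (Q : Set G)) := by
  classical
  have hPe := hmax.1.1
  have hQf : IsBrauerPair p M Q f := isBrauerPair_of_subpairLE hPe hle
  have hHst : ∀ x ∈ pairStab Q f, StabilizesBlock (Subgroup.centralizer (Q : Set G)) f x :=
    fun x hx => ((mem_pairStab Q f x).mp hx).2
  obtain ⟨ν₁, hν₁, hn₁⟩ := exists_normalizer_pair hM hPe hle
  have hN₁T := le_pairStab_of_normalSubpair hn₁
  obtain ⟨⟨Q₂, f₂⟩, hq2⟩ : ∃ q : BrauerPairIdx G, q = conjIdx g ⟨Q, f⟩ := ⟨_, rfl⟩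
  rw [← hq2] at hg ⊢
  obtain ⟨ν₂, hν₂, hn₂⟩ := exists_normalizer_pair hM hPe hg
  have hn₂' : NormalSubpairRel p M ⟨Q, f⟩
      (conjIdx g⁻¹ (⟨P ⊓ Subgroup.normalizer (Q₂ : Set G), ν₂⟩ : BrauerPairIdx G)) := by
    have h5 : NormalSubpairRel p M (conjIdx g⁻¹ (⟨Q₂, f₂⟩ : BrauerPairIdx G))
        (conjIdx g⁻¹ (⟨P ⊓ Subgroup.normalizer (Q₂ : Set G), ν₂⟩ : BrauerPairIdx G)) :=
      isNormalSubpair_conj g⁻¹ hn₂
    rw [hq2, conjIdx_inv_conjIdx] at h5
    exact h5
  obtain ⟨a₃, -, h3T, hle₃, hD₃⟩ := exists_defectGroup_above hM hQf (pairStab Q f)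
    (centralizer_le_pairStab Q f) (pairStab_le_normalizer Q f) hHst hF hFc _ hn₂'
    (le_pairStab_of_normalSubpair hn₂')
  have hc1 : Nat.card (a₃.1.subgroupOf (pairStab Q f))
      = Nat.card ((P ⊓ Subgroup.normalizer (Q : Set G)).subgroupOf (pairStab Q f)) := by
    rw [Cfsg.Agent.Helper7.card_defectGroup hM hF hD₃,
      Cfsg.Agent.Helper7.card_defectGroup hM hF hD]
  have hc2 : Nat.card ((conjIdx g⁻¹
      (⟨P ⊓ Subgroup.normalizer (Q₂ : Set G), ν₂⟩ : BrauerPairIdx G)).1)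
      = Nat.card ↥(P ⊓ Subgroup.normalizer (Q₂ : Set G)) :=
    Subgroup.card_map_of_injective (MulAut.conj g⁻¹).injective
  have hc3 : Nat.card ((conjIdx g⁻¹
      (⟨P ⊓ Subgroup.normalizer (Q₂ : Set G), ν₂⟩ : BrauerPairIdx G)).1) ≤ Nat.card a₃.1 :=
    Subgroup.card_le_of_le (subpairLE_le _ _ hle₃)
  have hc4 : Nat.card (a₃.1.subgroupOf (pairStab Q f)) = Nat.card a₃.1 :=
    Nat.card_congr (Subgroup.subgroupOfEquivOfLe h3T).toEquiv
  have hc5 : Nat.card ((P ⊓ Subgroup.normalizer (Q : Set G)).subgroupOf (pairStab Q f))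
      = Nat.card ↥(P ⊓ Subgroup.normalizer (Q : Set G)) :=
    Nat.card_congr (Subgroup.subgroupOfEquivOfLe hN₁T).toEquiv
  show Nat.card ↥(P ⊓ Subgroup.normalizer (Q₂ : Set G))
    ≤ Nat.card ↥(P ⊓ Subgroup.normalizer (Q : Set G))
  omega

end Cfsg.Agent.Helper25
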