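import Mathlib
import Cfsg.Agent.Helper25.BlockPairs22

/-!
# Shared block-theory library (helper25), part 36: the index of `N_P(Q) C_G(Q)` in `N_G(Q, f)`

* `exists_pow_mem_of_mem_sup`: a product of a `p`-subgroup and a subgroup it normalizes is a
  `p`-group modulo the latter.
* `exists_normalSubpair_full'`: `exists_normalSubpair_full` inside a subgroup of the stabilizer.
* `not_dvd_index_of_fullyNormalized`: if `|N_P(Q)|` is largest among the conjugates of `(Q, f)`
  below the maximal pair `(P, e)`, then `N_P(Q) C_G(Q)` has index prime to `p` in `N_G(Q, f)`.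
* `exists_sylow_range`: the image of a `p`-subgroup `X` with `[T : X ker θ]` prime to `p` is a
  Sylow `p`-subgroup of the range of `θ`.
-/

set_option autoImplicit false

namespace Cfsg.Agent.Helper25

open Cfsg Cfsg.Agent.Helper2
open scoped ComplexConjugate Pointwise

universe u

variable {G : Type u} [Group G] {p : ℕ} {M : Ideal AlgInt}

/-- If the `p`-subgroup `S` normalizes `N`, every element of `S N` has a `p`-power in `N`. -/
theorem exists_pow_mem_of_mem_sup {X : Type*} [Group X] (S N : Subgroup X) (hS : IsPGroup p S)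
    (hSN : S ≤ Subgroup.normalizer (N : Set X)) {x : X} (hx : x ∈ S ⊔ N) :
    ∃ j : ℕ, x ^ (p ^ j) ∈ N := by
  have hx' : x ∈ ((S ⊔ N : Subgroup X) : Set X) := hx
  rw [Subgroup.coe_mul_of_left_le_normalizer_right S N hSN] at hx'
  obtain ⟨s, hs, n, hn, rfl⟩ := Set.mem_mul.mp hx'
  have key : ∀ m : ℕ, ∃ n' ∈ N, (s * n) ^ m = s ^ m * n' := by
    intro m
    induction m with
    | zero => exact ⟨1, N.one_mem, by simp⟩
    | succ m ih =>
      obtain ⟨n', hn', h⟩ := ih
      refine ⟨s⁻¹ * n' * s * n, N.mul_mem ?_ hn, ?_⟩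
      · have h1 := (Subgroup.mem_normalizer_iff.mp (Subgroup.inv_mem _ (hSN hs)) n').mp hn'
        rw [inv_inv] at h1
        exact h1
      · rw [pow_succ, h, pow_succ]
        group
  obtain ⟨j, hj⟩ := hS ⟨s, hs⟩
  have hj' : s ^ (p ^ j) = 1 := by
    have h1 := congrArg Subtype.val hj
    simpa using h1
  obtain ⟨n', hn', h⟩ := key (p ^ j)
  refine ⟨j, ?_⟩
  rw [h, hj', one_mul]
  exact hn'

/-- The image of a `p`-subgroup `X` with `[T : X ker θ]` prime to `p` is a Sylow `p`-subgroup of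
the range of `θ`. -/
theorem exists_sylow_range {T A : Type*} [Group T] [Group A] [Fact p.Prime] (θ : T →* A)
    (X : Subgroup T) (hX : IsPGroup p X) (hidx : ¬ p ∣ (X ⊔ θ.ker).index) :
    ∃ R : Sylow p θ.range, (R : Subgroup θ.range) = (X.map θ).subgroupOf θ.range := by
  have h1 : (X.map θ).subgroupOf θ.range = X.map θ.rangeRestrict := by
    ext ⟨y, hy⟩
    rw [Subgroup.mem_subgroupOf]
    constructor
    · rintro ⟨x, hx, hxy⟩
      exact ⟨x, hx, Subtype.ext hxy⟩
    · rintro ⟨x, hx, hxy⟩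
      exact ⟨x, hx, congrArg Subtype.val hxy⟩
  have h2 : IsPGroup p (X.map θ.rangeRestrict) := hX.map _
  have h3 : ¬ p ∣ (X.map θ.rangeRestrict).index := by
    rw [Subgroup.index_map, MonoidHom.ker_rangeRestrict,
      MonoidHom.range_eq_top_of_surjective _ θ.rangeRestrict_surjective, Subgroup.index_top,
      mul_one]
    exact hidx
  refine ⟨h2.toSylow h3, ?_⟩
  rw [h1]
  rfl

/-- If `H / C_G(Q)` is a `p`-group for a subgroup `Q C_G(Q) ≤ H ≤ N_G(Q, f)`, some pair `(S, σ)`
normal above `(Q, f)` has `S ≤ H` and `H = C_G(Q) S`. -/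
theorem exists_normalSubpair_full' [Fintype G] [Fact p.Prime] (hM : IsPModular p M)
    {Q : Subgroup G} {f : Set (IrrCharacter (Subgroup.centralizer (Q : Set G)))}
    (hQf : IsBrauerPair p M Q f) (H : Subgroup G)
    (hCH : Subgroup.centralizer (Q : Set G) ≤ H) (hQH : Q ≤ H) (hHT : H ≤ pairStab Q f)
    (hT : ∀ x ∈ H, ∃ j : ℕ, x ^ (p ^ j) ∈ Subgroup.centralizer (Q : Set G)) :
    ∃ a : BrauerPairIdx G, NormalSubpairRel p M ⟨Q, f⟩ a ∧ a.1 ≤ H ∧
      ∀ x ∈ H, ∃ c ∈ Subgroup.centralizer (Q : Set G), ∃ s ∈ a.1, x = c * s := by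
  classical
  have hTN : H ≤ Subgroup.normalizer
      ((Subgroup.centralizer (Q : Set G) : Subgroup G) : Set G) :=
    hHT.trans (pairStab_le_normalizer_centralizer Q f)
  have hTNQ : H ≤ Subgroup.normalizer (Q : Set G) := hHT.trans (pairStab_le_normalizer Q f)
  -- a Sylow subgroup of `H` and a fixed class
  have hn : ((Subgroup.centralizer (Q : Set G)).subgroupOf H).Normal :=
    Subgroup.normal_subgroupOf_of_le_normalizer hTN
  obtain ⟨S₀⟩ : Nonempty (Sylow p H) := inferInstance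
  have hX : IsPGroup p ((S₀ : Subgroup H).map (Subgroup.inclusion hTN)) :=
    S₀.isPGroup'.map _
  have hXst : ∀ q ∈ (S₀ : Subgroup H).map (Subgroup.inclusion hTN), q • f = f := by
    rintro _ ⟨s, -, rfl⟩
    exact (stabilizesBlock_iff_smul_eq (Subgroup.centralizer (Q : Set G)) f _).mp
      ((mem_pairStab Q f _).mp (hHT s.2)).2
  obtain ⟨k, hk, hfix⟩ := exists_fixed_class_of_pgroup hM (Subgroup.centralizer (Q : Set G))
    hQf.2 _ hX hXst
  -- every element of `H` centralizes `k` up to an element of `C_G(Q)`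
  have hstep2 : ∀ x ∈ H, ∃ c ∈ Subgroup.centralizer (Q : Set G),
      (c * x) * (k : G) = (k : G) * (c * x) := by
    intro x hx
    obtain ⟨n, hn', s, hs, hxs⟩ := exists_mul_sylow
      ((Subgroup.centralizer (Q : Set G)).subgroupOf H) (fun y => by
        obtain ⟨j, hj⟩ := hT (y : G) y.2
        refine ⟨j, ?_⟩
        rw [Subgroup.mem_subgroupOf, Subgroup.coe_pow]
        exact hj) S₀ ⟨x, hx⟩
    have h1 := hfix (Subgroup.inclusion hTN s) ⟨s, hs, rfl⟩
    obtain ⟨c₀, hc₀⟩ := isConj_iff.mp h1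
    have h2 : (c₀ : G) * ((s : G) * (k : G) * (s : G)⁻¹) * (c₀ : G)⁻¹ = (k : G) := by
      have h3 := congrArg Subtype.val hc₀
      simpa [conjEquiv_apply] using h3
    have hx' : x = (n : G) * (s : G) := congrArg Subtype.val hxs
    refine ⟨(c₀ : G) * (n : G)⁻¹, Subgroup.mul_mem _ c₀.2
      (Subgroup.inv_mem _ (Subgroup.mem_subgroupOf.mp hn')), ?_⟩
    rw [hx']
    have e1 : (c₀ : G) * (n : G)⁻¹ * ((n : G) * (s : G)) = (c₀ : G) * (s : G) := by group
    rw [e1]
    calc (c₀ : G) * (s : G) * (k : G)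
        = ((c₀ : G) * ((s : G) * (k : G) * (s : G)⁻¹) * (c₀ : G)⁻¹) * ((c₀ : G) * (s : G)) := by
          group
      _ = (k : G) * ((c₀ : G) * (s : G)) := by rw [h2]
  -- the centralizer of `k` in `H` and a Sylow subgroup of it
  obtain ⟨T', hT'⟩ : ∃ T' : Subgroup G,
      T' = H ⊓ Subgroup.centralizer ({(k : G)} : Set G) := ⟨_, rfl⟩
  have hT'T : T' ≤ H := by
    rw [hT']
    exact inf_le_left
  have hT'k : ∀ y ∈ T', (k : G) * y = y * (k : G) := by
    intro y hy
    rw [hT'] at hy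
    exact Subgroup.mem_centralizer_iff.mp hy.2 (k : G) rfl
  have hmemT' : ∀ y ∈ H, y * (k : G) = (k : G) * y → y ∈ T' := by
    intro y hy hyk
    rw [hT']
    refine Subgroup.mem_inf.mpr ⟨hy, ?_⟩
    rw [Subgroup.mem_centralizer_iff]
    intro h hh
    rw [Set.mem_singleton_iff.mp hh]
    exact hyk.symm
  have hn' : ((Subgroup.centralizer (Q : Set G)).subgroupOf T').Normal :=
    Subgroup.normal_subgroupOf_of_le_normalizer (hT'T.trans hTN)
  obtain ⟨S₁⟩ : Nonempty (Sylow p T') := inferInstance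
  have hS₁T' : (S₁ : Subgroup T').map T'.subtype ≤ T' := Subgroup.map_subtype_le _
  have hQT' : Q ≤ T' := by
    intro q hq
    apply hmemT' q (hQH hq)
    exact Subgroup.mem_centralizer_iff.mp k.2 q hq
  have hRT' : (S₁ : Subgroup T').map T'.subtype ⊔ Q ≤ T' := sup_le hS₁T' hQT'
  have hR : IsPGroup p ↥((S₁ : Subgroup T').map T'.subtype ⊔ Q) :=
    IsPGroup.to_sup_of_normal_right' (S₁.isPGroup'.map _) hQf.1
      (hS₁T'.trans (hT'T.trans hTNQ))
  have hRN : (S₁ : Subgroup T').map T'.subtype ⊔ Q ≤ Subgroup.normalizer (Q : Set G) :=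
    hRT'.trans (hT'T.trans hTNQ)
  have hRst : ∀ x ∈ (S₁ : Subgroup T').map T'.subtype ⊔ Q,
      StabilizesBlock (Subgroup.centralizer (Q : Set G)) f x :=
    fun x hx => ((mem_pairStab Q f x).mp (hHT (hT'T (hRT' hx)))).2
  have hkR : (k : G) ∈ Subgroup.centralizer
      ((((S₁ : Subgroup T').map T'.subtype ⊔ Q : Subgroup G)) : Set G) := by
    rw [Subgroup.mem_centralizer_iff]
    intro r hr
    exact (hT'k r (hRT' hr)).symm
  obtain ⟨g, hg⟩ := exists_normalSubpair_above hM hQf _ hR le_sup_right hRN hRst k hkR hk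
  refine ⟨⟨_, g⟩, hg, hRT'.trans hT'T, ?_⟩
  intro x hx
  obtain ⟨c₁, hc₁, hcomm⟩ := hstep2 x hx
  have hy : c₁ * x ∈ T' := hmemT' _ (Subgroup.mul_mem _ (hCH hc₁) hx) hcomm
  obtain ⟨n, hn2, s, hs, hys⟩ := exists_mul_sylow
    ((Subgroup.centralizer (Q : Set G)).subgroupOf T') (fun y => by
      obtain ⟨j, hj⟩ := hT (y : G) (hT'T y.2)
      refine ⟨j, ?_⟩
      rw [Subgroup.mem_subgroupOf, Subgroup.coe_pow]
      exact hj) S₁ ⟨c₁ * x, hy⟩
  have hy' : c₁ * x = (n : G) * (s : G) := congrArg Subtype.val hys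
  refine ⟨c₁⁻¹ * (n : G), Subgroup.mul_mem _ (Subgroup.inv_mem _ hc₁)
    (Subgroup.mem_subgroupOf.mp hn2), (s : G), ?_, ?_⟩
  · exact (le_sup_left : (S₁ : Subgroup T').map T'.subtype ≤ _) ⟨s, hs, rfl⟩
  · rw [mul_assoc, ← hy']
    group

/-- If `|N_P(Q)|` is largest among the conjugates of `(Q, f)` below the maximal pair `(P, e)`,
then `N_P(Q) C_G(Q)` has index prime to `p` in `N_G(Q, f)`. -/
theorem not_dvd_index_of_fullyNormalized [Fintype G] [Fact p.Prime] (hM : IsPModular p M)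
    {B : Set (IrrCharacter G)} {P : Subgroup G}
    {e : Set (IrrCharacter (Subgroup.centralizer (P : Set G)))}
    (hmax : IsMaximalBrauerPair p M B P e) {Q : Subgroup G}
    {f : Set (IrrCharacter (Subgroup.centralizer (Q : Set G)))}
    (hle : Relation.ReflTransGen (NormalSubpairRel p M) (⟨Q, f⟩ : BrauerPairIdx G) ⟨P, e⟩)
    (hfn : ∀ x : G,
      Relation.ReflTransGen (NormalSubpairRel p M) (conjIdx x (⟨Q, f⟩ : BrauerPairIdx G))
        ⟨P, e⟩ →
      Nat.card ↥(P ⊓ Subgroup.normalizer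
        (((conjIdx x (⟨Q, f⟩ : BrauerPairIdx G)).1 : Subgroup G) : Set G))
        ≤ Nat.card ↥(P ⊓ Subgroup.normalizer (Q : Set G))) :
    ¬ p ∣ ((P ⊓ Subgroup.normalizer (Q : Set G)).subgroupOf (pairStab Q f)
        ⊔ (Subgroup.centralizer (Q : Set G)).subgroupOf (pairStab Q f)).index := by
  classical
  have hPe := hmax.1.1
  have hQf : IsBrauerPair p M Q f := isBrauerPair_of_subpairLE hPe hle
  have hHst : ∀ x ∈ pairStab Q f, StabilizesBlock (Subgroup.centralizer (Q : Set G)) f x :=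
    fun x hx => ((mem_pairStab Q f x).mp hx).2
  obtain ⟨b, hb, hbc⟩ := exists_block_of_stab hM hQf (pairStab Q f) (le_pairStab_self Q f)
    (centralizer_le_pairStab Q f) (pairStab_le_normalizer Q f) hHst
  have hD₁ := isDefectGroup_of_fullyNormalized hM hmax hle hfn hb hbc
  obtain ⟨S₀⟩ : Nonempty (Sylow p (pairStab Q f)) := inferInstance
  obtain ⟨S', hS'⟩ : ∃ S' : Subgroup G,
      S' = (S₀ : Subgroup (pairStab Q f)).map (pairStab Q f).subtype ⊔ Q := ⟨_, rfl⟩
  have hS'T : S' ≤ pairStab Q f := by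
    rw [hS']
    exact sup_le (Subgroup.map_subtype_le _) (le_pairStab_self Q f)
  have hS'p : IsPGroup p S' := by
    rw [hS']
    exact IsPGroup.to_sup_of_normal_right' (S₀.isPGroup'.map _) hQf.1
      ((Subgroup.map_subtype_le _).trans (pairStab_le_normalizer Q f))
  obtain ⟨H, hH⟩ : ∃ H : Subgroup G, H = S' ⊔ Subgroup.centralizer (Q : Set G) := ⟨_, rfl⟩
  have hHT : H ≤ pairStab Q f := by
    rw [hH]
    exact sup_le hS'T (centralizer_le_pairStab Q f)
  have hCH : Subgroup.centralizer (Q : Set G) ≤ H := by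
    rw [hH]
    exact le_sup_right
  have hQH : Q ≤ H := by
    rw [hH, hS']
    exact le_sup_right.trans le_sup_left
  have hpow : ∀ x ∈ H, ∃ j : ℕ, x ^ (p ^ j) ∈ Subgroup.centralizer (Q : Set G) := by
    intro x hx
    rw [hH] at hx
    exact exists_pow_mem_of_mem_sup S' _ hS'p
      (hS'T.trans (pairStab_le_normalizer_centralizer Q f)) hx
  obtain ⟨a, ha, haH, hfull⟩ := exists_normalSubpair_full' hM hQf H hCH hQH hHT hpow
  obtain ⟨a₃, hn₃, h3T, hle₃, hD₃⟩ := exists_defectGroup_above hM hQf (pairStab Q f)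
    (centralizer_le_pairStab Q f) (pairStab_le_normalizer Q f) hHst hb hbc a ha (haH.trans hHT)
  obtain ⟨x, hx⟩ := exists_conj_of_isDefectGroup hM hb hD₁ hD₃
  have hn : ((Subgroup.centralizer (Q : Set G)).subgroupOf (pairStab Q f)).Normal :=
    Subgroup.normal_subgroupOf_of_le_normalizer (pairStab_le_normalizer_centralizer Q f)
  have hCx : ((Subgroup.centralizer (Q : Set G)).subgroupOf (pairStab Q f)).map
      (MulAut.conj x).toMonoidHom = (Subgroup.centralizer (Q : Set G)).subgroupOf (pairStab Q f) := by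
    ext y
    rw [mem_map_conj_iff]
    constructor
    · intro h
      have h1 := hn.conj_mem _ h x
      have e1 : x * (x⁻¹ * y * x) * x⁻¹ = y := by group
      rw [e1] at h1
      exact h1
    · intro h
      have h1 := hn.conj_mem _ h x⁻¹
      rw [inv_inv] at h1
      exact h1
  have h1 : (P ⊓ Subgroup.normalizer (Q : Set G)).subgroupOf (pairStab Q f)
        ⊔ (Subgroup.centralizer (Q : Set G)).subgroupOf (pairStab Q f)
      = (a₃.1.subgroupOf (pairStab Q f)
        ⊔ (Subgroup.centralizer (Q : Set G)).subgroupOf (pairStab Q f)).map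
          (MulAut.conj x).toMonoidHom := by
    rw [Subgroup.map_sup, hx, hCx]
  rw [h1]
  have h2 : ((a₃.1.subgroupOf (pairStab Q f)
        ⊔ (Subgroup.centralizer (Q : Set G)).subgroupOf (pairStab Q f)).map
          (MulAut.conj x).toMonoidHom).index
      = (a₃.1.subgroupOf (pairStab Q f)
        ⊔ (Subgroup.centralizer (Q : Set G)).subgroupOf (pairStab Q f)).index :=
    Subgroup.index_map_equiv _ (MulAut.conj x)
  rw [h2]
  intro hdvd
  apply S₀.not_dvd_index
  refine hdvd.trans (Subgroup.index_dvd_of_le ?_)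
  intro s hs
  obtain ⟨c, hc, r, hr, hsr⟩ := hfull (s : G) (by
    rw [hH, hS']
    have h5 : (s : G) ∈ (S₀ : Subgroup (pairStab Q f)).map (pairStab Q f).subtype :=
      ⟨s, hs, rfl⟩
    exact Subgroup.mem_sup_left (Subgroup.mem_sup_left h5))
  have hr₃ : r ∈ a₃.1 := subpairLE_le _ _ hle₃ hr
  have hrT : r ∈ pairStab Q f := h3T hr₃
  have hs' : s = ⟨c, centralizer_le_pairStab Q f hc⟩ * ⟨r, hrT⟩ := Subtype.ext hsr
  rw [hs', sup_comm]
  exact Subgroup.mul_mem_sup (Subgroup.mem_subgroupOf.mpr hc) (Subgroup.mem_subgroupOf.mpr hr₃)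

end Cfsg.Agent.Helper25
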