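import Mathlib
import Cfsg.Prelude.Def_BlockFusion
import Cfsg.Agent.Helper25.BlockPairs23

/-!
# Shared block-theory library (helper25), part 37: the fusion system of a block

* `blockFS`: the fusion system of a block on a maximal Brauer pair `(P, e)`.
* `isFullyAutomized_blockFS`, `isReceptive_blockFS`, `isSaturated_blockFS`: it is saturated.
-/

set_option autoImplicit false

namespace Cfsg.Agent.Helper25

open Cfsg Cfsg.Agent.Helper2
open scoped ComplexConjugate Pointwise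

universe u

variable {G : Type u} [Group G] {p : ℕ} {M : Ideal AlgInt}

/-- The fusion system of a block on a (maximal) Brauer pair `(P, e)`. -/
def blockFS [Fintype G] (hM : IsPModular p M) {P : Subgroup G}
    {e : Set (IrrCharacter (Subgroup.centralizer (P : Set G)))} (hPe : IsBrauerPair p M P e) :
    FusionSystem P where
  Hom Q := {φ | Q ≤ P ∧ ∃ g : G, (∀ u : Q, φ u = g * (u : G) * g⁻¹) ∧
        Q.map (MulAut.conj g).toMonoidHom ≤ P ∧
        ∃ f : Set (IrrCharacter (Subgroup.centralizer (Q : Set G))),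
          SubpairLE p M Q f P e ∧
            SubpairLE p M (Q.map (MulAut.conj g).toMonoidHom) (conjBlock Q g f) P e}
  le_of_mem := by
    rintro Q φ ⟨hQ, g, hg, hgP, -⟩
    refine ⟨hQ, fun x => ?_⟩
    rw [hg]
    exact hgP ⟨x, x.2, rfl⟩
  injective_of_mem := by
    rintro Q φ ⟨-, g, hg, -⟩ a b hab
    have h : g * (a : G) * g⁻¹ = g * (b : G) * g⁻¹ := ((hg a).symm.trans hab).trans (hg b)
    exact Subtype.ext (mul_left_cancel (mul_right_cancel h))
  conj_mem := by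
    intro Q g hQ hg
    obtain ⟨f, hf⟩ := exists_subpairLE_of_le hM hPe Q hQ
    have hgS := (mem_pairStab P e g).mp (le_pairStab_self P e hg)
    have h1 : Relation.ReflTransGen (NormalSubpairRel p M)
        (conjIdx g (⟨Q, f⟩ : BrauerPairIdx G)) ⟨P, e⟩ := by
      have h2 := subpairLE_conj g hf
      rw [conjIdx_eq_self P e g hgS.1 hgS.2] at h2
      exact h2
    exact ⟨hQ, g, fun x => rfl, subpairLE_le _ _ h1, f, hf, h1⟩
  comp_mem := by
    rintro Q R φ ψ ⟨hQ, g, hg, hgP, f, hf, hfg⟩ ⟨hR, k, hk, hkP, f', hf', hfk⟩ h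
    have hQR : Q.map (MulAut.conj g).toMonoidHom ≤ R := by
      rintro _ ⟨x, hx, rfl⟩
      have h1 := h ⟨x, hx⟩
      rw [hg] at h1
      exact h1
    have h1 : Relation.ReflTransGen (NormalSubpairRel p M)
        (conjIdx g (⟨Q, f⟩ : BrauerPairIdx G)) ⟨R, f'⟩ :=
      subpairLE_of_le_of_subpairLE hM hPe hfg hf' hQR
    have h2 : Relation.ReflTransGen (NormalSubpairRel p M)
        (conjIdx (k * g) (⟨Q, f⟩ : BrauerPairIdx G)) ⟨P, e⟩ := by
      rw [← conjIdx_conjIdx]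
      exact (subpairLE_conj k h1).trans hfk
    refine ⟨hQ, k * g, fun x => ?_, subpairLE_le _ _ h2, f, hf, h2⟩
    show ψ (φ.codRestrict R h x) = k * g * (x : G) * (k * g)⁻¹
    rw [hk]
    show k * φ x * k⁻¹ = _
    rw [hg, mul_inv_rev]
    simp only [mul_assoc]
  inv_mem := by
    rintro Q φ ⟨hQ, g, hg, hgP, f, hf, hfg⟩
    have hrange : φ.range = Q.map (MulAut.conj g).toMonoidHom := by
      ext y
      constructor
      · rintro ⟨x, rfl⟩
        rw [hg]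
        exact ⟨x, x.2, rfl⟩
      · rintro ⟨x, hx, rfl⟩
        exact ⟨⟨x, hx⟩, hg ⟨x, hx⟩⟩
    have key : ∀ R : Subgroup G, R = Q.map (MulAut.conj g).toMonoidHom →
        R ≤ P ∧ ∃ g' : G, (∀ u : R, conjHom R g⁻¹ u = g' * (u : G) * g'⁻¹) ∧
          R.map (MulAut.conj g').toMonoidHom ≤ P ∧
          ∃ f' : Set (IrrCharacter (Subgroup.centralizer (R : Set G))),
            SubpairLE p M R f' P e ∧
              SubpairLE p M (R.map (MulAut.conj g').toMonoidHom) (conjBlock R g' f') P e := by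
      intro R hR
      subst hR
      have h3 : conjIdx g⁻¹ (conjIdx g (⟨Q, f⟩ : BrauerPairIdx G)) = ⟨Q, f⟩ :=
        conjIdx_inv_conjIdx g ⟨Q, f⟩
      have h4 : Relation.ReflTransGen (NormalSubpairRel p M)
          (conjIdx g⁻¹ (conjIdx g (⟨Q, f⟩ : BrauerPairIdx G))) ⟨P, e⟩ := by
        rw [h3]
        exact hf
      exact ⟨hgP, g⁻¹, fun u => rfl, subpairLE_le _ _ h4, conjBlock Q g f, hfg, h4⟩
    refine ⟨conjHom φ.range g⁻¹, key _ hrange, ?_⟩
    intro x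
    show g⁻¹ * φ x * g⁻¹⁻¹ = x
    rw [hg, inv_inv]
    simp only [mul_assoc, inv_mul_cancel, mul_one, inv_mul_cancel_left]

theorem isBlockFusionSystemOn_blockFS [Fintype G] (hM : IsPModular p M)
    {B : Set (IrrCharacter G)} {P : Subgroup G}
    {e : Set (IrrCharacter (Subgroup.centralizer (P : Set G)))}
    (hmax : IsMaximalBrauerPair p M B P e) :
    IsBlockFusionSystemOn p M B P e (blockFS hM hmax.1.1) :=
  ⟨hmax, fun _ _ => Iff.rfl⟩

/-- The conjugation action of `N_G(Q, f)` on `Q`. -/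
noncomputable def pairStabHom (Q : Subgroup G)
    (f : Set (IrrCharacter (Subgroup.centralizer (Q : Set G)))) : pairStab Q f →* MulAut Q :=
  (Subgroup.normalizerMonoidHom Q).comp (Subgroup.inclusion (pairStab_le_normalizer Q f))

theorem pairStabHom_apply (Q : Subgroup G)
    (f : Set (IrrCharacter (Subgroup.centralizer (Q : Set G)))) (t : pairStab Q f) (u : Q) :
    ((pairStabHom Q f t u : Q) : G) = (t : G) * (u : G) * (t : G)⁻¹ := rfl

theorem pairStabHom_ker (Q : Subgroup G)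
    (f : Set (IrrCharacter (Subgroup.centralizer (Q : Set G)))) :
    (pairStabHom Q f).ker = (Subgroup.centralizer (Q : Set G)).subgroupOf (pairStab Q f) := by
  ext t
  rw [MonoidHom.mem_ker, Subgroup.mem_subgroupOf, Subgroup.mem_centralizer_iff]
  constructor
  · intro h u hu
    have h1 : ((pairStabHom Q f t ⟨u, hu⟩ : Q) : G) = u := by
      rw [h]
      rfl
    rw [pairStabHom_apply] at h1
    calc u * (t : G) = ((t : G) * u * (t : G)⁻¹) * (t : G) := by rw [h1]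
      _ = (t : G) * u := by group
  · intro h
    ext u
    rw [pairStabHom_apply]
    have h1 := h (u : G) u.2
    show (t : G) * (u : G) * (t : G)⁻¹ = (u : G)
    rw [← h1]
    group

theorem map_conj_eq_of_mulAut (Q : Subgroup G) (α : MulAut Q) (g : G)
    (h : ∀ u : Q, ((α u : Q) : G) = g * (u : G) * g⁻¹) :
    Q.map (MulAut.conj g).toMonoidHom = Q := by
  ext y
  constructor
  · rintro ⟨u, hu, rfl⟩
    have h1 := h ⟨u, hu⟩
    show g * u * g⁻¹ ∈ Q
    rw [← h1]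
    exact (α ⟨u, hu⟩).2
  · intro hy
    refine ⟨(α.symm ⟨y, hy⟩ : Q), (α.symm ⟨y, hy⟩).2, ?_⟩
    show g * ((α.symm ⟨y, hy⟩ : Q) : G) * g⁻¹ = y
    rw [← h, MulEquiv.apply_symm_apply]

/-- The automorphism group of `Q` in the fusion system of a block is the image of
`N_G(Q, f)`. -/
theorem autGroup_blockFS [Fintype G] (hM : IsPModular p M) {P : Subgroup G}
    {e : Set (IrrCharacter (Subgroup.centralizer (P : Set G)))} (hPe : IsBrauerPair p M P e)
    {Q : Subgroup G} {f : Set (IrrCharacter (Subgroup.centralizer (Q : Set G)))}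
    (hle : Relation.ReflTransGen (NormalSubpairRel p M) (⟨Q, f⟩ : BrauerPairIdx G) ⟨P, e⟩) :
    (blockFS hM hPe).autGroup Q = (pairStabHom Q f).range := by
  have hset : {α : MulAut Q | Q.subtype.comp α.toMonoidHom ∈ (blockFS hM hPe).Hom Q}
      = ((pairStabHom Q f).range : Set (MulAut Q)) := by
    ext α
    constructor
    · rintro ⟨hQP, g, hg, hgP, f', hf', hfg⟩
      have hg' : ∀ u : Q, ((α u : Q) : G) = g * (u : G) * g⁻¹ := hg
      have hmap := map_conj_eq_of_mulAut Q α g hg'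
      have hff : (⟨Q, f'⟩ : BrauerPairIdx G) = ⟨Q, f⟩ :=
        subpair_unique hM ⟨P, e⟩ hPe _ ⟨Q, f'⟩ ⟨Q, f⟩ hf' hle rfl (le_refl _)
      have hfg' : Relation.ReflTransGen (NormalSubpairRel p M)
          (conjIdx g (⟨Q, f'⟩ : BrauerPairIdx G)) ⟨P, e⟩ := hfg
      rw [hff] at hfg'
      have hc : conjIdx g (⟨Q, f⟩ : BrauerPairIdx G) = ⟨Q, f⟩ :=
        subpair_unique hM ⟨P, e⟩ hPe _ _ _ hfg' hle hmap (le_refl _)
      have hgT : g ∈ pairStab Q f :=
        (mem_pairStab Q f g).mpr (stabilizes_of_conjIdx_eq Q f g hc)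
      refine ⟨⟨g, hgT⟩, ?_⟩
      ext u
      exact (hg' u).symm
    · rintro ⟨t, rfl⟩
      have ht := (mem_pairStab Q f (t : G)).mp t.2
      have hc : conjIdx (t : G) (⟨Q, f⟩ : BrauerPairIdx G) = ⟨Q, f⟩ :=
        conjIdx_eq_self Q f t ht.1 ht.2
      have h1 : Relation.ReflTransGen (NormalSubpairRel p M)
          (conjIdx (t : G) (⟨Q, f⟩ : BrauerPairIdx G)) ⟨P, e⟩ := by
        rw [hc]
        exact hle
      exact ⟨subpairLE_le _ _ hle, t, fun u => rfl, subpairLE_le _ _ h1, f, hle, h1⟩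
  unfold FusionSystem.autGroup
  rw [hset, Subgroup.closure_eq]

/-- The automorphisms of `Q` induced by `P` are the image of `N_P(Q)`. -/
theorem autInducedBy_eq [Fintype G] (hM : IsPModular p M) {P : Subgroup G}
    {e : Set (IrrCharacter (Subgroup.centralizer (P : Set G)))} (hPe : IsBrauerPair p M P e)
    {Q : Subgroup G} {f : Set (IrrCharacter (Subgroup.centralizer (Q : Set G)))}
    (hle : Relation.ReflTransGen (NormalSubpairRel p M) (⟨Q, f⟩ : BrauerPairIdx G) ⟨P, e⟩) :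
    autInducedBy P Q = ((P ⊓ Subgroup.normalizer (Q : Set G)).subgroupOf (pairStab Q f)).map
      (pairStabHom Q f) := by
  obtain ⟨ν₁, hν₁, hn₁⟩ := exists_normalizer_pair hM hPe hle
  have hN₁T : P ⊓ Subgroup.normalizer (Q : Set G) ≤ pairStab Q f :=
    le_pairStab_of_normalSubpair hn₁
  have hset : {α : MulAut Q | ∃ g ∈ P, ∀ x : Q, ((α x : Q) : G) = g * (x : G) * g⁻¹}
      = ((((P ⊓ Subgroup.normalizer (Q : Set G)).subgroupOf (pairStab Q f)).map
        (pairStabHom Q f) : Subgroup (MulAut Q)) : Set (MulAut Q)) := by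
    ext α
    constructor
    · rintro ⟨g, hgP, hg⟩
      have hmap := map_conj_eq_of_mulAut Q α g hg
      have hgN : g ∈ P ⊓ Subgroup.normalizer (Q : Set G) :=
        ⟨hgP, mem_normalizer_of_map_conj_eq Q g hmap⟩
      refine ⟨⟨g, hN₁T hgN⟩, Subgroup.mem_subgroupOf.mpr hgN, ?_⟩
      ext u
      exact (hg u).symm
    · rintro ⟨t, ht, rfl⟩
      exact ⟨t, (Subgroup.mem_subgroupOf.mp ht).1, fun x => rfl⟩
  unfold autInducedBy
  rw [hset, Subgroup.closure_eq]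

/-- A pair `(Q, f) ≤ (P, e)` with `|N_P(Q)|` largest among its conjugates below `(P, e)` is
fully automized in the fusion system of the block. -/
theorem isFullyAutomized_blockFS [Fintype G] [Fact p.Prime] (hM : IsPModular p M)
    {B : Set (IrrCharacter G)} {P : Subgroup G}
    {e : Set (IrrCharacter (Subgroup.centralizer (P : Set G)))}
    (hmax : IsMaximalBrauerPair p M B P e) {Q : Subgroup G}
    {f : Set (IrrCharacter (Subgroup.centralizer (Q : Set G)))}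
    (hle : Relation.ReflTransGen (NormalSubpairRel p M) (⟨Q, f⟩ : BrauerPairIdx G) ⟨P, e⟩)
    (hfn : ∀ x : G,
      Relation.ReflTransGen (NormalSubpairRel p M) (conjIdx x (⟨Q, f⟩ : BrauerPairIdx G))
        ⟨P, e⟩ →
      Nat.card ↥(P ⊓ Subgroup.normalizer
        (((conjIdx x (⟨Q, f⟩ : BrauerPairIdx G)).1 : Subgroup G) : Set G))
        ≤ Nat.card ↥(P ⊓ Subgroup.normalizer (Q : Set G))) :
    (blockFS hM hmax.1.1).IsFullyAutomized p Q := by
  refine ⟨subpairLE_le _ _ hle, ?_⟩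
  rw [autGroup_blockFS hM hmax.1.1 hle, autInducedBy_eq hM hmax.1.1 hle]
  apply exists_sylow_range
  · exact (hmax.1.1.1.to_le inf_le_left).comap_subtype
  · rw [pairStabHom_ker]
    exact not_dvd_index_of_fullyNormalized hM hmax hle hfn

/-- A pair `(Q₁, f₁) ≤ (P, e)` with `|N_P(Q₁)|` largest among its conjugates below `(P, e)` is
receptive in the fusion system of the block. -/
theorem isReceptive_blockFS [Fintype G] [Fact p.Prime] (hM : IsPModular p M)
    {B : Set (IrrCharacter G)} {P : Subgroup G}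
    {e : Set (IrrCharacter (Subgroup.centralizer (P : Set G)))}
    (hmax : IsMaximalBrauerPair p M B P e) {Q₁ : Subgroup G}
    {f₁ : Set (IrrCharacter (Subgroup.centralizer (Q₁ : Set G)))}
    (hle : Relation.ReflTransGen (NormalSubpairRel p M) (⟨Q₁, f₁⟩ : BrauerPairIdx G) ⟨P, e⟩)
    (hfn : ∀ x : G,
      Relation.ReflTransGen (NormalSubpairRel p M) (conjIdx x (⟨Q₁, f₁⟩ : BrauerPairIdx G))
        ⟨P, e⟩ →
      Nat.card ↥(P ⊓ Subgroup.normalizer
        (((conjIdx x (⟨Q₁, f₁⟩ : BrauerPairIdx G)).1 : Subgroup G) : Set G))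
        ≤ Nat.card ↥(P ⊓ Subgroup.normalizer (Q₁ : Set G))) :
    (blockFS hM hmax.1.1).IsReceptive Q₁ := by
  classical
  have hPe := hmax.1.1
  have hQ₁P : Q₁ ≤ P := subpairLE_le _ _ hle
  have hQ₁f₁ : IsBrauerPair p M Q₁ f₁ := isBrauerPair_of_subpairLE hPe hle
  refine ⟨hQ₁P, ?_⟩
  rintro Q₀ φ ⟨hQ₀P, g₀, hg₀, hg₀P, f₀, hf₀, hf₀g⟩ hrange
  have hmap : Q₀.map (MulAut.conj g₀).toMonoidHom = Q₁ := by
    rw [← hrange]
    ext y
    constructor
    · rintro ⟨x, hx, rfl⟩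
      exact ⟨⟨x, hx⟩, hg₀ ⟨x, hx⟩⟩
    · rintro ⟨x, rfl⟩
      rw [hg₀]
      exact ⟨x, x.2, rfl⟩
  have hf₀' : Relation.ReflTransGen (NormalSubpairRel p M) (⟨Q₀, f₀⟩ : BrauerPairIdx G)
      ⟨P, e⟩ := hf₀
  have hf₀g' : Relation.ReflTransGen (NormalSubpairRel p M)
      (conjIdx g₀ (⟨Q₀, f₀⟩ : BrauerPairIdx G)) ⟨P, e⟩ := hf₀g
  have hconj : conjIdx g₀ (⟨Q₀, f₀⟩ : BrauerPairIdx G) = ⟨Q₁, f₁⟩ :=
    subpair_unique hM ⟨P, e⟩ hPe _ _ _ hf₀g' hle hmap (le_refl _)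
  -- the normalizer pair and the subgroup `L = N_P(Q₁) C_G(Q₁)`
  obtain ⟨ν₁, hν₁, hn₁⟩ := exists_normalizer_pair hM hPe hle
  have hN₁T : P ⊓ Subgroup.normalizer (Q₁ : Set G) ≤ pairStab Q₁ f₁ :=
    le_pairStab_of_normalSubpair hn₁
  have hN₁NC : P ⊓ Subgroup.normalizer (Q₁ : Set G) ≤ Subgroup.normalizer
      ((Subgroup.centralizer (Q₁ : Set G) : Subgroup G) : Set G) :=
    hN₁T.trans (pairStab_le_normalizer_centralizer Q₁ f₁)
  obtain ⟨L, hL⟩ : ∃ L : Subgroup G,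
      L = (P ⊓ Subgroup.normalizer (Q₁ : Set G)) ⊔ Subgroup.centralizer (Q₁ : Set G) :=
    ⟨_, rfl⟩
  have hLT : L ≤ pairStab Q₁ f₁ := by
    rw [hL]
    exact sup_le hN₁T (centralizer_le_pairStab Q₁ f₁)
  have hCL : Subgroup.centralizer (Q₁ : Set G) ≤ L := by
    rw [hL]
    exact le_sup_right
  have hN₁L : P ⊓ Subgroup.normalizer (Q₁ : Set G) ≤ L := by
    rw [hL]
    exact le_sup_left
  have hLN : L ≤ Subgroup.normalizer (Q₁ : Set G) := hLT.trans (pairStab_le_normalizer Q₁ f₁)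
  have hLst : ∀ x ∈ L, StabilizesBlock (Subgroup.centralizer (Q₁ : Set G)) f₁ x :=
    fun x hx => ((mem_pairStab Q₁ f₁ x).mp (hLT hx)).2
  -- the extender
  obtain ⟨E, hE⟩ : ∃ E : Subgroup G, E = FusionSystem.extender P Q₀ φ := ⟨_, rfl⟩
  rw [← hE]
  have hEP : E ≤ P := by
    rw [hE]
    exact (Subgroup.closure_le _).mpr (fun g hg => hg.1)
  have hEN : E ≤ Subgroup.normalizer (Q₀ : Set G) := by
    rw [hE]
    exact (Subgroup.closure_le _).mpr (fun g hg => hg.2.1)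
  have hQ₀E : Q₀ ≤ E := by
    intro g hg
    rw [hE]
    refine Subgroup.subset_closure ⟨hQ₀P hg, Subgroup.le_normalizer hg, g₀ * g * g₀⁻¹,
      hg₀P ⟨g, hg, rfl⟩, fun x hx => ?_⟩
    rw [hg₀, hg₀]
    show g₀ * (g * (x : G) * g⁻¹) * g₀⁻¹ = g₀ * g * g₀⁻¹ * (g₀ * (x : G) * g₀⁻¹) * (g₀ * g * g₀⁻¹)⁻¹
    group
  have hEL : E.map (MulAut.conj g₀).toMonoidHom ≤ L := by
    rw [Subgroup.map_le_iff_le_comap, hE]
    unfold FusionSystem.extender
    rw [Subgroup.closure_le]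
    rintro g ⟨hgP, hgN, h, hhP, hh⟩
    show g₀ * g * g₀⁻¹ ∈ L
    have hgN₁ : g₀ * g * g₀⁻¹ ∈ Subgroup.normalizer (Q₁ : Set G) := by
      have h1 := conj_mem_normalizer_map_conj Q₀ g₀ hgN
      rw [hmap] at h1
      exact h1
    have hc : h⁻¹ * (g₀ * g * g₀⁻¹) ∈ Subgroup.centralizer (Q₁ : Set G) := by
      rw [Subgroup.mem_centralizer_iff]
      intro y hy
      rw [← hmap] at hy
      obtain ⟨x, hx, rfl⟩ := hy
      have hx' : g * x * g⁻¹ ∈ Q₀ := (Subgroup.mem_normalizer_iff.mp hgN x).mp hx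
      have h1 := hh ⟨x, hx⟩ hx'
      rw [hg₀, hg₀] at h1
      have h2 : g₀ * (g * x * g⁻¹) * g₀⁻¹ = h * (g₀ * x * g₀⁻¹) * h⁻¹ := h1
      show g₀ * x * g₀⁻¹ * (h⁻¹ * (g₀ * g * g₀⁻¹)) = h⁻¹ * (g₀ * g * g₀⁻¹) * (g₀ * x * g₀⁻¹)
      calc g₀ * x * g₀⁻¹ * (h⁻¹ * (g₀ * g * g₀⁻¹))
          = h⁻¹ * (h * (g₀ * x * g₀⁻¹) * h⁻¹) * (g₀ * g * g₀⁻¹) := by group
        _ = h⁻¹ * (g₀ * (g * x * g⁻¹) * g₀⁻¹) * (g₀ * g * g₀⁻¹) := by rw [h2]
        _ = h⁻¹ * (g₀ * g * g₀⁻¹) * (g₀ * x * g₀⁻¹) := by group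
    have hhN : h ∈ Subgroup.normalizer (Q₁ : Set G) := by
      have h1 : h = (g₀ * g * g₀⁻¹) * (h⁻¹ * (g₀ * g * g₀⁻¹))⁻¹ := by group
      rw [h1]
      exact Subgroup.mul_mem _ hgN₁
        (Subgroup.inv_mem _ (Subgroup.centralizer_le_normalizer _ hc))
    have h3 : g₀ * g * g₀⁻¹ = h * (h⁻¹ * (g₀ * g * g₀⁻¹)) := by group
    rw [h3, hL]
    exact Subgroup.mul_mem_sup ⟨hhP, hhN⟩ hc
  -- the pair on the extender
  obtain ⟨fE, hfE⟩ := exists_subpairLE_of_le hM hPe E hEP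
  have hEσ : IsBrauerPair p M E fE := isBrauerPair_of_subpairLE hPe hfE
  have h0E : NormalSubpairRel p M ⟨Q₀, f₀⟩ ⟨E, fE⟩ :=
    normalSubpair_of_subpairLE hM hEσ (subpairLE_of_le_of_subpairLE hM hPe hf₀' hfE hQ₀E) hEN
  have ha₂ : NormalSubpairRel p M ⟨Q₁, f₁⟩ (conjIdx g₀ (⟨E, fE⟩ : BrauerPairIdx G)) := by
    have h1 : NormalSubpairRel p M (conjIdx g₀ (⟨Q₀, f₀⟩ : BrauerPairIdx G))
        (conjIdx g₀ (⟨E, fE⟩ : BrauerPairIdx G)) := isNormalSubpair_conj g₀ h0E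
    rw [hconj] at h1
    exact h1
  -- `L / C_G(Q₁)` is a `p`-group
  have hidx : ∃ k : ℕ, ((Subgroup.centralizer (Q₁ : Set G)).subgroupOf L).index = p ^ k := by
    have hn : ((Subgroup.centralizer (Q₁ : Set G)).subgroupOf L).Normal :=
      Subgroup.normal_subgroupOf_of_le_normalizer
        (hLT.trans (pairStab_le_normalizer_centralizer Q₁ f₁))
    have hq : IsPGroup p (L ⧸ (Subgroup.centralizer (Q₁ : Set G)).subgroupOf L) := by
      intro y
      obtain ⟨x, rfl⟩ := QuotientGroup.mk_surjective y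
      obtain ⟨j, hj⟩ := exists_pow_mem_of_mem_sup (P ⊓ Subgroup.normalizer (Q₁ : Set G))
        (Subgroup.centralizer (Q₁ : Set G)) (hPe.1.to_le inf_le_left) hN₁NC (x := (x : G)) (by
          rw [← hL]
          exact x.2)
      refine ⟨j, ?_⟩
      rw [← QuotientGroup.mk_pow]
      refine (QuotientGroup.eq_one_iff _).mpr ?_
      rw [Subgroup.mem_subgroupOf, Subgroup.coe_pow]
      exact hj
    exact hq.exists_card_eq
  obtain ⟨k, hk⟩ := hidx
  obtain ⟨a₃, hn₃, -, h13, t, htL, ht⟩ := exists_conj_le_of_normal_above hM hQ₁f₁ L hCL hLN hLst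
    k hk ⟨P ⊓ Subgroup.normalizer (Q₁ : Set G), ν₁⟩ (conjIdx g₀ (⟨E, fE⟩ : BrauerPairIdx G))
    hn₁ ha₂ hN₁L hEL
  have hB₁ : IsBrauerPairOf p M B Q₁ f₁ :=
    (isBrauerPairOf_iff_of_subpairLE hM B _ _ hle).mp hmax.1
  have h3 := eq_of_normal_above_of_card hM hmax hB₁ hfn a₃ hn₃ h13
  rw [h3] at ht
  have htL' : t ∈ (((P ⊓ Subgroup.normalizer (Q₁ : Set G))
      ⊔ Subgroup.centralizer (Q₁ : Set G) : Subgroup G) : Set G) := by
    rw [← hL]
    exact htL
  rw [Subgroup.coe_mul_of_left_le_normalizer_right _ _ hN₁NC] at htL'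
  obtain ⟨n, hn, c, hc, rfl⟩ := Set.mem_mul.mp htL'
  have hnS := (mem_pairStab P e n⁻¹).mp (le_pairStab_self P e (P.inv_mem hn.1))
  have hfin : Relation.ReflTransGen (NormalSubpairRel p M)
      (conjIdx (c * g₀) (⟨E, fE⟩ : BrauerPairIdx G)) ⟨P, e⟩ := by
    have h5 := subpairLE_conj n⁻¹ (ht.trans hν₁)
    rw [conjIdx_conjIdx, conjIdx_conjIdx, conjIdx_eq_self P e n⁻¹ hnS.1 hnS.2] at h5
    have e1 : n⁻¹ * (n * c) * g₀ = c * g₀ := by group
    rw [e1] at h5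
    exact h5
  refine ⟨conjHom E (c * g₀), ⟨hEP, c * g₀, fun u => rfl, subpairLE_le _ _ hfin, fE, hfE,
    hfin⟩, ?_⟩
  intro x hxQ hxE
  show c * g₀ * x * (c * g₀)⁻¹ = φ ⟨x, hxQ⟩
  rw [hg₀]
  have hy : g₀ * x * g₀⁻¹ ∈ Q₁ := by
    rw [← hmap]
    exact ⟨x, hxQ, rfl⟩
  have hcomm := Subgroup.mem_centralizer_iff.mp hc _ hy
  show c * g₀ * x * (c * g₀)⁻¹ = g₀ * x * g₀⁻¹
  calc c * g₀ * x * (c * g₀)⁻¹ = c * (g₀ * x * g₀⁻¹) * c⁻¹ := by group
    _ = (g₀ * x * g₀⁻¹) * c * c⁻¹ := by rw [hcomm]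
    _ = g₀ * x * g₀⁻¹ := by group

/-- The fusion system of a block on a maximal Brauer pair is saturated. -/
theorem isSaturated_blockFS [Fintype G] [Fact p.Prime] (hM : IsPModular p M)
    {B : Set (IrrCharacter G)} {P : Subgroup G}
    {e : Set (IrrCharacter (Subgroup.centralizer (P : Set G)))}
    (hmax : IsMaximalBrauerPair p M B P e) : (blockFS hM hmax.1.1).IsSaturated p := by
  classical
  have hPe := hmax.1.1
  intro Q hQP
  obtain ⟨f, hf⟩ := exists_subpairLE_of_le hM hPe Q hQP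
  obtain ⟨a₀, ha₀, hmaxa⟩ := Set.exists_max_image
    {x : G | Relation.ReflTransGen (NormalSubpairRel p M)
      (conjIdx x (⟨Q, f⟩ : BrauerPairIdx G)) ⟨P, e⟩}
    (fun x => Nat.card ↥(P ⊓ Subgroup.normalizer
      (((conjIdx x (⟨Q, f⟩ : BrauerPairIdx G)).1 : Subgroup G) : Set G)))
    (Set.toFinite _) ⟨1, by
      show Relation.ReflTransGen (NormalSubpairRel p M)
        (conjIdx 1 (⟨Q, f⟩ : BrauerPairIdx G)) ⟨P, e⟩
      rw [conjIdx_one]
      exact hf⟩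
  have ha₀' : Relation.ReflTransGen (NormalSubpairRel p M)
      (⟨Q.map (MulAut.conj a₀).toMonoidHom, conjBlock Q a₀ f⟩ : BrauerPairIdx G) ⟨P, e⟩ := ha₀
  have hfn : ∀ x : G,
      Relation.ReflTransGen (NormalSubpairRel p M)
        (conjIdx x (⟨Q.map (MulAut.conj a₀).toMonoidHom, conjBlock Q a₀ f⟩ : BrauerPairIdx G))
        ⟨P, e⟩ →
      Nat.card ↥(P ⊓ Subgroup.normalizer
        (((conjIdx x (⟨Q.map (MulAut.conj a₀).toMonoidHom, conjBlock Q a₀ f⟩ :
          BrauerPairIdx G)).1 : Subgroup G) : Set G))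
        ≤ Nat.card ↥(P ⊓ Subgroup.normalizer
          ((Q.map (MulAut.conj a₀).toMonoidHom : Subgroup G) : Set G)) := by
    intro x hx
    have hx' : Relation.ReflTransGen (NormalSubpairRel p M)
        (conjIdx (x * a₀) (⟨Q, f⟩ : BrauerPairIdx G)) ⟨P, e⟩ := by
      rw [← conjIdx_conjIdx]
      exact hx
    have h2 := hmaxa (x * a₀) hx'
    have h3 : (conjIdx x (⟨Q.map (MulAut.conj a₀).toMonoidHom, conjBlock Q a₀ f⟩ :
        BrauerPairIdx G)).1 = (conjIdx (x * a₀) (⟨Q, f⟩ : BrauerPairIdx G)).1 :=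
      congrArg Sigma.fst (conjIdx_conjIdx a₀ x (⟨Q, f⟩ : BrauerPairIdx G))
    rw [h3]
    exact h2
  refine ⟨Q.map (MulAut.conj a₀).toMonoidHom, ?_, isFullyAutomized_blockFS hM hmax ha₀' hfn,
    isReceptive_blockFS hM hmax ha₀' hfn⟩
  refine ⟨conjHom Q a₀, ⟨hQP, a₀, fun u => rfl, subpairLE_le _ _ ha₀, f, hf, ha₀⟩, ?_⟩
  ext y
  constructor
  · rintro ⟨x, rfl⟩
    exact ⟨x, x.2, rfl⟩
  · rintro ⟨x, hx, rfl⟩
    exact ⟨⟨x, hx⟩, rfl⟩

end Cfsg.Agent.Helper25
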