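import Mathlib
import Cfsg.Prelude.Def_OddOrderLocal
import Cfsg.Agent.Helper25.BlockPrincipal

/-!
# The `π`-core `O_π(G)` (helper25)

Basic facts on `Cfsg.piCore`: it is a normal `π`-subgroup containing every normal `π`-subgroup,
it is preserved by isomorphisms, pulls back along injective homomorphisms, and the `π`-core of a
normal subgroup lies in the `π`-core of the group.
-/

set_option autoImplicit false

namespace Cfsg.Agent.Helper25

open Cfsg

universe u v

theorem le_piCore_of {G : Type u} [Group G] (π : Set ℕ) (N : Subgroup G) (hN : N.Normal)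
    (hπ : ∀ q : ℕ, q.Prime → q ∣ Nat.card N → q ∈ π) : N ≤ piCore π G :=
  le_sSup ⟨hN, hπ⟩

theorem card_sup_dvd_mul {G : Type u} [Group G] (H K : Subgroup G) [K.Normal] :
    Nat.card (H ⊔ K : Subgroup G) ∣ Nat.card H * Nat.card K := by
  have h1 : (⊥ : Subgroup G).relIndex K * K.relIndex (H ⊔ K) = (⊥ : Subgroup G).relIndex (H ⊔ K) :=
    Subgroup.relIndex_mul_relIndex (⊥ : Subgroup G) K (H ⊔ K) bot_le le_sup_right
  rw [Subgroup.relIndex_bot_left, Subgroup.relIndex_bot_left, Subgroup.relIndex_sup_right] at h1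
  rw [← h1, mul_comm]
  exact Nat.mul_dvd_mul_right (Subgroup.relIndex_dvd_card K H) _

/-- The prime divisors of the order of `O_π(G)` lie in `π`. -/
theorem piCore_pi {G : Type u} [Group G] [Finite G] (π : Set ℕ) :
    ∀ q : ℕ, q.Prime → q ∣ Nat.card (piCore π G) → q ∈ π := by
  classical
  obtain ⟨S, hS⟩ : ∃ S : Set (Subgroup G),
      S = {N : Subgroup G | N.Normal ∧ ∀ p : ℕ, p.Prime → p ∣ Nat.card N → p ∈ π} := ⟨_, rfl⟩
  have hbot : (⊥ : Subgroup G) ∈ S := by
    rw [hS]
    refine ⟨Subgroup.normal_bot, fun q hq hdvd => ?_⟩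
    rw [Subgroup.card_bot] at hdvd
    exact absurd (Nat.dvd_one.mp hdvd) hq.one_lt.ne'
  obtain ⟨N₀, hN₀S, hN₀max⟩ := Set.exists_max_image S (fun N : Subgroup G => Nat.card N)
    (Set.toFinite S) ⟨⊥, hbot⟩
  have hN₀S' := hN₀S
  rw [hS] at hN₀S'
  have hle : ∀ N ∈ S, N ≤ N₀ := by
    intro N hN
    have hN' := hN
    rw [hS] at hN'
    have := hN'.1
    have := hN₀S'.1
    have hsup : N ⊔ N₀ ∈ S := by
      rw [hS]
      refine ⟨inferInstance, fun q hq hdvd => ?_⟩
      have h2 := dvd_trans hdvd (card_sup_dvd_mul N N₀)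
      rcases (Nat.Prime.dvd_mul hq).mp h2 with h3 | h3
      · exact hN'.2 q hq h3
      · exact hN₀S'.2 q hq h3
    have h4 := hN₀max _ hsup
    have h5 : N₀ = N ⊔ N₀ := Subgroup.eq_of_le_of_card_ge le_sup_right h4
    rw [h5]
    exact le_sup_left
  have heq : piCore π G = N₀ := by
    apply le_antisymm
    · unfold piCore
      rw [← hS]
      exact sSup_le hle
    · unfold piCore
      rw [← hS]
      exact le_sSup hN₀S
  rw [heq]
  exact hN₀S'.2

theorem piCore_not_dvd {G : Type u} [Group G] [Finite G] (π : Set ℕ) {p : ℕ} (hp : p.Prime)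
    (hpπ : p ∈ π) : ¬ p ∣ Nat.card (piCore {q | q ∉ π} G) := fun h =>
  piCore_pi {q | q ∉ π} p hp h hpπ

theorem prime_of_dvd_orderOf_of_mem_piCore {G : Type u} [Group G] [Finite G] (π : Set ℕ)
    {x : G} (hx : x ∈ piCore π G) (q : ℕ) (hq : q.Prime) (hdvd : q ∣ orderOf x) : q ∈ π := by
  apply piCore_pi (G := G) π q hq
  have h1 : orderOf (⟨x, hx⟩ : piCore π G) = orderOf x := Subgroup.orderOf_mk x hx
  rw [← h1] at hdvd
  exact dvd_trans hdvd (orderOf_dvd_natCard (⟨x, hx⟩ : piCore π G))

/-- `O_π` pulls back along injective homomorphisms. -/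
theorem mem_piCore_of_injective {A : Type u} {X : Type v} [Group A] [Group X] [Finite X]
    (π : Set ℕ) (φ : A →* X) (hφ : Function.Injective φ) {a : A} (h : φ a ∈ piCore π X) :
    a ∈ piCore π A := by
  have h1 : (piCore π X).comap φ ≤ piCore π A := by
    apply le_piCore_of
    · exact Subgroup.Normal.comap (piCore_normal π X) φ
    · intro q hq hdvd
      exact piCore_pi π q hq (dvd_trans hdvd (Subgroup.card_comap_dvd_of_injective _ φ hφ))
  exact h1 (Subgroup.mem_comap.mpr h)

/-- `O_π` is preserved by isomorphisms. -/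
theorem mulEquiv_mem_piCore {A : Type u} {X : Type v} [Group A] [Group X] [Finite A]
    (π : Set ℕ) (φ : A ≃* X) {a : A} (h : a ∈ piCore π A) : φ a ∈ piCore π X := by
  apply mem_piCore_of_injective π φ.symm.toMonoidHom φ.symm.injective
  have e : φ.symm.toMonoidHom (φ a) = a := φ.symm_apply_apply a
  rw [e]
  exact h

/-- The image in `N` of `O_π` of a subgroup `C` normalized by `N ≥ C` is normal in `N`. -/
theorem piCore_map_inclusion_normal {G : Type u} [Group G] [Finite G] (π : Set ℕ)
    (C N : Subgroup G) (hCN : C ≤ N) (hN : N ≤ Subgroup.normalizer (C : Set G)) :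
    ((piCore π C).map (Subgroup.inclusion hCN)).Normal := by
  constructor
  intro t ht n
  obtain ⟨k', hk', rfl⟩ := ht
  have hn := hN n.2
  refine ⟨conjEquiv C (n : G) hn k', mulEquiv_mem_piCore π (conjEquiv C (n : G) hn) hk', ?_⟩
  apply Subtype.ext
  rfl

/-- `O_π` of a subgroup `C` normalized by `N ≥ C` lies in `O_π(N)`. -/
theorem mem_piCore_of_normal {G : Type u} [Group G] [Finite G] (π : Set ℕ) (C N : Subgroup G)
    (hCN : C ≤ N) (hN : N ≤ Subgroup.normalizer (C : Set G)) (k : C) (hk : k ∈ piCore π C) :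
    (⟨(k : G), hCN k.2⟩ : N) ∈ piCore π N := by
  have hTle : (piCore π C).map (Subgroup.inclusion hCN) ≤ piCore π N := by
    apply le_piCore_of π _ (piCore_map_inclusion_normal π C N hCN hN)
    intro q hq hdvd
    rw [Subgroup.card_map_of_injective (Subgroup.inclusion_injective hCN)] at hdvd
    exact piCore_pi π q hq hdvd
  apply hTle
  exact ⟨k, hk, rfl⟩

end Cfsg.Agent.Helper25
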