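import Mathlib
import Cfsg.Agent.Helper7.SectionSum
import Cfsg.Agent.Helper7.SecondMain
import Cfsg.Agent.Helper25.BlockRank
import Cfsg.Agent.Helper25.BlockPairs6

/-!
# Shared block-theory library (helper25): orthogonality on a `p`-section, block by block

For a `p`-element `z`, `C = C_G(z)` and a block `e` of `C`:

* `sum_blockPart_section_mul`: `∑_χ (χ(z ·))^e(y) χ(z⁻¹ w) = ∑_{ξ ∈ e} ξ(y) ξ(w)` for `p`-regular
  `y, w ∈ C`.
* `sum_blockPart_section_sq`: `∑_χ (χ(z ·))^e(y) (χ(z⁻¹ ·))^e(y⁻¹) = ∑_{ξ ∈ e} ξ(y) ξ(y⁻¹)`.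
* `section_sum_eq_rank`: if `e` induces `B`, the sum over `χ ∈ B` and `p`-regular `s ∈ C` of
  `(χ(z ·))^e(s) (χ(z⁻¹ ·))^e(s⁻¹)` is `|C| l(e)`.
-/

set_option autoImplicit false

namespace Cfsg.Agent.Helper25

open Cfsg Cfsg.Agent.Helper2 Cfsg.Agent.Helper7
open scoped ComplexConjugate

universe u

variable {G : Type u} [Group G] {p : ℕ} {M : Ideal AlgInt}

theorem isConj_section_iff (hp : p.Prime) {z : G} {k : ℕ} (hk : orderOf z = p ^ k)
    (c v : Subgroup.centralizer ({z} : Set G)) (hc : ¬ p ∣ orderOf c) (hv : ¬ p ∣ orderOf v) :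
    IsConj (z * (c : G)) (z * (v : G)) ↔ IsConj v c := by
  have hcomm : ∀ c : Subgroup.centralizer ({z} : Set G), z * (c : G) = (c : G) * z :=
    fun c => Subgroup.mem_centralizer_iff.mp c.2 z (Set.mem_singleton z)
  have hcG : ¬ p ∣ orderOf (c : G) := by rwa [Subgroup.orderOf_coe]
  have hvG : ¬ p ∣ orderOf (v : G) := by rwa [Subgroup.orderOf_coe]
  constructor
  · intro h
    obtain ⟨s, hs⟩ := isConj_iff.mp h
    obtain ⟨h1, h2⟩ := conj_eq_of_conj_section hp hk (hcomm c) (hcomm v) hcG hvG hs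
    have hsH : s ∈ Subgroup.centralizer ({z} : Set G) := by
      rw [Subgroup.mem_centralizer_iff]
      intro w hw
      rw [Set.mem_singleton_iff.mp hw]
      calc z * s = s * z * s⁻¹ * s := by rw [h1]
        _ = s * z := by group
    have h3 : IsConj c v := isConj_iff.mpr ⟨⟨s, hsH⟩, Subtype.ext h2⟩
    exact h3.symm
  · intro h
    obtain ⟨t, ht⟩ := isConj_iff.mp h.symm
    have ht' : (t : G) * (c : G) * (t : G)⁻¹ = (v : G) :=
      congrArg (Subtype.val : Subgroup.centralizer ({z} : Set G) → G) ht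
    refine isConj_iff.mpr ⟨(t : G), ?_⟩
    rw [← ht']
    have e : (t : G) * (z * (c : G)) * (t : G)⁻¹
        = (t : G) * z * ((c : G) * (t : G)⁻¹) := by group
    rw [e, ← hcomm t]
    group

theorem card_centralizer_section [Finite G] (hp : p.Prime) {z : G} {k : ℕ}
    (hk : orderOf z = p ^ k) (y : Subgroup.centralizer ({z} : Set G)) (hy : ¬ p ∣ orderOf y) :
    Nat.card (Subgroup.centralizer ({z * (y : G)} : Set G))
      = Nat.card (Subgroup.centralizer ({y} : Set (Subgroup.centralizer ({z} : Set G)))) := by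
  have hcomm : ∀ c : Subgroup.centralizer ({z} : Set G), z * (c : G) = (c : G) * z :=
    fun c => Subgroup.mem_centralizer_iff.mp c.2 z (Set.mem_singleton z)
  have hyG : ¬ p ∣ orderOf (y : G) := by rwa [Subgroup.orderOf_coe]
  have e3 : (Subgroup.centralizer ({y} : Set (Subgroup.centralizer ({z} : Set G)))).map
      (Subgroup.centralizer ({z} : Set G)).subtype
      = Subgroup.centralizer ({z * (y : G)} : Set G) := by
    ext g
    constructor
    · intro hg
      obtain ⟨g', hg', rfl⟩ := Subgroup.mem_map.mp hg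
      rw [Subgroup.mem_centralizer_iff]
      intro w hw
      rw [Set.mem_singleton_iff.mp hw]
      have h1 := Subgroup.mem_centralizer_iff.mp hg' y rfl
      have h2 : (y : G) * (g' : G) = (g' : G) * (y : G) :=
        congrArg (Subtype.val : Subgroup.centralizer ({z} : Set G) → G) h1
      show z * (y : G) * (g' : G) = (g' : G) * (z * (y : G))
      rw [mul_assoc, h2, ← mul_assoc, hcomm g', mul_assoc]
    · intro hg
      have h1 := Subgroup.mem_centralizer_iff.mp hg (z * (y : G)) rfl
      have h2 : g * (z * (y : G)) * g⁻¹ = z * (y : G) := by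
        rw [← h1, mul_inv_cancel_right]
      obtain ⟨h3, h4⟩ := conj_eq_of_conj_section hp hk (hcomm y) (hcomm y) hyG hyG h2
      have hgH : g ∈ Subgroup.centralizer ({z} : Set G) := by
        rw [Subgroup.mem_centralizer_iff]
        intro w hw
        rw [Set.mem_singleton_iff.mp hw]
        calc z * g = g * z * g⁻¹ * g := by rw [h3]
          _ = g * z := by group
      refine Subgroup.mem_map.mpr ⟨⟨g, hgH⟩, ?_, rfl⟩
      rw [Subgroup.mem_centralizer_iff]
      intro w hw
      rw [Set.mem_singleton_iff.mp hw]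
      apply Subtype.ext
      show (y : G) * g = g * (y : G)
      calc (y : G) * g = g * (y : G) * g⁻¹ * g := by rw [h4]
        _ = g * (y : G) := by group
  rw [← e3]
  exact Subgroup.card_map_of_injective (Subgroup.subtype_injective _)

/-- `∑_χ (χ(z ·))^e(y) χ(z⁻¹ w) = ∑_{ξ ∈ e} ξ(y) ξ(w)` for `p`-regular `y, w ∈ C_G(z)`. -/
theorem sum_blockPart_section_mul [Finite G] [Fact p.Prime] (hM : IsPModular p M) (z : G) (k : ℕ)
    (hk : orderOf z = p ^ k) {e : Set (IrrCharacter (Subgroup.centralizer ({z} : Set G)))}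
    (he : IsPBlock M e) (y w : Subgroup.centralizer ({z} : Set G)) (hy : ¬ p ∣ orderOf y)
    (hw : ¬ p ∣ orderOf w) :
    ∑ χ : IrrCharacter G,
        blockPart e (fun c : Subgroup.centralizer ({z} : Set G) => (χ : G → ℂ) (z * (c : G))) y
          * (χ : G → ℂ) (z⁻¹ * (w : G))
      = ∑ ξ ∈ (Set.toFinite e).toFinset,
        (ξ : Subgroup.centralizer ({z} : Set G) → ℂ) y *
          (ξ : Subgroup.centralizer ({z} : Set G) → ℂ) w := by
  classical
  have hp := hM.1
  haveI := Fintype.ofFinite G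
  haveI := Fintype.ofFinite (Subgroup.centralizer ({z} : Set G))
  have hcomm : ∀ c : Subgroup.centralizer ({z} : Set G), z * (c : G) = (c : G) * z :=
    fun c => Subgroup.mem_centralizer_iff.mp c.2 z (Set.mem_singleton z)
  obtain ⟨v, hv⟩ : ∃ v : Subgroup.centralizer ({z} : Set G), v = w⁻¹ := ⟨_, rfl⟩
  have hvr : ¬ p ∣ orderOf v := by rwa [hv, orderOf_inv]
  have hvw : z⁻¹ * (w : G) = (z * (v : G))⁻¹ := by
    rw [hv, Subgroup.coe_inv, mul_inv_rev, inv_inv]
    have h1 := hcomm w
    calc z⁻¹ * (w : G) = z⁻¹ * ((w : G) * z) * z⁻¹ := by group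
      _ = z⁻¹ * (z * (w : G)) * z⁻¹ := by rw [h1]
      _ = (w : G) * z⁻¹ := by group
  obtain ⟨Kb, hKb⟩ : ∃ Kb : Subgroup.centralizer ({z} : Set G) → ℂ, Kb = fun c =>
      ∑ ξ ∈ (Set.toFinite e).toFinset, (ξ : Subgroup.centralizer ({z} : Set G) → ℂ) y *
          (ξ : Subgroup.centralizer ({z} : Set G) → ℂ) c⁻¹ := ⟨_, rfl⟩
  have hKbv : Kb v = ∑ ξ ∈ (Set.toFinite e).toFinset,
      (ξ : Subgroup.centralizer ({z} : Set G) → ℂ) y *
        (ξ : Subgroup.centralizer ({z} : Set G) → ℂ) w := by
    rw [hKb, hv]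
    simp only [inv_inv]
  rw [← hKbv, hvw]
  have claim2 : ∀ ϑ : Subgroup.centralizer ({z} : Set G) → ℂ,
      blockPart e ϑ y = (Nat.card (Subgroup.centralizer ({z} : Set G)) : ℂ)⁻¹ *
          ∑ c : Subgroup.centralizer ({z} : Set G), ϑ c * Kb c := by
    intro ϑ
    rw [blockPart_eq_sum', finsum_eq_sum_of_fintype, hKb]
  have claim4 : ∀ c : Subgroup.centralizer ({z} : Set G),
      Kb c * (if IsConj (z * (c : G)) (z * (v : G))
        then (Nat.card (Subgroup.centralizer ({z * (v : G)} : Set G)) : ℂ) else 0)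
      = if IsConj v c then Kb v *
          (Nat.card (Subgroup.centralizer ({v} : Set (Subgroup.centralizer ({z} : Set G)))) : ℂ)
        else 0 := by
    intro c
    by_cases hc : p ∣ orderOf c
    · have h0 : Kb c = 0 := by
        rw [hKb]
        exact weak_block_orth hM he y c hy hc
      have hnc : ¬ IsConj v c := by
        intro h
        obtain ⟨t, ht⟩ := isConj_iff.mp h
        apply hvr
        rw [← ht, orderOf_conj_eq] at hc
        exact hc
      rw [h0, zero_mul, if_neg hnc]
    · have hiff := isConj_section_iff hp hk c v hc hvr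
      by_cases hyc : IsConj v c
      · rw [if_pos (hiff.mpr hyc), if_pos hyc]
        have e1 : Kb c = Kb v := by
          obtain ⟨t, ht⟩ := isConj_iff.mp hyc
          rw [hKb]
          beta_reduce
          apply Finset.sum_congr rfl
          intro χ _
          have e9 : c⁻¹ = t * v⁻¹ * t⁻¹ := by rw [← ht]; group
          rw [e9, irr_conj]
        rw [e1, card_centralizer_section hp hk v hvr]
      · rw [if_neg (fun h => hyc (hiff.mp h)), if_neg hyc, mul_zero]
  have e2 : ∀ ζ : IrrCharacter G,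
      blockPart e (fun c : Subgroup.centralizer ({z} : Set G) => (ζ : G → ℂ) (z * (c : G))) y
          * (ζ : G → ℂ) (z * (v : G))⁻¹
        = ∑ c : Subgroup.centralizer ({z} : Set G),
          (Nat.card (Subgroup.centralizer ({z} : Set G)) : ℂ)⁻¹ * (Kb c *
            ((ζ : G → ℂ) (z * (c : G)) * (ζ : G → ℂ) (z * (v : G))⁻¹)) := by
    intro ζ
    rw [claim2, Finset.mul_sum, Finset.sum_mul]
    apply Finset.sum_congr rfl
    intro c _
    ring
  rw [Finset.sum_congr rfl (fun ζ _ => e2 ζ), Finset.sum_comm]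
  have e3 : ∀ c : Subgroup.centralizer ({z} : Set G),
      ∑ ζ : IrrCharacter G, (Nat.card (Subgroup.centralizer ({z} : Set G)) : ℂ)⁻¹ * (Kb c *
            ((ζ : G → ℂ) (z * (c : G)) * (ζ : G → ℂ) (z * (v : G))⁻¹))
        = (Nat.card (Subgroup.centralizer ({z} : Set G)) : ℂ)⁻¹ *
          (if IsConj v c then Kb v *
          (Nat.card (Subgroup.centralizer ({v} : Set (Subgroup.centralizer ({z} : Set G)))) : ℂ)
          else 0) := by
    intro c
    rw [← Finset.mul_sum, ← Finset.mul_sum, second_orthogonality]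
    congr 1
    rw [← claim4 c]
  rw [Finset.sum_congr rfl (fun c _ => e3 c), ← Finset.mul_sum, ← Finset.sum_filter,
    Finset.sum_const, nsmul_eq_mul]
  have hcard : ((Finset.univ.filter (fun c : Subgroup.centralizer ({z} : Set G) =>
      IsConj v c)).card : ℂ) *
      (Nat.card (Subgroup.centralizer ({v} : Set (Subgroup.centralizer ({z} : Set G)))) : ℂ)
      = (Nat.card (Subgroup.centralizer ({z} : Set G)) : ℂ) := by
    have h1 : (Finset.univ.filter (fun c : Subgroup.centralizer ({z} : Set G) =>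
        IsConj v c)).card = Nat.card {x : Subgroup.centralizer ({z} : Set G) // IsConj v x} := by
      rw [Nat.card_eq_fintype_card, Fintype.card_subtype]
    rw [h1, ← Nat.cast_mul, card_class_mul_card_centralizer]
  have hne : (Nat.card (Subgroup.centralizer ({z} : Set G)) : ℂ) ≠ 0 :=
    Nat.cast_ne_zero.mpr Nat.card_pos.ne'
  calc (Nat.card (Subgroup.centralizer ({z} : Set G)) : ℂ)⁻¹ *
        (((Finset.univ.filter (fun c : Subgroup.centralizer ({z} : Set G) =>
          IsConj v c)).card : ℂ) * (Kb v *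
          (Nat.card (Subgroup.centralizer ({v} : Set (Subgroup.centralizer ({z} : Set G)))) : ℂ)))
      = (Nat.card (Subgroup.centralizer ({z} : Set G)) : ℂ)⁻¹ *
        ((((Finset.univ.filter (fun c : Subgroup.centralizer ({z} : Set G) =>
          IsConj v c)).card : ℂ) *
          (Nat.card (Subgroup.centralizer ({v} : Set (Subgroup.centralizer ({z} : Set G)))) : ℂ))
          * Kb v) := by ring
    _ = Kb v := by rw [hcard, ← mul_assoc, inv_mul_cancel₀ hne, one_mul]

theorem sum_irr_mul_irr_inv {H : Type u} [Group H] [Fintype H] (ξ' ξ : IrrCharacter H) :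
    ∑ c : H, (ξ' : H → ℂ) c * (ξ : H → ℂ) c⁻¹ = if ξ' = ξ then (Nat.card H : ℂ) else 0 := by
  have h := irr_classInner ξ' ξ
  unfold classInner at h
  have h2 : ∑ c : H, (ξ' : H → ℂ) c * (ξ : H → ℂ) c⁻¹
      = ∑ c : H, (ξ' : H → ℂ) c * conj ((ξ : H → ℂ) c) :=
    Finset.sum_congr rfl (fun c _ => by rw [irr_inv])
  have hne : (Nat.card H : ℂ) ≠ 0 := Nat.cast_ne_zero.mpr Nat.card_pos.ne'
  rw [h2]
  have h3 : ∑ c : H, (ξ' : H → ℂ) c * conj ((ξ : H → ℂ) c)
      = (Nat.card H : ℂ) * ((Nat.card H : ℂ)⁻¹ * ∑ c : H, (ξ' : H → ℂ) c * conj ((ξ : H → ℂ) c)) := by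
    rw [← mul_assoc, mul_inv_cancel₀ hne, one_mul]
  rw [h3, h]
  split_ifs
  · rw [mul_one]
  · rw [mul_zero]

/-- `∑_χ (χ(z ·))^e(y) (χ(z⁻¹ ·))^e(y⁻¹) = ∑_{ξ ∈ e} ξ(y) ξ(y⁻¹)` for `p`-regular `y`. -/
theorem sum_blockPart_section_sq [Finite G] [Fact p.Prime] (hM : IsPModular p M) (z : G) (k : ℕ)
    (hk : orderOf z = p ^ k) {e : Set (IrrCharacter (Subgroup.centralizer ({z} : Set G)))}
    (he : IsPBlock M e) (y : Subgroup.centralizer ({z} : Set G)) (hy : ¬ p ∣ orderOf y) :
    ∑ χ : IrrCharacter G,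
        blockPart e (fun c : Subgroup.centralizer ({z} : Set G) => (χ : G → ℂ) (z * (c : G))) y
          * blockPart e
            (fun c : Subgroup.centralizer ({z} : Set G) => (χ : G → ℂ) (z⁻¹ * (c : G))) y⁻¹
      = ∑ ξ ∈ (Set.toFinite e).toFinset,
        (ξ : Subgroup.centralizer ({z} : Set G) → ℂ) y *
          (ξ : Subgroup.centralizer ({z} : Set G) → ℂ) y⁻¹ := by
  classical
  haveI := Fintype.ofFinite G
  haveI := Fintype.ofFinite (Subgroup.centralizer ({z} : Set G))
  have hyi : ¬ p ∣ orderOf y⁻¹ := by rwa [orderOf_inv]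
  have hne : (Nat.card (Subgroup.centralizer ({z} : Set G)) : ℂ) ≠ 0 :=
    Nat.cast_ne_zero.mpr Nat.card_pos.ne'
  obtain ⟨Kb, hKb⟩ : ∃ Kb : Subgroup.centralizer ({z} : Set G) → ℂ, Kb = fun c =>
      ∑ ξ ∈ (Set.toFinite e).toFinset, (ξ : Subgroup.centralizer ({z} : Set G) → ℂ) y⁻¹ *
          (ξ : Subgroup.centralizer ({z} : Set G) → ℂ) c⁻¹ := ⟨_, rfl⟩
  obtain ⟨A, hA⟩ : ∃ A : IrrCharacter G → ℂ, A = fun χ : IrrCharacter G =>
      blockPart e (fun c : Subgroup.centralizer ({z} : Set G) => (χ : G → ℂ) (z * (c : G))) y :=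
    ⟨_, rfl⟩
  have e1 : ∀ χ : IrrCharacter G,
      blockPart e (fun c : Subgroup.centralizer ({z} : Set G) => (χ : G → ℂ) (z⁻¹ * (c : G))) y⁻¹
        = (Nat.card (Subgroup.centralizer ({z} : Set G)) : ℂ)⁻¹ *
          ∑ c : Subgroup.centralizer ({z} : Set G), (χ : G → ℂ) (z⁻¹ * (c : G)) * Kb c := by
    intro χ
    rw [blockPart_eq_sum', finsum_eq_sum_of_fintype, hKb]
  have e2 : ∑ χ : IrrCharacter G,
        blockPart e (fun c : Subgroup.centralizer ({z} : Set G) => (χ : G → ℂ) (z * (c : G))) y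
          * blockPart e
            (fun c : Subgroup.centralizer ({z} : Set G) => (χ : G → ℂ) (z⁻¹ * (c : G))) y⁻¹
      = (Nat.card (Subgroup.centralizer ({z} : Set G)) : ℂ)⁻¹ *
        ∑ c : Subgroup.centralizer ({z} : Set G), Kb c *
          ∑ χ : IrrCharacter G, A χ * (χ : G → ℂ) (z⁻¹ * (c : G)) := by
    simp only [e1, Finset.mul_sum]
    rw [Finset.sum_comm]
    apply Finset.sum_congr rfl
    intro c _
    apply Finset.sum_congr rfl
    intro χ _
    rw [hA]
    ring
  have e3 : ∀ c : Subgroup.centralizer ({z} : Set G),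
      Kb c * ∑ χ : IrrCharacter G, A χ * (χ : G → ℂ) (z⁻¹ * (c : G))
        = Kb c * ∑ ξ' ∈ (Set.toFinite e).toFinset,
          (ξ' : Subgroup.centralizer ({z} : Set G) → ℂ) y *
            (ξ' : Subgroup.centralizer ({z} : Set G) → ℂ) c := by
    intro c
    by_cases hc : p ∣ orderOf c
    · have h0 : Kb c = 0 := by
        rw [hKb]
        exact weak_block_orth hM he y⁻¹ c hyi hc
      rw [h0, zero_mul, zero_mul]
    · rw [hA]
      rw [sum_blockPart_section_mul hM z k hk he y c hy hc]
  rw [e2, Finset.sum_congr rfl (fun c _ => e3 c)]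
  have e4 : ∑ c : Subgroup.centralizer ({z} : Set G), Kb c *
        ∑ ξ' ∈ (Set.toFinite e).toFinset,
          (ξ' : Subgroup.centralizer ({z} : Set G) → ℂ) y *
            (ξ' : Subgroup.centralizer ({z} : Set G) → ℂ) c
      = ∑ ξ ∈ (Set.toFinite e).toFinset,
        ((ξ : Subgroup.centralizer ({z} : Set G) → ℂ) y⁻¹ *
          (ξ : Subgroup.centralizer ({z} : Set G) → ℂ) y) *
          (Nat.card (Subgroup.centralizer ({z} : Set G)) : ℂ) := by
    calc ∑ c : Subgroup.centralizer ({z} : Set G), Kb c *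
        ∑ ξ' ∈ (Set.toFinite e).toFinset,
          (ξ' : Subgroup.centralizer ({z} : Set G) → ℂ) y *
            (ξ' : Subgroup.centralizer ({z} : Set G) → ℂ) c
        = ∑ c : Subgroup.centralizer ({z} : Set G), ∑ ξ ∈ (Set.toFinite e).toFinset,
          ∑ ξ' ∈ (Set.toFinite e).toFinset,
            ((ξ : Subgroup.centralizer ({z} : Set G) → ℂ) y⁻¹ *
              (ξ' : Subgroup.centralizer ({z} : Set G) → ℂ) y) *
              ((ξ' : Subgroup.centralizer ({z} : Set G) → ℂ) c *
                (ξ : Subgroup.centralizer ({z} : Set G) → ℂ) c⁻¹) := by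
          apply Finset.sum_congr rfl
          intro c _
          rw [hKb, Finset.sum_mul]
          apply Finset.sum_congr rfl
          intro ξ _
          rw [Finset.mul_sum]
          apply Finset.sum_congr rfl
          intro ξ' _
          ring
      _ = ∑ ξ ∈ (Set.toFinite e).toFinset, ∑ ξ' ∈ (Set.toFinite e).toFinset,
            ((ξ : Subgroup.centralizer ({z} : Set G) → ℂ) y⁻¹ *
              (ξ' : Subgroup.centralizer ({z} : Set G) → ℂ) y) *
              ∑ c : Subgroup.centralizer ({z} : Set G),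
                ((ξ' : Subgroup.centralizer ({z} : Set G) → ℂ) c *
                  (ξ : Subgroup.centralizer ({z} : Set G) → ℂ) c⁻¹) := by
          rw [Finset.sum_comm]
          apply Finset.sum_congr rfl
          intro ξ _
          rw [Finset.sum_comm]
          apply Finset.sum_congr rfl
          intro ξ' _
          rw [Finset.mul_sum]
      _ = ∑ ξ ∈ (Set.toFinite e).toFinset, ∑ ξ' ∈ (Set.toFinite e).toFinset,
            ((ξ : Subgroup.centralizer ({z} : Set G) → ℂ) y⁻¹ *
              (ξ' : Subgroup.centralizer ({z} : Set G) → ℂ) y) *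
              (if ξ' = ξ then (Nat.card (Subgroup.centralizer ({z} : Set G)) : ℂ) else 0) := by
          simp only [sum_irr_mul_irr_inv]
      _ = _ := by
          apply Finset.sum_congr rfl
          intro ξ hξ
          rw [Finset.sum_eq_single ξ]
          · rw [if_pos rfl]
          · intro b _ hb
            rw [if_neg hb, mul_zero]
          · intro h
            exact absurd hξ h
  rw [e4, ← Finset.sum_mul, mul_comm, mul_assoc, mul_inv_cancel₀ hne, mul_one]
  apply Finset.sum_congr rfl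
  intro ξ _
  rw [mul_comm]

/-- If `e` induces `B`, the sum over `χ ∈ B` and the `p`-regular `s ∈ C_G(u)` of
`(χ(u ·))^e(s) (χ(u⁻¹ ·))^e(s⁻¹)` is `|C_G(u)| l(e)`. -/
theorem section_sum_eq_rank [Finite G] [Fact p.Prime] (hM : IsPModular p M) (u : G) (k : ℕ)
    (hk : orderOf u = p ^ k) {B : Set (IrrCharacter G)}
    {e : Set (IrrCharacter (Subgroup.centralizer ({u} : Set G)))}
    (hind : IsInducedBlock M (Subgroup.centralizer ({u} : Set G)) e B) :
    ∑ᶠ χ ∈ B, ∑ᶠ s : Subgroup.centralizer ({u} : Set G),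
        pRegularPart p (blockPart e
          (fun c : Subgroup.centralizer ({u} : Set G) => (χ : G → ℂ) (u * c))) s *
          blockPart e (fun c : Subgroup.centralizer ({u} : Set G) => (χ : G → ℂ) (u⁻¹ * c)) s⁻¹
      = (Nat.card (Subgroup.centralizer ({u} : Set G)) : ℂ) * (blockRank p e : ℂ) := by
  classical
  haveI := Fintype.ofFinite G
  haveI := Fintype.ofFinite (Subgroup.centralizer ({u} : Set G))
  have he := hind.1
  have hne : (Nat.card (Subgroup.centralizer ({u} : Set G)) : ℂ) ≠ 0 :=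
    Nat.cast_ne_zero.mpr Nat.card_pos.ne'
  rw [finsum_mem_eq_finite_toFinset_sum _ (Set.toFinite B)]
  simp only [finsum_eq_sum_of_fintype]
  rw [Finset.sum_comm]
  have step : ∀ s : Subgroup.centralizer ({u} : Set G),
      ∑ χ ∈ (Set.toFinite B).toFinset,
        pRegularPart p (blockPart e
          (fun c : Subgroup.centralizer ({u} : Set G) => (χ : G → ℂ) (u * c))) s *
          blockPart e (fun c : Subgroup.centralizer ({u} : Set G) => (χ : G → ℂ) (u⁻¹ * c)) s⁻¹
      = ∑ ξ ∈ (Set.toFinite e).toFinset,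
        pRegularPart p (ξ : Subgroup.centralizer ({u} : Set G) → ℂ) s *
          (ξ : Subgroup.centralizer ({u} : Set G) → ℂ) s⁻¹ := by
    intro s
    by_cases hs : p ∣ orderOf s
    · simp only [pRegularPart_of_sing hs, zero_mul, Finset.sum_const_zero]
    · simp only [pRegularPart_of_reg hs]
      rw [← sum_blockPart_section_sq hM u k hk he s hs]
      apply Finset.sum_subset (Finset.subset_univ _)
      intro χ _ hχ
      have hχB : χ ∉ B := fun h => hχ ((Set.Finite.mem_toFinset _).mpr h)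
      have hnot : ¬ IsInducedBlock M (Subgroup.centralizer ({u} : Set G)) e
          (blockOf M (χ : G → ℂ)) := by
        intro h'
        apply hχB
        rw [isInducedBlock_unique hM _ hind h']
        exact self_mem_blockOf hM χ
      rw [blockPart_section_eq_zero hM u k hk (B := blockOf M (χ : G → ℂ)) ⟨χ, rfl⟩
        (self_mem_blockOf hM χ) he hnot s hs, zero_mul]
  rw [Finset.sum_congr rfl (fun s _ => step s), Finset.sum_comm,
    blockRank_eq_sum_gram hM e (blockCoeff_lr hM he), Finset.mul_sum]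
  apply Finset.sum_congr rfl
  intro ξ _
  rw [gram_eq, ← mul_assoc, mul_inv_cancel₀ hne, one_mul]

/-- `section_sum_eq_rank` for any subgroup equal to `C_G(u)`. -/
theorem section_sum_eq_rank' [Finite G] [Fact p.Prime] (hM : IsPModular p M) (u : G) (k : ℕ)
    (hk : orderOf u = p ^ k) {B : Set (IrrCharacter G)} (K : Subgroup G)
    (hK : K = Subgroup.centralizer ({u} : Set G)) {e : Set (IrrCharacter K)}
    (hind : IsInducedBlock M K e B) :
    ∑ᶠ χ ∈ B, ∑ᶠ s : K,
        pRegularPart p (blockPart e (fun c : K => (χ : G → ℂ) (u * c))) s *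
          blockPart e (fun c : K => (χ : G → ℂ) (u⁻¹ * c)) s⁻¹
      = (Nat.card K : ℂ) * (blockRank p e : ℂ) := by
  subst hK
  exact section_sum_eq_rank hM u k hk hind

theorem centralizer_zpowers_eq (u : G) :
    Subgroup.centralizer (Subgroup.zpowers u : Set G) = Subgroup.centralizer ({u} : Set G) := by
  ext g
  rw [Subgroup.mem_centralizer_iff, Subgroup.mem_centralizer_iff]
  constructor
  · intro h w hw
    rw [Set.mem_singleton_iff.mp hw]
    exact h u (Subgroup.mem_zpowers u)
  · intro h w hw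
    obtain ⟨n, rfl⟩ := Subgroup.mem_zpowers_iff.mp hw
    have h1 : Commute u g := h u rfl
    exact (h1.zpow_left n).eq

end Cfsg.Agent.Helper25
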