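import Mathlib
import Cfsg.Agent.Helper25.BlockPairs23
import Cfsg.Agent.Helper25.SectionOrth
import Cfsg.Agent.Helper25.PiCore
import Cfsg.Agent.Helper7.ThirdMain
import Cfsg.Agent.Helper7.BrauerCorr
import Cfsg.Agent.Helper25.BlockNilp

/-!
# Shared block-theory library (helper25), part 38: normal `p'`-subgroups in kernels of blocks

* `ker_transfer_induced`: for `β^X = b` and a normal `p'`-subgroup `K` of `X`, `K ≤ ker b` iff
  `K ∩ H ≤ ker β`.
* `normalSubpair_ker_transfer`: for `(Q, f) ⊴ (R, g)` and an `R`-invariant normal `p'`-subgroup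
  `K` of `C_G(Q)`, `K ≤ ker f` iff `C_K(R) ≤ ker g`.
* `exists_isBrauerPairOf_of_isDefectGroup`: a block has a Brauer pair at each defect group.
-/

set_option autoImplicit false

namespace Cfsg.Agent.Helper25

open Cfsg Cfsg.Agent.Helper2
open scoped ComplexConjugate Pointwise

universe u

variable {G : Type u} [Group G] {p : ℕ} {M : Ideal AlgInt}

open Classical in
theorem indicator_classFun (K : Subgroup G) [K.Normal] (g x : G) :
    (fun y : G => if y ∈ K then (1 : ℂ) else 0) (x * g * x⁻¹)
      = (fun y : G => if y ∈ K then (1 : ℂ) else 0) g := by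
  have h : x * g * x⁻¹ ∈ K ↔ g ∈ K := by
    constructor
    · intro h
      have h1 := Subgroup.Normal.conj_mem (inferInstance : K.Normal) _ h x⁻¹
      have e : x⁻¹ * (x * g * x⁻¹) * x⁻¹⁻¹ = g := by group
      rwa [e] at h1
    · intro h
      exact Subgroup.Normal.conj_mem inferInstance g h x
  simp only [h]

open Classical in
theorem indicator_lr (hM : IsPModular p M) (K : Subgroup G) (g : G) :
    MemLocalRing M ((fun y : G => if y ∈ K then (1 : ℂ) else 0) g) := by
  by_cases h : g ∈ K
  · simp only [if_pos h]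
    exact lr_one hM
  · simp only [if_neg h]
    exact lr_zero hM

/-- If `β^X = b` and `K` is a normal `p'`-subgroup of `X`, then `K` is in the kernel of `b` iff
`K ∩ H` is in the kernel of `β`. -/
theorem ker_transfer_induced [Finite G] (hM : IsPModular p M) (H : Subgroup G)
    {β : Set (IrrCharacter H)} {b : Set (IrrCharacter G)} (hind : IsInducedBlock M H β b)
    (K : Subgroup G) [K.Normal] (hK : ¬ p ∣ Nat.card K) :
    (∀ χ ∈ b, K ≤ irrKer χ) ↔ (∀ ξ ∈ β, K.subgroupOf H ≤ irrKer ξ) := by
  classical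
  let _ : Fintype G := Fintype.ofFinite G
  let _ : Fintype H := Fintype.ofFinite H
  obtain ⟨hβ, hb, -⟩ := id hind
  obtain ⟨ξ₀, hξ₀⟩ := id hβ
  obtain ⟨χ₀, hχ₀⟩ := id hb
  have hξ₀m : ξ₀ ∈ β := by
    rw [hξ₀]
    exact self_mem_blockOf hM ξ₀
  have hχ₀m : χ₀ ∈ b := by
    rw [hχ₀]
    exact self_mem_blockOf hM χ₀
  have key : ∀ ξ ∈ β, ∀ χ ∈ b, MemLocalIdeal M
      (omega (fun h : H => if h ∈ K.subgroupOf H then (1 : ℂ) else 0) ξ
        - omega (fun g : G => if g ∈ K then (1 : ℂ) else 0) χ) := by
    intro ξ hξ χ hχ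
    have h1 := Cfsg.Agent.Helper7.li_omega_res_sub hM H hind hξ hχ
      (fun g : G => if g ∈ K then (1 : ℂ) else 0) (indicator_classFun K) (indicator_lr hM K)
    exact h1
  have hKH : ¬ p ∣ Nat.card (K.subgroupOf H) := fun h =>
    hK (dvd_trans h (Subgroup.card_comap_dvd_of_injective K H.subtype H.subtype_injective))
  constructor
  · intro h ξ hξ
    have h1 := key ξ hξ χ₀ hχ₀m
    rw [Cfsg.Agent.Helper7.omega_indicator_of_le K χ₀ (h χ₀ hχ₀m)] at h1
    apply Cfsg.Agent.Helper7.le_irrKer_of_omega_indicator_ne_zero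
    intro h0
    rw [h0, zero_sub] at h1
    have h2 := li_neg h1
    rw [neg_neg] at h2
    exact hK ((li_natCast_iff hM _).mp h2)
  · intro h χ hχ
    have h1 := key ξ₀ hξ₀m χ hχ
    rw [Cfsg.Agent.Helper7.omega_indicator_of_le (K.subgroupOf H) ξ₀ (h ξ₀ hξ₀m)] at h1
    apply Cfsg.Agent.Helper7.le_irrKer_of_omega_indicator_ne_zero
    intro h0
    rw [h0, sub_zero] at h1
    exact hKH ((li_natCast_iff hM _).mp h1)

/-- For a normal inclusion `(Q, f) ⊴ (R, g)` of Brauer pairs and an `R`-invariant normal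
`p'`-subgroup `K` of `C_G(Q)`: `K` is in the kernel of `f` iff `K ∩ C_G(R)` is in the kernel of
`g`. -/
theorem normalSubpair_ker_transfer [Finite G] (hM : IsPModular p M) {Q R : Subgroup G}
    {f : Set (IrrCharacter (Subgroup.centralizer (Q : Set G)))}
    {g : Set (IrrCharacter (Subgroup.centralizer (R : Set G)))}
    (hns : IsNormalSubpair p M Q f R g)
    (hLK : Subgroup.centralizer (R : Set G) ≤ Subgroup.centralizer (Q : Set G))
    (K : Subgroup (Subgroup.centralizer (Q : Set G))) [K.Normal] (hK : ¬ p ∣ Nat.card K)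
    (hinv : ∀ r ∈ R, ∀ k k' : Subgroup.centralizer (Q : Set G),
      (k' : G) = r * (k : G) * r⁻¹ → k ∈ K → k' ∈ K) :
    (∀ ξ ∈ f, K ≤ irrKer ξ) ↔ (∀ ψ ∈ g, K.comap (Subgroup.inclusion hLK) ≤ irrKer ψ) := by
  classical
  let _ : Fintype G := Fintype.ofFinite G
  let _ : Fintype (Subgroup.centralizer (Q : Set G)) := Fintype.ofFinite _
  let _ : Fintype (Subgroup.centralizer (R : Set G)) := Fintype.ofFinite _
  obtain ⟨⟨hQ, hf⟩, ⟨hR, hg⟩, hQR, hRN, hst, hω⟩ := id hns
  have hRNC : R ≤ Subgroup.normalizer ((Subgroup.centralizer (Q : Set G) : Subgroup G) : Set G) :=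
    hRN.trans (normalizer_le_normalizer_centralizer Q)
  obtain ⟨ψ₀, hψ₀⟩ := id hg
  have hψ₀m : ψ₀ ∈ g := by
    rw [hψ₀]
    exact self_mem_blockOf hM ψ₀
  obtain ⟨α, hα⟩ : ∃ α : Subgroup.centralizer (Q : Set G) → ℂ, α = blockCoeff f := ⟨_, rfl⟩
  obtain ⟨ι, hι⟩ : ∃ ι : Subgroup.centralizer (Q : Set G) → ℂ,
      ι = fun k => if k ∈ K then (1 : ℂ) else 0 := ⟨_, rfl⟩
  obtain ⟨ι', hι'⟩ : ∃ ι' : Subgroup.centralizer (R : Set G) → ℂ,
      ι' = fun k => if k ∈ K.comap (Subgroup.inclusion hLK) then (1 : ℂ) else 0 := ⟨_, rfl⟩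
  have hαc : ∀ k x : Subgroup.centralizer (Q : Set G), α (x * k * x⁻¹) = α k := by
    rw [hα]
    exact blockCoeff_conj f
  have hαlr : ∀ k, MemLocalRing M (α k) := by
    rw [hα]
    exact blockCoeff_lr hM hf
  have hιc : ∀ k x : Subgroup.centralizer (Q : Set G), ι (x * k * x⁻¹) = ι k := by
    rw [hι]
    exact indicator_classFun K
  have hιlr : ∀ k, MemLocalRing M (ι k) := by
    rw [hι]
    exact indicator_lr hM K
  have hι'c : ∀ k x : Subgroup.centralizer (R : Set G), ι' (x * k * x⁻¹) = ι' k := by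
    rw [hι']
    exact indicator_classFun _
  have hι'lr : ∀ k, MemLocalRing M (ι' k) := by
    rw [hι']
    exact indicator_lr hM _
  have hres : resFun hLK ι = ι' := by
    rw [hι, hι']
    rfl
  have hαinv : ∀ y ∈ R, IsConjCharOf (Subgroup.centralizer (Q : Set G)) y α α := by
    intro y hy
    rw [hα]
    exact isConjCharOf_blockCoeff _ ⟨y, hRNC hy⟩ f
      ((stabilizesBlock_iff_smul_eq (Subgroup.centralizer (Q : Set G)) f ⟨y, hRNC hy⟩).mp
        (hst y hy))
  have hιinv : ∀ y ∈ R, IsConjCharOf (Subgroup.centralizer (Q : Set G)) y ι ι := by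
    intro y hy k k' hkk'
    have hiff : k' ∈ K ↔ k ∈ K := by
      constructor
      · intro h
        refine hinv y⁻¹ (R.inv_mem hy) k' k ?_ h
        rw [hkk']
        group
      · exact hinv y hy k k' hkk'
    rw [hι]
    simp only [hiff]
  have hK' : ¬ p ∣ Nat.card (K.comap (Subgroup.inclusion hLK)) := fun h =>
    hK (dvd_trans h (Subgroup.card_comap_dvd_of_injective K _
      (Subgroup.inclusion_injective hLK)))
  have hresα_c : ∀ k x : Subgroup.centralizer (R : Set G),
      resFun hLK α (x * k * x⁻¹) = resFun hLK α k := resFun_classFun hLK hαc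
  have hbr : ∀ ψ ∈ g, MemLocalIdeal M (omega (resFun hLK α) ψ - 1) := by
    intro ψ hψ
    have h1 := hω ψ hψ
    rw [brauerOmega_subgroupBlockCoeff (Subgroup.centralizer (Q : Set G)) R hLK] at h1
    unfold brA at h1
    rw [hα]
    exact h1
  -- the core congruence
  have core : ∀ κ : ℂ, MemLocalRing M κ → (∀ ξ ∈ f, omega ι ξ = κ) →
      ∀ ψ ∈ g, MemLocalIdeal M (omega ι' ψ - κ) := by
    intro κ hκ hκf ψ hψ
    have hconv : conv α ι = fun x => κ * α x := by
      apply classFun_eq_of_omega
      · exact conv_classFun hαc hιc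
      · intro k x
        show κ * α (x * k * x⁻¹) = κ * α k
        rw [hαc]
      · intro ξ
        rw [omega_conv hαc, omega_smul, hα, omega_blockCoeff]
        by_cases hξ : ξ ∈ f
        · rw [if_pos hξ, hκf ξ hξ]
          ring
        · rw [if_neg hξ]
          ring
    have hpt : ∀ c : Subgroup.centralizer (R : Set G), MemLocalIdeal M
        (conv (resFun hLK α) ι' c - κ * resFun hLK α c) := by
      intro c
      have h1 := li_conv_resFun hM (Subgroup.centralizer (Q : Set G)) R hR hLK hRNC α ι hαinv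
        hιinv hαlr hιlr c
      rw [hconv, hres] at h1
      have h2 := li_neg h1
      rw [neg_sub] at h2
      exact h2
    have h3 := li_omega_of_li hM (fun c => conv (resFun hLK α) ι' c - κ * resFun hLK α c)
      (by
        intro c x
        show conv (resFun hLK α) ι' (x * c * x⁻¹) - κ * resFun hLK α (x * c * x⁻¹)
          = conv (resFun hLK α) ι' c - κ * resFun hLK α c
        rw [conv_classFun hresα_c hι'c, hresα_c]) hpt ψ
    rw [omega_sub, omega_smul, omega_conv hresα_c] at h3
    have h4 := hbr ψ hψ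
    have hlr1 : MemLocalRing M (omega ι' ψ - κ) :=
      lr_sub hM (lr_omega_of_lr hM ι' hι'c hι'lr ψ) hκ
    have h5 := li_sub hM h3 (li_mul_lr hM h4 hlr1)
    have e : omega (resFun hLK α) ψ * omega ι' ψ - κ * omega (resFun hLK α) ψ
        - (omega (resFun hLK α) ψ - 1) * (omega ι' ψ - κ) = omega ι' ψ - κ := by ring
    rw [e] at h5
    exact h5
  constructor
  · intro h ψ hψ
    have h1 := core (Nat.card K : ℂ) (lr_natCast hM _) (fun ξ hξ => by
      rw [hι]
      exact Cfsg.Agent.Helper7.omega_indicator_of_le K ξ (h ξ hξ)) ψ hψ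
    apply Cfsg.Agent.Helper7.le_irrKer_of_omega_indicator_ne_zero
    intro h0
    rw [hι'] at h1
    rw [h0, zero_sub] at h1
    have h2 := li_neg h1
    rw [neg_neg] at h2
    exact hK ((li_natCast_iff hM _).mp h2)
  · intro h
    by_contra hcon
    push Not at hcon
    obtain ⟨ξ₁, hξ₁, hnot⟩ := hcon
    have hzero : ∀ ξ ∈ f, omega ι ξ = 0 := by
      intro ξ hξ
      by_contra hne
      rw [hι] at hne
      have h1 := Cfsg.Agent.Helper7.le_irrKer_of_omega_indicator_ne_zero K ξ hne
      exact hnot (Cfsg.Agent.Helper7.le_irrKer_of_sameBlock hM K hK ξ ξ₁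
        (sameBlock_of_mem hM hf hξ hξ₁) h1)
    have h1 := core 0 (lr_zero hM) hzero ψ₀ hψ₀m
    rw [sub_zero, hι',
      Cfsg.Agent.Helper7.omega_indicator_of_le (K.comap (Subgroup.inclusion hLK)) ψ₀
        (h ψ₀ hψ₀m)] at h1
    exact hK' ((li_natCast_iff hM _).mp h1)

/-- A block has a Brauer pair at each `p`-subgroup centralizing an element at which the block
idempotent has a coefficient outside the local ideal. -/
theorem exists_isBrauerPairOf_of_not_li [Finite G] (hM : IsPModular p M)
    {B : Set (IrrCharacter G)} (hB : IsPBlock M B) {D : Subgroup G} (hDp : IsPGroup p D)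
    (g₁ : G) (hg₁C : g₁ ∈ Subgroup.centralizer (D : Set G))
    (hg₁ : ¬ MemLocalIdeal M (blockCoeff B g₁)) :
    ∃ e : Set (IrrCharacter (Subgroup.centralizer (D : Set G))), IsBrauerPairOf p M B D e := by
  classical
  let _ : Fintype G := Fintype.ofFinite G
  let _ : Fintype (Subgroup.centralizer (D : Set G)) := Fintype.ofFinite _
  have hac : ∀ g x : G, blockCoeff B (x * g * x⁻¹) = blockCoeff B g := fun g x =>
    blockCoeff_conj B g x
  have halr := blockCoeff_lr hM hB
  have hzc := res_classFun (Subgroup.centralizer (D : Set G)) hac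
  by_contra hcon
  push Not at hcon
  have hall : ∀ ξ : IrrCharacter (Subgroup.centralizer (D : Set G)), MemLocalIdeal M
      (omega (fun c : Subgroup.centralizer (D : Set G) => blockCoeff B c) ξ) := by
    intro ξ
    have h1 := li_omega_res_conv hM D hDp (blockCoeff B) (blockCoeff B) hac hac halr halr ξ
    rw [conv_blockCoeff_self] at h1
    have ht : MemLocalRing M
        (omega (fun c : Subgroup.centralizer (D : Set G) => blockCoeff B c) ξ) :=
      lr_omega_of_lr hM _ hzc (fun c => halr _) ξ
    have h2 : MemLocalIdeal M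
        (omega (fun c : Subgroup.centralizer (D : Set G) => blockCoeff B c) ξ *
          (1 - omega (fun c : Subgroup.centralizer (D : Set G) => blockCoeff B c) ξ)) := by
      have e : omega (fun c : Subgroup.centralizer (D : Set G) => blockCoeff B c) ξ *
          (1 - omega (fun c : Subgroup.centralizer (D : Set G) => blockCoeff B c) ξ)
          = omega (fun c : Subgroup.centralizer (D : Set G) => blockCoeff B c) ξ -
            omega (fun c : Subgroup.centralizer (D : Set G) => blockCoeff B c) ξ *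
            omega (fun c : Subgroup.centralizer (D : Set G) => blockCoeff B c) ξ := by ring
      rw [e]
      exact h1
    rcases li_or_of_mul hM ht h2 with h3 | h3
    · exact h3
    · exfalso
      apply hcon (blockOf M (ξ : Subgroup.centralizer (D : Set G) → ℂ))
      refine ⟨⟨hDp, isPBlock_blockOf ξ⟩, hB, fun ξ' hξ' => ?_⟩
      rw [brauerOmega_eq_omega]
      have h4 := omega_congr hM (fun c : Subgroup.centralizer (D : Set G) => blockCoeff B c)
        hzc (fun c => halr _) (hξ' : SameBlock M _ _)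
      have h5 := li_neg (li_add hM h3 h4)
      have e : -(1 - omega (fun c : Subgroup.centralizer (D : Set G) => blockCoeff B c) ξ +
          (omega (fun c : Subgroup.centralizer (D : Set G) => blockCoeff B c) ξ -
            omega (fun c : Subgroup.centralizer (D : Set G) => blockCoeff B c) ξ'))
          = omega (fun c : Subgroup.centralizer (D : Set G) => blockCoeff B c) ξ' - 1 := by ring
      rw [e] at h5
      exact h5
  have hidem : ∀ k : Subgroup.centralizer (D : Set G), MemLocalIdeal M
      (conv (fun c : Subgroup.centralizer (D : Set G) => blockCoeff B c)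
        (fun c : Subgroup.centralizer (D : Set G) => blockCoeff B c) k -
        (fun c : Subgroup.centralizer (D : Set G) => blockCoeff B c) k) := by
    intro k
    have h1 := li_conv_sub_sum_centralizer hM D hDp (blockCoeff B) (blockCoeff B)
      (fun y _ x => hac x y) (fun y _ x => hac x y) halr halr (k : G) k.2
    rw [conv_blockCoeff_self] at h1
    have h2 := li_neg h1
    rw [neg_sub] at h2
    exact h2
  have hz := li_of_idem_of_omega hM hzc (fun c => halr _) hidem hall
  exact hg₁ (hz ⟨g₁, hg₁C⟩)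

/-- A block has a Brauer pair at each of its defect groups. -/
theorem exists_isBrauerPairOf_of_isDefectGroup [Finite G] [Fact p.Prime] (hM : IsPModular p M)
    {B : Set (IrrCharacter G)} (hB : IsPBlock M B) {D : Subgroup G}
    (hD : IsDefectGroup p M B D) :
    ∃ e : Set (IrrCharacter (Subgroup.centralizer (D : Set G))), IsBrauerPairOf p M B D e := by
  have hDp : IsPGroup p D := Cfsg.Agent.Helper7.isPGroup_of_isDefectGroup hD
  obtain ⟨g₁, hg₁, S, hS⟩ := id hD
  have hg₁C : g₁ ∈ Subgroup.centralizer (D : Set G) := by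
    rw [Subgroup.mem_centralizer_iff]
    intro d hd
    rw [hS] at hd
    obtain ⟨s, -, rfl⟩ := hd
    exact (Subgroup.mem_centralizer_iff.mp s.2 g₁ (Set.mem_singleton _)).symm
  exact exists_isBrauerPairOf_of_not_li hM hB hDp g₁ hg₁C hg₁.2.1

/-- A block has a Brauer pair at each normal `p`-subgroup. -/
theorem exists_isBrauerPairOf_of_normal [Finite G] (hM : IsPModular p M)
    {B : Set (IrrCharacter G)} (hB : IsPBlock M B) (P : Subgroup G) [P.Normal]
    (hP : IsPGroup p P) :
    ∃ e : Set (IrrCharacter (Subgroup.centralizer (P : Set G))), IsBrauerPairOf p M B P e := by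
  obtain ⟨g₁, hg₁⟩ := exists_isDefectClass hM hB
  have hg₁C : g₁ ∈ Subgroup.centralizer (P : Set G) := by
    by_contra hcon
    apply hg₁.2.1
    rw [blockCoeff_eq_zero_of_not_mem_centralizer hM P hP hB hcon]
    exact li_zero hM
  exact exists_isBrauerPairOf_of_not_li hM hB hP g₁ hg₁C hg₁.2.1

end Cfsg.Agent.Helper25
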