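import Mathlib
import Cfsg.Agent.Helper25.BlockPairs25

/-!
# Shared block-theory library (helper25), part 39: `O_{π'}` of centralizers and kernels of
Brauer pairs

For a set of primes `π` containing `p`:

* `PiKer π (Q, f)`: `O_{π'}(C_G(Q))` is in the kernel of every member of `f`;
* `PiHall π Q`: `O_{π'}(C_G(Q))` contains every `π'`-element of `C_G(Q)`;
* `piKer_of_subpairLE`: `PiKer` passes down inclusions of Brauer pairs;
* `piKer_up_of_subpairLE`: `PiKer ∧ PiHall` passes up inclusions of Brauer pairs;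
* `isBrauerPairOf_of_sub`: a Brauer pair of a block `B₀` of `H` with `B₀^G = B` is a Brauer pair
  of `B`;
* `exists_maximal_of_correspondent`: the maximal Brauer pair attached to the Brauer correspondent.
-/

set_option autoImplicit false

namespace Cfsg.Agent.Helper25

open Cfsg Cfsg.Agent.Helper2
open scoped ComplexConjugate Pointwise

universe u

variable {G : Type u} [Group G] {p : ℕ} {M : Ideal AlgInt}

/-- `O_{π'}(C_G(Q))` lies in the kernel of every member of `f`. -/
def PiKer (π : Set ℕ) (a : BrauerPairIdx G) : Prop :=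
  ∀ k : Subgroup.centralizer (a.1 : Set G),
    k ∈ piCore {q | q ∉ π} (Subgroup.centralizer (a.1 : Set G)) →
    ∀ ξ ∈ a.2, (ξ : Subgroup.centralizer (a.1 : Set G) → ℂ) k
      = (ξ : Subgroup.centralizer (a.1 : Set G) → ℂ) 1

/-- `O_{π'}(C_G(Q))` contains every `π'`-element of `C_G(Q)`. -/
def PiHall (π : Set ℕ) (Q : Subgroup G) : Prop :=
  ∀ x : Subgroup.centralizer (Q : Set G), (∀ q : ℕ, q.Prime → q ∣ orderOf x → q ∉ π) →
    x ∈ piCore {q | q ∉ π} (Subgroup.centralizer (Q : Set G))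

theorem piKer_iff_of_normalSubpair [Finite G] (hM : IsPModular p M) {π : Set ℕ} (hpπ : p ∈ π)
    {a b : BrauerPairIdx G} (h : NormalSubpairRel p M a b)
    (hLK : Subgroup.centralizer (b.1 : Set G) ≤ Subgroup.centralizer (a.1 : Set G)) :
    PiKer π a ↔ ∀ ψ ∈ b.2,
      (piCore {q | q ∉ π} (Subgroup.centralizer (a.1 : Set G))).comap (Subgroup.inclusion hLK)
        ≤ irrKer ψ := by
  obtain ⟨Q, f⟩ := a
  obtain ⟨R, g⟩ := b
  have hRN : R ≤ Subgroup.normalizer ((Subgroup.centralizer (Q : Set G) : Subgroup G) : Set G) :=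
    h.2.2.2.1.trans (normalizer_le_normalizer_centralizer Q)
  have h1 := normalSubpair_ker_transfer hM h hLK
    (piCore {q | q ∉ π} (Subgroup.centralizer (Q : Set G)))
    (piCore_not_dvd π hM.1 hpπ) (fun r hr k k' hkk' hk => by
      have h2 := mulEquiv_mem_piCore {q | q ∉ π}
        (conjEquiv (Subgroup.centralizer (Q : Set G)) r (hRN hr)) hk
      have e : k' = conjEquiv (Subgroup.centralizer (Q : Set G)) r (hRN hr) k :=
        Subtype.ext hkk'
      rw [e]
      exact h2)
  rw [← h1]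
  constructor
  · intro h2 ξ hξ k hk
    exact h2 k hk ξ hξ
  · intro h2 k hk ξ hξ
    exact h2 ξ hξ hk

/-- `PiKer` passes from a Brauer pair to a normal subpair. -/
theorem piKer_of_normalSubpair [Finite G] (hM : IsPModular p M) {π : Set ℕ} (hpπ : p ∈ π)
    {a b : BrauerPairIdx G} (h : NormalSubpairRel p M a b) (hb : PiKer π b) : PiKer π a := by
  have hLK : Subgroup.centralizer (b.1 : Set G) ≤ Subgroup.centralizer (a.1 : Set G) :=
    Subgroup.centralizer_le h.2.2.1
  rw [piKer_iff_of_normalSubpair hM hpπ h hLK]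
  intro ψ hψ x hx
  have h1 : x ∈ piCore {q | q ∉ π} (Subgroup.centralizer (b.1 : Set G)) :=
    mem_piCore_of_injective {q | q ∉ π} (Subgroup.inclusion hLK)
      (Subgroup.inclusion_injective hLK) (Subgroup.mem_comap.mp hx)
  exact hb x h1 ψ hψ

/-- `PiKer ∧ PiHall` passes from a normal subpair to the larger Brauer pair. -/
theorem piKer_up_of_normalSubpair [Finite G] (hM : IsPModular p M) {π : Set ℕ} (hpπ : p ∈ π)
    {a b : BrauerPairIdx G} (h : NormalSubpairRel p M a b) (ha : PiKer π a)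
    (hHall : PiHall π a.1) : PiKer π b ∧ PiHall π b.1 := by
  have hLK : Subgroup.centralizer (b.1 : Set G) ≤ Subgroup.centralizer (a.1 : Set G) :=
    Subgroup.centralizer_le h.2.2.1
  have h1 := (piKer_iff_of_normalSubpair hM hpπ h hLK).mp ha
  have hmem : ∀ x : Subgroup.centralizer (b.1 : Set G),
      (∀ q : ℕ, q.Prime → q ∣ orderOf x → q ∉ π) →
      Subgroup.inclusion hLK x ∈ piCore {q | q ∉ π} (Subgroup.centralizer (a.1 : Set G)) := by
    intro x hx
    apply hHall
    intro q hq hdvd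
    rw [orderOf_injective (Subgroup.inclusion hLK) (Subgroup.inclusion_injective hLK)] at hdvd
    exact hx q hq hdvd
  constructor
  · intro k hk ψ hψ
    have h2 := hmem k (fun q hq hdvd =>
      prime_of_dvd_orderOf_of_mem_piCore {q | q ∉ π} hk q hq hdvd)
    exact h1 ψ hψ (Subgroup.mem_comap.mpr h2)
  · intro x hx
    exact mem_piCore_of_injective {q | q ∉ π} (Subgroup.inclusion hLK)
      (Subgroup.inclusion_injective hLK) (hmem x hx)

/-- `PiKer` passes down inclusions of Brauer pairs. -/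
theorem piKer_of_subpairLE [Finite G] (hM : IsPModular p M) {π : Set ℕ} (hpπ : p ∈ π)
    {a b : BrauerPairIdx G} (h : Relation.ReflTransGen (NormalSubpairRel p M) a b)
    (hb : PiKer π b) : PiKer π a := by
  induction h using Relation.ReflTransGen.head_induction_on with
  | refl => exact hb
  | head h' _ ih => exact piKer_of_normalSubpair hM hpπ h' ih

/-- `PiKer ∧ PiHall` passes up inclusions of Brauer pairs. -/
theorem piKer_up_of_subpairLE [Finite G] (hM : IsPModular p M) {π : Set ℕ} (hpπ : p ∈ π)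
    {a b : BrauerPairIdx G} (h : Relation.ReflTransGen (NormalSubpairRel p M) a b)
    (ha : PiKer π a) (hHall : PiHall π a.1) : PiKer π b ∧ PiHall π b.1 := by
  induction h with
  | refl => exact ⟨ha, hHall⟩
  | tail _ hbc ih => exact piKer_up_of_normalSubpair hM hpπ hbc ih.1 ih.2

theorem piKer_conjIdx [Finite G] {π : Set ℕ} (x : G) {a : BrauerPairIdx G} (ha : PiKer π a) :
    PiKer π (conjIdx x a) := by
  obtain ⟨Q, f⟩ := a
  intro k hk ξ' hξ'
  have hξ'' : ξ' ∈ conjChar Q x '' f := by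
    rw [← conjBlock_eq_image]
    exact hξ'
  obtain ⟨ξ, hξ, rfl⟩ := hξ''
  have h1 := ha (centConj Q x k) (mulEquiv_mem_piCore _ (centConj Q x) hk) ξ hξ
  have e1 : (conjChar Q x ξ).1 k = ξ.1 (centConj Q x k) := conjChar_apply Q x ξ k
  have e2 : (conjChar Q x ξ).1 1 = ξ.1 (centConj Q x 1) := conjChar_apply Q x ξ 1
  rw [map_one] at e2
  exact e1.trans (h1.trans e2.symm)

theorem piHall_conj [Finite G] {π : Set ℕ} (x : G) {Q : Subgroup G} (h : PiHall π Q) :
    PiHall π (Q.map (MulAut.conj x).toMonoidHom) := by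
  intro y hy
  have h1 := h (centConj Q x y) (fun q hq hdvd => hy q hq (by
    rwa [MulEquiv.orderOf_eq] at hdvd))
  have h2 := mulEquiv_mem_piCore {q | q ∉ π} (centConj Q x).symm h1
  rwa [MulEquiv.symm_apply_apply] at h2

theorem exists_subBlock_eq (H P : Subgroup G) (hPH : P ≤ H)
    (hCH : Subgroup.centralizer (P : Set G) ≤ H)
    (σ' : Set (IrrCharacter (Subgroup.centralizer ((P.subgroupOf H : Subgroup H) : Set H)))) :
    ∃ σ : Set (IrrCharacter (Subgroup.centralizer (P : Set G))),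
      subBlock H P hPH hCH σ = σ' := by
  refine ⟨subCharInv H P hPH hCH '' σ', ?_⟩
  unfold subBlock
  rw [Set.image_image]
  simp only [subChar_subCharInv, Set.image_id']

/-- A Brauer pair of a block `B₀` of `H` with `B₀^G = B` is a Brauer pair of `B`. -/
theorem isBrauerPairOf_of_sub [Finite G] (hM : IsPModular p M) (H : Subgroup G)
    {B₀ : Set (IrrCharacter H)} {B : Set (IrrCharacter G)} (hind : IsInducedBlock M H B₀ B)
    (Q : Subgroup G) (h1 : Q ≤ H) (h2 : Subgroup.centralizer (Q : Set G) ≤ H)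
    {β : Set (IrrCharacter (Subgroup.centralizer (Q : Set G)))}
    (hpair : IsBrauerPairOf p M B₀ (Q.subgroupOf H) (subBlock H Q h1 h2 β)) :
    IsBrauerPairOf p M B Q β := by
  classical
  let _ : Fintype G := Fintype.ofFinite G
  let _ : Fintype H := Fintype.ofFinite H
  let _ : Fintype (Subgroup.centralizer ((Q.subgroupOf H : Subgroup H) : Set H)) :=
    Fintype.ofFinite _
  obtain ⟨⟨hQ₀p, hβ₀⟩, hB₀, hω₀⟩ := id hpair
  obtain ⟨-, hB, -⟩ := id hind
  have hQp : IsPGroup p Q := by
    have h3 := hQ₀p.map H.subtype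
    rwa [Subgroup.map_subgroupOf_eq_of_le h1] at h3
  have hβ : IsPBlock M β := isPBlock_of_subBlock H Q h1 h2 hβ₀
  refine ⟨⟨hQp, hβ⟩, hB, fun ξ hξ => ?_⟩
  have hξ₀ : subChar H Q h1 h2 ξ ∈ subBlock H Q h1 h2 β := Set.mem_image_of_mem _ hξ
  have hind₀ := isInducedBlock_of_isBrauerPairOf hM hpair
  obtain ⟨θ, hθ⟩ : ∃ θ, θ ∈ B₀ := by
    obtain ⟨θ, rfl⟩ := hB₀
    exact ⟨θ, self_mem_blockOf hM θ⟩
  obtain ⟨χ, hχ⟩ : ∃ χ, χ ∈ B := by
    obtain ⟨χ, rfl⟩ := hB
    exact ⟨χ, self_mem_blockOf hM χ⟩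
  have hFc : ∀ g x : G, blockCoeff B (x * g * x⁻¹) = blockCoeff B g := fun g x =>
    blockCoeff_conj B g x
  have hFlr := blockCoeff_lr hM hB
  have s1 := Cfsg.Agent.Helper7.li_omega_res_sub hM H hind hθ hχ (blockCoeff B) hFc hFlr
  rw [omega_blockCoeff, if_pos hχ] at s1
  have s2 := Cfsg.Agent.Helper7.li_omega_res_sub hM
    (Subgroup.centralizer ((Q.subgroupOf H : Subgroup H) : Set H)) hind₀ hξ₀ hθ
    (fun h : H => blockCoeff B (h : G)) (res_classFun H hFc) (fun h => hFlr _)
  have s3 := li_add hM s2 s1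
  rw [sub_add_sub_cancel] at s3
  have e1 := brauerOmega_subChar H Q h1 h2 (fun h : H => blockCoeff B (h : G)) (blockCoeff B)
    (fun k => rfl) ξ
  rw [← e1, brauerOmega_eq_omega]
  exact s3

/-- If `(Q, β)` is a Brauer pair of `G` whose transport to `H ≥ Q C_G(Q)` is a Brauer pair of
the block `b` of `H`, and `O_{π'}(C_G(Q))` is in the kernel of `β`, then `O_{π'}(H)` is in the
kernel of `b`. -/
theorem ker_of_piKer_sub [Finite G] (hM : IsPModular p M) {π : Set ℕ} (hpπ : p ∈ π)
    (H : Subgroup G) (Q : Subgroup G) (h1 : Q ≤ H) (h2 : Subgroup.centralizer (Q : Set G) ≤ H)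
    {β : Set (IrrCharacter (Subgroup.centralizer (Q : Set G)))} {b : Set (IrrCharacter H)}
    (hpair : IsBrauerPairOf p M b (Q.subgroupOf H) (subBlock H Q h1 h2 β))
    (ha : PiKer π (⟨Q, β⟩ : BrauerPairIdx G)) :
    ∀ x : H, x ∈ piCore {q | q ∉ π} H → x ∈ blockKer b := by
  classical
  let _ : Fintype H := Fintype.ofFinite H
  have hind₀ := isInducedBlock_of_isBrauerPairOf hM hpair
  have h3 := (ker_transfer_induced hM
    (Subgroup.centralizer ((Q.subgroupOf H : Subgroup H) : Set H)) hind₀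
    (piCore {q | q ∉ π} H) (piCore_not_dvd π hM.1 hpπ)).mpr (by
      intro ξ₀ hξ₀ c hc
      obtain ⟨ξ, hξ, rfl⟩ := hξ₀
      have hc' : ((c : H)) ∈ piCore {q | q ∉ π} H := Subgroup.mem_subgroupOf.mp hc
      have h4 : subCent H Q h1 h2 c ∈ piCore {q | q ∉ π} (Subgroup.centralizer (Q : Set G)) :=
        mem_piCore_of_injective {q | q ∉ π} (Subgroup.inclusion h2)
          (Subgroup.inclusion_injective h2) hc'
      have h5 := ha (subCent H Q h1 h2 c) h4 ξ hξ
      rw [mem_irrKer]
      have e1 : (subChar H Q h1 h2 ξ).1 c = ξ.1 (subCent H Q h1 h2 c) :=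
        subChar_apply H Q h1 h2 ξ c
      have e2 : (subChar H Q h1 h2 ξ).1 1 = ξ.1 (subCent H Q h1 h2 1) :=
        subChar_apply H Q h1 h2 ξ 1
      rw [map_one] at e2
      exact e1.trans (h5.trans e2.symm))
  intro x hx χ hχ
  exact h3 χ hχ hx

/-- If `(Q, β)` is a Brauer pair of `G` whose transport to `H ≥ Q C_G(Q)`, `H ≤ N_G(C_G(Q))`,
is a Brauer pair of the block `b` of `H`, and `O_{π'}(C_G(Q))` is in the kernel of `b`, then
`O_{π'}(C_G(Q))` is in the kernel of `β`. -/
theorem piKer_of_ker_sub [Finite G] (hM : IsPModular p M) {π : Set ℕ} (hpπ : p ∈ π)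
    (H : Subgroup G) (Q : Subgroup G) (h1 : Q ≤ H) (h2 : Subgroup.centralizer (Q : Set G) ≤ H)
    (hHN : H ≤ Subgroup.normalizer ((Subgroup.centralizer (Q : Set G) : Subgroup G) : Set G))
    {β : Set (IrrCharacter (Subgroup.centralizer (Q : Set G)))} {b : Set (IrrCharacter H)}
    (hpair : IsBrauerPairOf p M b (Q.subgroupOf H) (subBlock H Q h1 h2 β))
    (hker : ∀ k : Subgroup.centralizer (Q : Set G),
      k ∈ piCore {q | q ∉ π} (Subgroup.centralizer (Q : Set G)) →
      ∀ θ ∈ b, (θ : H → ℂ) ⟨(k : G), h2 k.2⟩ = (θ : H → ℂ) 1) :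
    PiKer π (⟨Q, β⟩ : BrauerPairIdx G) := by
  classical
  let _ : Fintype H := Fintype.ofFinite H
  have hind₀ := isInducedBlock_of_isBrauerPairOf hM hpair
  haveI hTn : ((piCore {q | q ∉ π} (Subgroup.centralizer (Q : Set G))).map
      (Subgroup.inclusion h2)).Normal :=
    piCore_map_inclusion_normal {q | q ∉ π} (Subgroup.centralizer (Q : Set G)) H h2 hHN
  have hTcard : ¬ p ∣ Nat.card ((piCore {q | q ∉ π} (Subgroup.centralizer (Q : Set G))).map
      (Subgroup.inclusion h2)) := by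
    rw [Subgroup.card_map_of_injective (Subgroup.inclusion_injective h2)]
    exact piCore_not_dvd π hM.1 hpπ
  have h3 := (ker_transfer_induced hM
    (Subgroup.centralizer ((Q.subgroupOf H : Subgroup H) : Set H)) hind₀
    ((piCore {q | q ∉ π} (Subgroup.centralizer (Q : Set G))).map (Subgroup.inclusion h2))
    hTcard).mp (by
      intro θ hθ t ht
      obtain ⟨k, hk, rfl⟩ := ht
      rw [mem_irrKer]
      exact hker k hk θ hθ)
  intro k hk ξ hξ
  have hξ₀ : subChar H Q h1 h2 ξ ∈ subBlock H Q h1 h2 β := Set.mem_image_of_mem _ hξ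
  have h4 := h3 _ hξ₀ (x := (subCent H Q h1 h2).symm k)
    (Subgroup.mem_subgroupOf.mpr ⟨k, hk, rfl⟩)
  rw [mem_irrKer] at h4
  have e1 : (subChar H Q h1 h2 ξ).1 ((subCent H Q h1 h2).symm k)
      = ξ.1 (subCent H Q h1 h2 ((subCent H Q h1 h2).symm k)) :=
    subChar_apply H Q h1 h2 ξ _
  rw [MulEquiv.apply_symm_apply] at e1
  have e2 : (subChar H Q h1 h2 ξ).1 1 = ξ.1 (subCent H Q h1 h2 1) :=
    subChar_apply H Q h1 h2 ξ 1
  rw [map_one] at e2
  exact e1.symm.trans (h4.trans e2)

/-- The maximal Brauer pair `(D, e)` of `B` attached to the Brauer correspondent `B₁` of `B` in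
`N_G(D)`. -/
theorem exists_maximal_of_correspondent [Finite G] [Fact p.Prime] (hM : IsPModular p M)
    {B : Set (IrrCharacter G)} (hB : IsPBlock M B) {D : Subgroup G}
    (hBD : IsDefectGroup p M B D)
    {B₁ : Set (IrrCharacter (Subgroup.normalizer (D : Set G)))}
    (hB₁ : IsInducedBlock M (Subgroup.normalizer (D : Set G)) B₁ B)
    (hB₁D : IsDefectGroup p M B₁ (D.subgroupOf (Subgroup.normalizer (D : Set G)))) :
    ∃ e : Set (IrrCharacter (Subgroup.centralizer (D : Set G))),
      IsMaximalBrauerPair p M B D e ∧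
      IsBrauerPairOf p M B₁ (D.subgroupOf (Subgroup.normalizer (D : Set G)))
        (subBlock (Subgroup.normalizer (D : Set G)) D Subgroup.le_normalizer
          (Subgroup.centralizer_le_normalizer _) e) := by
  classical
  let _ : Fintype G := Fintype.ofFinite G
  obtain ⟨e_N, he_N⟩ := exists_isBrauerPairOf_of_isDefectGroup hM hB₁.1 hB₁D
  obtain ⟨e, he⟩ := exists_subBlock_eq (Subgroup.normalizer (D : Set G)) D
    Subgroup.le_normalizer (Subgroup.centralizer_le_normalizer _) e_N
  rw [← he] at he_N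
  have h1 := isBrauerPairOf_of_sub hM (Subgroup.normalizer (D : Set G)) hB₁ D
    Subgroup.le_normalizer (Subgroup.centralizer_le_normalizer _) he_N
  exact ⟨e, isMaximal_of_card hM h1 (Cfsg.Agent.Helper7.card_defectGroup hM hB hBD), he_N⟩

end Cfsg.Agent.Helper25
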