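import Mathlib
import Cfsg.Agent.Helper7.SecOrth
import Cfsg.Agent.Helper7.SectionSum
import Cfsg.Agent.Helper7.FirstMain
import Cfsg.Agent.Helper25.CharOrth
import Cfsg.Agent.Helper25.CharKer

/-!
# Block parts of induced class functions (helper25)

* `block_sum_induced_eq_zero`: the block part of a function induced from a `p`-subgroup vanishes
  at elements whose `p`-part is not conjugate into the support.
* `exists_ne_of_sign_count`: a real-number lemma on weighted sums with at most one positive weight.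
-/

set_option autoImplicit false

namespace Cfsg.Agent.Helper25

open Cfsg

universe u

variable {G : Type u} [Group G] {p : ℕ} {M : Ideal AlgInt}

theorem isPPart_self_of_mem [Fact p.Prime] {P : Subgroup G} (hP : IsPGroup p P) {h : G}
    (hh : h ∈ P) : IsPPart p h h := by
  obtain ⟨k, hk⟩ := (IsPGroup.iff_orderOf.mp hP) ⟨h, hh⟩
  rw [← Subgroup.orderOf_coe] at hk
  refine ⟨1, mul_one h, Commute.one_right h, ⟨k, hk⟩, ?_⟩
  rw [orderOf_one]
  exact (Fact.out : p.Prime).not_dvd_one

/-- The block part of a function induced from a `p`-subgroup `P` and supported on `U` vanishes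
at every element whose `p`-part is not conjugate to an element of `U`. -/
theorem block_sum_induced_eq_zero [Finite G] [Fact p.Prime] (hM : IsPModular p M)
    {B : Set (IrrCharacter G)} (hB : IsPBlock M B) (P : Subgroup G) (hP : IsPGroup p P)
    [Fintype P] (U : Set G) (θ : P → ℂ) (hθU : ∀ y : P, (y : G) ∉ U → θ y = 0)
    (g x : G) (hx : IsPPart p g x) (hxU : ∀ u ∈ U, ¬ IsConj x u) :
    ∑ χ ∈ (Set.toFinite B).toFinset,
      (∑ y : P, (χ : G → ℂ) (y : G) * θ y⁻¹) * (χ : G → ℂ) g = 0 := by
  classical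
  have h1 : ∑ χ ∈ (Set.toFinite B).toFinset,
      (∑ y : P, (χ : G → ℂ) (y : G) * θ y⁻¹) * (χ : G → ℂ) g
      = ∑ y : P, θ y⁻¹ * ∑ χ ∈ (Set.toFinite B).toFinset,
          (χ : G → ℂ) g * (χ : G → ℂ) (y : G) := by
    simp only [Finset.sum_mul, Finset.mul_sum]
    rw [Finset.sum_comm]
    apply Finset.sum_congr rfl
    intro y _
    apply Finset.sum_congr rfl
    intro χ _
    ring
  rw [h1]
  apply Finset.sum_eq_zero
  intro y _
  by_cases hy : ((y⁻¹ : P) : G) ∈ U
  · have h2 := Cfsg.Agent.Helper7.block_orth hM hB g ((y⁻¹ : P) : G) x ((y⁻¹ : P) : G) hx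
      (isPPart_self_of_mem hP (y⁻¹).2) (hxU _ hy)
    have h3 : (((y⁻¹ : P) : G))⁻¹ = (y : G) := by simp
    rw [h3] at h2
    rw [h2, mul_zero]
  · rw [hθU y⁻¹ hy, zero_mul]

/-- A real-number lemma: if weights `α i * d i` (with `d i > 0`) have vanishing zeroth, first and
second moments with respect to `u`, the weight at `i₁` is nonzero with `u i₁ = 1`, and at most
one `α i` is positive, then some other index with nonzero weight has `u i = 1`. -/
theorem exists_ne_of_sign_count {ι : Type*} (S : Finset ι) (α d u : ι → ℝ) (i₁ : ι)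
    (h1 : i₁ ∈ S) (hd : ∀ i ∈ S, 0 < d i) (hu1 : u i₁ = 1) (hα1 : α i₁ ≠ 0)
    (E1 : ∑ i ∈ S, α i * d i * u i ^ 2 = 0) (E2 : ∑ i ∈ S, α i * d i = 0)
    (E3 : ∑ i ∈ S, α i * d i * u i = 0)
    (hpos : ∀ i ∈ S, ∀ j ∈ S, 0 < α i → 0 < α j → i = j) :
    ∃ i ∈ S, i ≠ i₁ ∧ α i ≠ 0 ∧ u i = 1 := by
  classical
  have hstar : ∀ j, ∑ i ∈ S, α i * d i * (u i - u j) ^ 2 = 0 := by
    intro j
    have h2 : ∀ i, α i * d i * (u i - u j) ^ 2
        = α i * d i * u i ^ 2 - 2 * u j * (α i * d i * u i) + u j ^ 2 * (α i * d i) := by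
      intro i
      ring
    simp only [h2, Finset.sum_add_distrib, Finset.sum_sub_distrib, ← Finset.mul_sum, E1, E2, E3]
    ring
  by_cases hex : ∃ j ∈ S, 0 < α j
  · obtain ⟨j, hjS, hj⟩ := hex
    have hle : ∀ i ∈ S, α i * d i * (u i - u j) ^ 2 ≤ 0 := by
      intro i hi
      by_cases hij : i = j
      · rw [hij, sub_self]
        simp
      · have hαi : α i ≤ 0 := by
          by_contra hcon
          push Not at hcon
          exact hij (hpos i hi j hjS hcon hj)
        exact mul_nonpos_of_nonpos_of_nonneg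
          (mul_nonpos_of_nonpos_of_nonneg hαi (hd i hi).le) (sq_nonneg _)
    have hzero := (Finset.sum_eq_zero_iff_of_nonpos hle).mp (hstar j)
    have hu : ∀ i ∈ S, α i ≠ 0 → u i = u j := by
      intro i hi hαi
      have h3 := hzero i hi
      have h4 : α i * d i ≠ 0 := mul_ne_zero hαi (hd i hi).ne'
      have h5 : (u i - u j) ^ 2 = 0 := by
        rcases mul_eq_zero.mp h3 with h | h
        · exact absurd h h4
        · exact h
      have h6 : u i - u j = 0 := by
        rcases pow_eq_zero_iff (two_ne_zero) |>.mp h5 with h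
        exact h
      linarith
    by_cases hji : j = i₁
    · subst hji
      -- some other index has negative weight
      have h7 : ∃ i ∈ S, i ≠ j ∧ α i ≠ 0 := by
        by_contra hcon
        push Not at hcon
        have h8 : ∑ i ∈ S, α i * d i = α j * d j := by
          apply Finset.sum_eq_single_of_mem j hjS
          intro i hi hij
          rw [hcon i hi hij, zero_mul]
        rw [E2] at h8
        have h9 : 0 < α j * d j := mul_pos hj (hd j hjS)
        linarith
      obtain ⟨i, hi, hij, hαi⟩ := h7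
      exact ⟨i, hi, hij, hαi, by rw [hu i hi hαi, hu1]⟩
    · refine ⟨j, hjS, hji, hj.ne', ?_⟩
      rw [← hu i₁ h1 hα1, hu1]
  · push Not at hex
    have hle : ∀ i ∈ S, α i * d i ≤ 0 := fun i hi =>
      mul_nonpos_of_nonpos_of_nonneg (hex i hi) (hd i hi).le
    have hzero := (Finset.sum_eq_zero_iff_of_nonpos hle).mp E2
    have h3 := hzero i₁ h1
    rcases mul_eq_zero.mp h3 with h | h
    · exact absurd h hα1
    · exact absurd h (hd i₁ h1).ne'

end Cfsg.Agent.Helper25
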