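import Mathlib
import Cfsg.Agent.Helper25.BlockSection
import Cfsg.Agent.Helper25.BlockBasic
import Cfsg.Agent.Helper2.Ind

/-!
# Principal-block sums on `p`-elements (helper25)

* `sum_normalizer_orbit`: summing an extension by zero over the conjugates by a subgroup `N`
  normalizing `P` which controls fusion of `v`.
* `principal_block_sum_pair`: `∑_{χ ∈ B₀} χ(v') χ(v⁻¹)` for `p`-elements `v, v'`.
-/

set_option autoImplicit false

namespace Cfsg.Agent.Helper25

open Cfsg

universe u

variable {G : Type u} [Group G] {p : ℕ} {M : Ideal AlgInt}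

open Classical in
theorem sum_normalizer_orbit (P N : Subgroup G) [Fintype P] [Fintype N]
    (hNN : N ≤ Subgroup.normalizer (P : Set G)) (v : P)
    (hfus : ∀ g : G, g * (v : G) * g⁻¹ ∈ P → ∃ n ∈ N, n * (v : G) * n⁻¹ = g * (v : G) * g⁻¹)
    (F : P → ℂ) :
    ∑ n : N, extendByZero P F ((n : G) * (v : G) * (n : G)⁻¹)
      = ∑ v' : P, (if IsConj (v' : G) (v : G) then
          (Nat.card ↥(N ⊓ Subgroup.centralizer ({(v : G)} : Set G)) : ℂ) else 0) * F v' := by
  classical
  have hmem : ∀ n : N, (n : G) * (v : G) * (n : G)⁻¹ ∈ P := by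
    intro n
    exact (Subgroup.mem_normalizer_iff.mp (hNN n.2) (v : G)).mp v.2
  have h1 : ∀ n : N, extendByZero P F ((n : G) * (v : G) * (n : G)⁻¹)
      = ∑ v' : P, if (v' : G) = (n : G) * (v : G) * (n : G)⁻¹ then F v' else 0 := by
    intro n
    rw [Cfsg.Agent.Helper2.extendByZero_of_mem P F (hmem n)]
    rw [Finset.sum_eq_single (⟨(n : G) * (v : G) * (n : G)⁻¹, hmem n⟩ : P)]
    · rw [if_pos rfl]
    · intro b _ hb
      rw [if_neg]
      intro h
      exact hb (Subtype.ext h)
    · intro h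
      exact absurd (Finset.mem_univ _) h
  simp only [h1]
  rw [Finset.sum_comm]
  apply Finset.sum_congr rfl
  intro v' _
  rw [← Finset.sum_filter, Finset.sum_const, nsmul_eq_mul]
  congr 1
  by_cases hc : IsConj (v' : G) (v : G)
  · rw [if_pos hc]
    obtain ⟨g, hg⟩ := isConj_iff.mp hc.symm
    obtain ⟨n₀, hn₀N, hn₀⟩ := hfus g (by rw [hg]; exact v'.2)
    rw [hg] at hn₀
    congr 1
    rw [← Fintype.card_subtype, ← Nat.card_eq_fintype_card]
    apply Nat.card_congr
    exact
      { toFun := fun n => ⟨(n₀⁻¹ * (n.1 : G)), ⟨N.mul_mem (N.inv_mem hn₀N) n.1.2, by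
          show n₀⁻¹ * (n.1 : G) ∈ Subgroup.centralizer ({(v : G)} : Set G)
          rw [Subgroup.mem_centralizer_iff]
          intro h hh
          rw [Set.mem_singleton_iff] at hh
          subst hh
          have e2 : n₀ * (v : G) * n₀⁻¹ = (n.1 : G) * (v : G) * (n.1 : G)⁻¹ := hn₀.trans n.2
          calc (v : G) * (n₀⁻¹ * (n.1 : G))
              = n₀⁻¹ * (n₀ * (v : G) * n₀⁻¹) * (n.1 : G) := by group
            _ = n₀⁻¹ * ((n.1 : G) * (v : G) * (n.1 : G)⁻¹) * (n.1 : G) := by rw [e2]
            _ = n₀⁻¹ * (n.1 : G) * (v : G) := by group⟩⟩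
        invFun := fun c => ⟨⟨n₀ * (c : G), N.mul_mem hn₀N c.2.1⟩, by
          have hcv : (v : G) * (c : G) = (c : G) * (v : G) := by
            have h3 : (c : G) ∈ Subgroup.centralizer ({(v : G)} : Set G) := c.2.2
            rw [Subgroup.mem_centralizer_iff] at h3
            exact h3 (v : G) rfl
          show (v' : G) = n₀ * (c : G) * (v : G) * (n₀ * (c : G))⁻¹
          calc (v' : G) = n₀ * (v : G) * n₀⁻¹ := hn₀.symm
            _ = n₀ * ((v : G) * (c : G)) * (c : G)⁻¹ * n₀⁻¹ := by group
            _ = n₀ * ((c : G) * (v : G)) * (c : G)⁻¹ * n₀⁻¹ := by rw [hcv]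
            _ = n₀ * (c : G) * (v : G) * (n₀ * (c : G))⁻¹ := by group⟩
        left_inv := fun n => by
          apply Subtype.ext
          apply Subtype.ext
          simp
        right_inv := fun c => by
          apply Subtype.ext
          simp }
  · rw [if_neg hc, Finset.card_eq_zero.mpr, Nat.cast_zero]
    rw [Finset.filter_eq_empty_iff]
    intro n _ h
    apply hc
    rw [h]
    exact (isConj_iff.mpr ⟨(n : G), rfl⟩).symm

open Classical in
/-- `∑_{χ ∈ B₀} χ(v') χ(v⁻¹)` for elements `v, v'` of a `p`-subgroup: it vanishes unless `v'` and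
`v` are conjugate, when it is the sum of the squares of the degrees in the principal block of
`C_G(v)`. -/
theorem principal_block_sum_pair [Finite G] [Fact p.Prime] (hM : IsPModular p M) (P : Subgroup G)
    (hP : IsPGroup p P) (v' v : P) :
    ∑ χ ∈ (Set.toFinite (principalBlock M G)).toFinset,
        (χ : G → ℂ) (v' : G) * (χ : G → ℂ) (v : G)⁻¹
      = if IsConj (v' : G) (v : G) then
          ∑ ψ ∈ (Set.toFinite
              (principalBlock M (Subgroup.centralizer ({(v : G)} : Set G)))).toFinset,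
            ((charDegree (ψ : Subgroup.centralizer ({(v : G)} : Set G) → ℂ) : ℕ) : ℂ) ^ 2
        else 0 := by
  classical
  by_cases hc : IsConj (v' : G) (v : G)
  · rw [if_pos hc]
    obtain ⟨c, hc'⟩ := isConj_iff.mp hc
    obtain ⟨k, hk⟩ := (IsPGroup.iff_orderOf.mp hP) v
    rw [← Subgroup.orderOf_coe] at hk
    have h1 := Cfsg.Agent.Helper7.section_sum_eq hM (v : G) k hk
      (1 : Subgroup.centralizer ({(v : G)} : Set G)) (by
        rw [orderOf_one]
        exact (Fact.out : p.Prime).not_dvd_one)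
    rw [Subgroup.coe_one, mul_one] at h1
    have h2 : ∀ χ : IrrCharacter G, (χ : G → ℂ) (v' : G) * (χ : G → ℂ) (v : G)⁻¹
        = (χ : G → ℂ) (v : G) * starRingEnd ℂ ((χ : G → ℂ) (v : G)) := by
      intro χ
      rw [irr_inv, ← hc', irr_conj]
    simp only [h2]
    rw [h1]
    apply Finset.sum_congr rfl
    intro ψ _
    rw [irr_one_eq_degree, Complex.conj_natCast, pow_two]
  · rw [if_neg hc]
    exact Cfsg.Agent.Helper7.block_orth hM isPBlock_principalBlock (v' : G) (v : G) (v' : G)
      (v : G) (isPPart_self_of_mem hP v'.2) (isPPart_self_of_mem hP v.2) hc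

end Cfsg.Agent.Helper25
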