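import Mathlib
import Cfsg.Agent.Helper7.BrauerCorr
import Cfsg.Agent.Helper7.BlockCover
import Cfsg.Agent.Helper2.BlockCount
import Cfsg.Agent.Helper2.ChiefFactor
import Cfsg.Agent.Helper25.CharOrth

/-!
# Blocks of full defect (helper25)

* `fd_ratio`: characters in the same block have proportional values on a normal subgroup of
  order prime to `p`.
* `fd_rank`: the number of blocks is at least the number of classes inside a normal subgroup
  of order prime to `p`.
* `fd_compl`: a normal `p`-subgroup `Q` of index prime to `p` has a normal subgroup of order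
  prime to `p` containing all `p`-regular elements of `C(Q)`.
* `fd_main`: the number of blocks with a Sylow `p`-subgroup `P` as defect group equals the
  number of classes of `N_G(P)` of `p`-regular elements of `C_G(P)`.
-/

set_option autoImplicit false

namespace Cfsg.Agent.Helper25

open Cfsg
open scoped ComplexConjugate

universe u
variable {G : Type u} [Group G] {p : ℕ} {M : Ideal AlgInt}

/-- Characters in the same block have proportional values on a normal subgroup of order prime
to `p`. -/
theorem fd_ratio [Fintype G] (hM : IsPModular p M) (K : Subgroup G) [hK : K.Normal] [Fintype K]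
    (hKp : ¬ p ∣ Nat.card K) (χ ψ : IrrCharacter G)
    (h : SameBlock M (χ : G → ℂ) (ψ : G → ℂ)) (g : G) (hg : g ∈ K) :
    (χ : G → ℂ) g / (χ : G → ℂ) 1 = (ψ : G → ℂ) g / (ψ : G → ℂ) 1 := by
  classical
  have hχK : IsCharacter K (fun m : K => (χ : G → ℂ) m) :=
    Helper2.isCharacter_restrict K (Helper2.isCharacter_of_isIrrCharacter χ.2)
  have hne1 : (fun m : K => (χ : G → ℂ) m) 1 ≠ 0 := by
    show (χ : G → ℂ) ((1 : K) : G) ≠ 0
    rw [Subgroup.coe_one, irr_one_eq_degree]
    exact Nat.cast_ne_zero.mpr (irr_degree_pos χ).ne'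
  obtain ⟨φ, hφ⟩ := Helper24.exists_constituent hχK hne1
  have hφ' := Helper7.cover_of_sameBlock hM K hKp χ ψ h φ hφ
  obtain ⟨a, ha0, hdec⟩ := Helper2.clifford_orbit K χ φ hφ
  obtain ⟨b, hb0, hdec'⟩ := Helper2.clifford_orbit K ψ φ hφ'
  have h1 := congrFun hdec ⟨g, hg⟩
  have h2 := congrFun hdec (1 : K)
  have h3 := congrFun hdec' ⟨g, hg⟩
  have h4 := congrFun hdec' (1 : K)
  simp only [Pi.smul_apply, smul_eq_mul, Subgroup.coe_one] at h1 h2 h3 h4
  rw [h1, h2, h3, h4, mul_div_mul_left _ _ (Nat.cast_ne_zero.mpr ha0.ne'),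
    mul_div_mul_left _ _ (Nat.cast_ne_zero.mpr hb0.ne')]

/-- The number of blocks is at least the number of classes inside a normal subgroup of order
prime to `p`. -/
theorem fd_rank [Finite G] (hM : IsPModular p M) (K : Subgroup G) [hK : K.Normal]
    (hKp : ¬ p ∣ Nat.card K) :
    Nat.card {C : ConjClasses G // ∀ g : G, ConjClasses.mk g = C → g ∈ K} ≤
      Nat.card {B : Set (IrrCharacter G) // IsPBlock M B} := by
  classical
  haveI := Fintype.ofFinite G
  haveI : Fintype K := Fintype.ofFinite K
  haveI : Fintype {C : ConjClasses G // ∀ g : G, ConjClasses.mk g = C → g ∈ K} :=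
    Fintype.ofFinite _
  haveI : Fintype {B : Set (IrrCharacter G) // IsPBlock M B} := Fintype.ofFinite _
  rw [Nat.card_eq_fintype_card, Nat.card_eq_fintype_card]
  have hex : ∀ B : {B : Set (IrrCharacter G) // IsPBlock M B}, ∃ χ : IrrCharacter G, χ ∈ B.1 := by
    intro B
    obtain ⟨χ, hχ⟩ := B.2
    exact ⟨χ, hχ ▸ self_mem_blockOf hM χ⟩
  choose χB hχB using hex
  set W : Matrix {B : Set (IrrCharacter G) // IsPBlock M B}
      {C : ConjClasses G // ∀ g : G, ConjClasses.mk g = C → g ∈ K} ℂ :=
    fun B C => centralChar (χB B : G → ℂ) (Quotient.out C.1) with hW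
  set E : Matrix {C : ConjClasses G // ∀ g : G, ConjClasses.mk g = C → g ∈ K}
      {B : Set (IrrCharacter G) // IsPBlock M B} ℂ :=
    fun C B => blockCoeff B.1 (Quotient.out C.1) with hE
  have hprod : E * W = 1 := by
    ext C C'
    rw [Matrix.mul_apply, Matrix.one_apply]
    have hgK : Quotient.out C'.1 ∈ K := C'.2 _ (Quotient.out_eq _)
    obtain ⟨g, hg⟩ : ∃ g : G, g = Quotient.out C.1 := ⟨_, rfl⟩
    obtain ⟨g', hg'⟩ : ∃ g' : G, g' = Quotient.out C'.1 := ⟨_, rfl⟩
    rw [← hg'] at hgK
    have hterm : ∀ B : {B : Set (IrrCharacter G) // IsPBlock M B}, E C B * W B C'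
        = (Nat.card G : ℂ)⁻¹ * ((Subgroup.centralizer ({g'} : Set G)).index : ℂ) *
          ∑ χ : IrrCharacter G, if χ ∈ B.1 then (χ : G → ℂ) g' * (χ : G → ℂ) g⁻¹ else 0 := by
      intro B
      simp only [hE, hW, ← hg, ← hg']
      rw [blockCoeff_eq_sum, ← Finset.sum_filter, mul_assoc, mul_assoc, Finset.mul_sum,
        Finset.sum_mul]
      congr 1
      have hfil : (Set.toFinite B.1).toFinset
          = Finset.univ.filter (fun χ : IrrCharacter G => χ ∈ B.1) := by
        ext χ
        simp
      rw [hfil]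
      apply Finset.sum_congr rfl
      intro χ hχ
      have hχB' : χ ∈ B.1 := (Finset.mem_filter.mp hχ).2
      have hr := fd_ratio hM K hKp (χB B) χ (sameBlock_of_mem hM B.2 (hχB B) hχB') g' hgK
      have h1 : (χ : G → ℂ) 1 ≠ 0 := irr_one_ne_zero χ
      unfold centralChar
      rw [mul_div_assoc, hr]
      field_simp
    rw [Finset.sum_congr rfl (fun B _ => hterm B), ← Finset.mul_sum, Finset.sum_comm]
    have hpart : ∀ χ : IrrCharacter G, (∑ B : {B : Set (IrrCharacter G) // IsPBlock M B},
        if χ ∈ B.1 then (χ : G → ℂ) g' * (χ : G → ℂ) g⁻¹ else 0)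
        = (χ : G → ℂ) g' * (χ : G → ℂ) g⁻¹ := by
      intro χ
      rw [Finset.sum_eq_single ⟨blockOf M (χ : G → ℂ), isPBlock_blockOf χ⟩]
      · rw [if_pos (self_mem_blockOf hM χ)]
      · intro B _ hne
        rw [if_neg]
        intro hmem
        exact hne (Subtype.ext (eq_blockOf_of_mem hM B.2 hmem))
      · intro h
        exact absurd (Finset.mem_univ _) h
    rw [Finset.sum_congr rfl (fun χ _ => hpart χ), second_orthogonality]
    by_cases hCC : C = C'
    · subst hCC
      have hgg : g = g' := hg.trans hg'.symm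
      subst hgg
      rw [if_pos rfl, if_pos (IsConj.refl _)]
      have hmul := Subgroup.card_mul_index (Subgroup.centralizer ({g} : Set G))
      have hG0 : (Nat.card G : ℂ) ≠ 0 := Nat.cast_ne_zero.mpr Nat.card_pos.ne'
      rw [← hmul]
      push_cast
      rw [← hmul] at hG0
      push_cast at hG0
      have hc0 : (Nat.card (Subgroup.centralizer ({g} : Set G)) : ℂ) ≠ 0 := left_ne_zero_of_mul hG0
      have hi0 : ((Subgroup.centralizer ({g} : Set G)).index : ℂ) ≠ 0 := right_ne_zero_of_mul hG0
      field_simp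
    · rw [if_neg hCC, if_neg, mul_zero]
      intro hconj
      apply hCC
      apply Subtype.ext
      rw [← Quotient.out_eq C.1, ← Quotient.out_eq C'.1, ← hg, ← hg']
      exact (ConjClasses.mk_eq_mk_iff_isConj.mpr hconj).symm
  have h1 : Fintype.card {C : ConjClasses G // ∀ g : G, ConjClasses.mk g = C → g ∈ K}
      = (E * W).rank := by
    rw [hprod, Matrix.rank_one]
  rw [h1]
  exact (Matrix.rank_mul_le_right E W).trans (Matrix.rank_le_card_height W)

/-- A normal `p`-subgroup `Q` of index prime to `p` has a normal subgroup of order prime to `p`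
containing all `p`-regular elements of `C(Q)`. -/
theorem fd_compl {H : Type u} [Group H] [Finite H] [hp : Fact p.Prime] (Q : Subgroup H)
    [hQn : Q.Normal] (hQ : IsPGroup p Q) (hidx : ¬ p ∣ Q.index) :
    ∃ K : Subgroup H, K.Normal ∧ ¬ p ∣ Nat.card K ∧
      ∀ h ∈ Subgroup.centralizer (Q : Set H), ¬ p ∣ orderOf h → h ∈ K := by
  obtain ⟨C, hC⟩ : ∃ C : Subgroup H, C = Subgroup.centralizer (Q : Set H) := ⟨_, rfl⟩
  haveI hCn : C.Normal := by rw [hC]; infer_instance
  obtain ⟨Z, hZ⟩ : ∃ Z : Subgroup C, Z = Q.subgroupOf C := ⟨_, rfl⟩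
  haveI hZn : Z.Normal := by rw [hZ]; infer_instance
  have hZp : IsPGroup p Z := by rw [hZ]; exact hQ.comap_subtype
  have hZidx : ¬ p ∣ Z.index := by
    rw [hZ]
    exact fun h => hidx (h.trans (Subgroup.relIndex_dvd_index_of_normal Q C))
  have hcop : Nat.Coprime (Nat.card Z) Z.index := by
    obtain ⟨k, hk⟩ := (IsPGroup.iff_card.mp hZp)
    rw [hk]
    exact Nat.Coprime.pow_left k ((Nat.Prime.coprime_iff_not_dvd hp.out).mpr hZidx)
  obtain ⟨L, hL⟩ := Subgroup.exists_right_complement'_of_coprime hcop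
  have hLcard : Nat.card L = Z.index := hL.symm.index_eq_card.symm
  have hLp : ¬ p ∣ Nat.card L := by rw [hLcard]; exact hZidx
  have hmem : ∀ c : C, ¬ p ∣ orderOf c → c ∈ L := by
    intro c hc
    obtain ⟨⟨⟨z, hz⟩, ⟨l, hl⟩⟩, hzl⟩ := hL.2 c
    have hzl' : z * l = c := hzl
    subst hzl'
    have hcomm : Commute z l := by
      have h1 : (l : H) ∈ Subgroup.centralizer (Q : Set H) := hC.le l.2
      rw [Subgroup.mem_centralizer_iff] at h1
      have hzQ : (z : H) ∈ Q := by
        rw [hZ] at hz
        exact Subgroup.mem_subgroupOf.mp hz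
      exact Subtype.ext (h1 (z : H) hzQ)
    have hlm : l ^ Nat.card L = 1 := by
      have h1 : (⟨l, hl⟩ : L) ^ Nat.card L = 1 := pow_card_eq_one'
      have h2 : ((⟨l, hl⟩ : L) : C) ^ Nat.card L = 1 := by
        rw [← Subgroup.coe_pow, h1, Subgroup.coe_one]
      exact h2
    have hzm : z ^ Nat.card L = (z * l) ^ Nat.card L := by rw [hcomm.mul_pow, hlm, mul_one]
    obtain ⟨j, hj⟩ := hZp ⟨z, hz⟩
    have hzj : z ^ p ^ j = 1 := by
      have h2 : ((⟨z, hz⟩ : Z) : C) ^ p ^ j = 1 := by
        rw [← Subgroup.coe_pow, hj, Subgroup.coe_one]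
      exact h2
    have hd1 : orderOf (z ^ Nat.card L) ∣ orderOf (z * l) := by
      rw [hzm]
      exact orderOf_pow_dvd _
    have hd2 : orderOf (z ^ Nat.card L) ∣ p ^ j :=
      orderOf_dvd_of_pow_eq_one (by rw [← pow_mul, mul_comm, pow_mul, hzj, one_pow])
    have h1 : orderOf (z ^ Nat.card L) = 1 := by
      obtain ⟨i, _, hi⟩ := (Nat.dvd_prime_pow hp.out).mp hd2
      rcases Nat.eq_zero_or_pos i with h0 | hpos
      · rw [hi, h0, pow_zero]
      · exfalso
        apply hc
        exact (dvd_pow_self p hpos.ne').trans (hi ▸ hd1)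
    have hz1 : z ^ Nat.card L = 1 := orderOf_eq_one_iff.mp h1
    have hzo : orderOf z ∣ Nat.card L := orderOf_dvd_of_pow_eq_one hz1
    have hzo2 : orderOf z ∣ p ^ j := orderOf_dvd_of_pow_eq_one hzj
    have h2 : orderOf z = 1 := by
      obtain ⟨i, _, hi⟩ := (Nat.dvd_prime_pow hp.out).mp hzo2
      rcases Nat.eq_zero_or_pos i with h0 | hpos
      · rw [hi, h0, pow_zero]
      · exfalso
        apply hLp
        exact (dvd_pow_self p hpos.ne').trans (hi ▸ hzo)
    rw [orderOf_eq_one_iff.mp h2, one_mul]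
    exact hl
  have hLreg : ∀ l ∈ L, ¬ p ∣ orderOf l := by
    intro l hl hdiv
    apply hLp
    have h1 : orderOf (⟨l, hl⟩ : L) ∣ Nat.card L := orderOf_dvd_natCard _
    rw [Subgroup.orderOf_mk] at h1
    exact hdiv.trans h1
  refine ⟨L.map C.subtype, ?_, ?_, ?_⟩
  · constructor
    intro k hk h
    obtain ⟨l, hl, rfl⟩ := Subgroup.mem_map.mp hk
    have hmemC : h * (l : H) * h⁻¹ ∈ C := hCn.conj_mem _ l.2 h
    refine Subgroup.mem_map.mpr ⟨⟨_, hmemC⟩, hmem _ ?_, rfl⟩
    have ho : orderOf (⟨h * (l : H) * h⁻¹, hmemC⟩ : C) = orderOf l := by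
      rw [Subgroup.orderOf_mk, orderOf_conj_eq, Subgroup.orderOf_coe]
    rw [ho]
    exact hLreg l hl
  · rw [Subgroup.card_map_of_injective (Subgroup.subtype_injective _)]
    exact hLp
  · intro h hh hreg
    rw [← hC] at hh
    refine Subgroup.mem_map.mpr ⟨⟨h, hh⟩, hmem _ ?_, rfl⟩
    rwa [Subgroup.orderOf_mk]

/-- An element whose centralizer has full `p`-part centralizes a normal `p`-subgroup of index
prime to `p`. -/
theorem fd_cent {H : Type u} [Group H] [Finite H] [hp : Fact p.Prime] (Q : Subgroup H)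
    [hQn : Q.Normal] (hQ : IsPGroup p Q) (hidx : ¬ p ∣ Q.index) (g : H)
    (hd : (Nat.card H).factorization p
      ≤ (Nat.card (Subgroup.centralizer ({g} : Set H))).factorization p) :
    g ∈ Subgroup.centralizer (Q : Set H) := by
  have hmul := Subgroup.card_mul_index (Subgroup.centralizer ({g} : Set H))
  have hi0 : (Subgroup.centralizer ({g} : Set H)).index ≠ 0 := Subgroup.index_ne_zero_of_finite
  have hc0 : Nat.card (Subgroup.centralizer ({g} : Set H)) ≠ 0 := Nat.card_pos.ne'
  have hfac : (Nat.card H).factorization p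
      = (Nat.card (Subgroup.centralizer ({g} : Set H))).factorization p
        + (Subgroup.centralizer ({g} : Set H)).index.factorization p := by
    rw [← hmul, Nat.factorization_mul hc0 hi0]
    rfl
  have hnd : ¬ p ∣ (Subgroup.centralizer ({g} : Set H)).index := by
    intro hdiv
    have := (hp.out.factorization_pos_of_dvd hi0 hdiv)
    omega
  obtain ⟨x, hx⟩ := exists_conj_centralizes_sylow (hQ.toSylow hidx) g hnd
  rw [Subgroup.mem_centralizer_iff]
  intro q hq
  have hu : x * q * x⁻¹ ∈ (hQ.toSylow hidx : Subgroup H) := hQn.conj_mem q hq x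
  have h1 := hx _ hu
  have h2 : x * (q * g) * x⁻¹ = x * (g * q) * x⁻¹ := by
    calc x * (q * g) * x⁻¹ = x * q * x⁻¹ * (x * g * x⁻¹) := by group
      _ = x * g * x⁻¹ * (x * q * x⁻¹) := h1
      _ = x * (g * q) * x⁻¹ := by group
  exact mul_left_cancel (mul_right_cancel h2)

/-- The number of blocks with a Sylow `p`-subgroup `P` as defect group equals the number of
classes of `N_G(P)` consisting of `p`-regular elements of `C_G(P)`. -/
theorem fd_main [Finite G] [hp : Fact p.Prime] (hM : IsPModular p M) (P : Sylow p G) :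
    Nat.card {B : Set (IrrCharacter G) // IsPBlock M B ∧ IsDefectGroup p M B (P : Subgroup G)} =
    Nat.card {C : ConjClasses (Subgroup.normalizer ((P : Subgroup G) : Set G)) //
      ∀ n : Subgroup.normalizer ((P : Subgroup G) : Set G), ConjClasses.mk n = C →
        ¬ p ∣ orderOf n ∧ (n : G) ∈ Subgroup.centralizer ((P : Subgroup G) : Set G)} := by
  classical
  have hPp : IsPGroup p (P : Subgroup G) := P.isPGroup'
  set N := Subgroup.normalizer ((P : Subgroup G) : Set G) with hN
  set Pn := (P : Subgroup G).subgroupOf N with hPn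
  haveI hPnn : Pn.Normal :=
    (Subgroup.normal_subgroupOf_iff_le_normalizer Subgroup.le_normalizer).mpr le_rfl
  have hPnp : IsPGroup p Pn := hPp.comap_subtype
  have hidx : ¬ p ∣ Pn.index := by
    intro h
    exact P.not_dvd_index (h.trans (Subgroup.relIndex_dvd_index_of_le Subgroup.le_normalizer))
  have hcardPn : Nat.card Pn = p ^ (Nat.card N).factorization p :=
    (hPnp.toSylow hidx).card_eq_multiplicity
  have hcent : ∀ n : N, (n : G) ∈ Subgroup.centralizer ((P : Subgroup G) : Set G) ↔
      n ∈ Subgroup.centralizer (Pn : Set N) := by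
    intro n
    rw [Subgroup.mem_centralizer_iff, Subgroup.mem_centralizer_iff]
    constructor
    · intro h q hq
      exact Subtype.ext (h (q : G) (Subgroup.mem_subgroupOf.mp hq))
    · intro h x hx
      have h1 := h ⟨x, Subgroup.le_normalizer hx⟩ (Subgroup.mem_subgroupOf.mpr hx)
      exact congrArg Subtype.val h1
  have hall : ∀ b : Set (IrrCharacter N), IsPBlock M b →
      IsDefectGroup p M b Pn ∧ (Nat.card N).factorization p ≤ blockDefect p b := by
    intro b hb
    obtain ⟨D, hD⟩ := Helper2.exists_isDefectGroup hM hb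
    have hle : Pn ≤ D :=
      (Cfsg.Agent.Helper28.le_pCore hPnn hPnp).trans (Cfsg.Agent.S0912.result p M hM b hb D hD)
    have hc := Helper7.card_defectGroup hM hb hD
    have hdle : blockDefect p b ≤ (Nat.card N).factorization p := Nat.sub_le _ _
    have hge : (Nat.card N).factorization p ≤ blockDefect p b := by
      have h1 := Subgroup.card_le_of_le hle
      rw [hcardPn, hc] at h1
      exact (Nat.pow_le_pow_iff_right hp.out.one_lt).mp h1
    have heq : Pn = D :=
      Subgroup.eq_of_le_of_card_ge hle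
        (by rw [hc, hcardPn]; exact Nat.pow_le_pow_right hp.out.pos hdle)
    exact ⟨heq ▸ hD, hge⟩
  have h1 : Nat.card {B : Set (IrrCharacter G) //
        IsPBlock M B ∧ IsDefectGroup p M B (P : Subgroup G)}
      = Nat.card {b : Set (IrrCharacter N) // IsPBlock M b ∧ IsDefectGroup p M b Pn} := by
    apply le_antisymm
    · have hex : ∀ B : {B : Set (IrrCharacter G) //
            IsPBlock M B ∧ IsDefectGroup p M B (P : Subgroup G)},
          ∃ b : Set (IrrCharacter N), IsPBlock M b ∧ IsDefectGroup p M b Pn ∧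
            IsInducedBlock M N b B.1 := by
        intro B
        obtain ⟨b, hb, hbD, hind, _⟩ := Helper7.corr_down hM (P : Subgroup G) hPp B.2.1 B.2.2
        exact ⟨b, hb, hbD, hind⟩
      choose f hf1 hf2 hf3 using hex
      apply Nat.card_le_card_of_injective (fun B => (⟨f B, hf1 B, hf2 B⟩ :
        {b : Set (IrrCharacter N) // IsPBlock M b ∧ IsDefectGroup p M b Pn}))
      intro B₁ B₂ h
      have h' : f B₁ = f B₂ := congrArg Subtype.val h
      apply Subtype.ext
      have h3 := hf3 B₁
      rw [h'] at h3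
      exact Helper7.isInducedBlock_unique hM N h3 (hf3 B₂)
    · have hex : ∀ b : {b : Set (IrrCharacter N) // IsPBlock M b ∧ IsDefectGroup p M b Pn},
          ∃ B : Set (IrrCharacter G), IsPBlock M B ∧ IsDefectGroup p M B (P : Subgroup G) ∧
            IsInducedBlock M N b.1 B := by
        intro b
        obtain ⟨B, hB, hBD, hind, _⟩ := Helper7.corr_up hM (P : Subgroup G) hPp b.2.1 b.2.2
        exact ⟨B, hB, hBD, hind⟩
      choose f hf1 hf2 hf3 using hex
      apply Nat.card_le_card_of_injective (fun b => (⟨f b, hf1 b, hf2 b⟩ :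
        {B : Set (IrrCharacter G) // IsPBlock M B ∧ IsDefectGroup p M B (P : Subgroup G)}))
      intro b₁ b₂ h
      have h' : f b₁ = f b₂ := congrArg Subtype.val h
      apply Subtype.ext
      have h3 := hf3 b₁
      rw [h'] at h3
      exact Helper7.first_main_unique hM (P : Subgroup G) hPp h3 (hf3 b₂) b₁.2.2
  have e2 : {b : Set (IrrCharacter N) // IsPBlock M b ∧ IsDefectGroup p M b Pn}
      ≃ {b : Set (IrrCharacter N) // IsPBlock M b} :=
    Equiv.subtypeEquivRight (fun b => ⟨fun h => h.1, fun h => ⟨h, (hall b h).1⟩⟩)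
  rw [h1, Nat.card_congr e2]
  apply le_antisymm
  · have e3 : {b : Set (IrrCharacter N) // IsPBlock M b}
        ≃ {b : Set (IrrCharacter N) //
          IsPBlock M b ∧ (Nat.card N).factorization p ≤ blockDefect p b} :=
      Equiv.subtypeEquivRight (fun b => ⟨fun h => ⟨h, (hall b h).2⟩, fun h => h.1⟩)
    rw [Nat.card_congr e3]
    refine (Helper2.card_blocks_le hM _).trans ?_
    have hsub : ∀ C : ConjClasses N, (∃ g : N, ConjClasses.mk g = C ∧ IsPRegular p g ∧
        (Nat.card N).factorization p
          ≤ (Nat.card (Subgroup.centralizer ({g} : Set N))).factorization p) →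
        ∀ n : N, ConjClasses.mk n = C →
          ¬ p ∣ orderOf n ∧ (n : G) ∈ Subgroup.centralizer ((P : Subgroup G) : Set G) := by
      rintro C ⟨g, rfl, hreg, hdg⟩ n hn
      have hconj : IsConj g n := ConjClasses.mk_eq_mk_iff_isConj.mp hn.symm
      obtain ⟨x, hx⟩ := isConj_iff.mp hconj
      have hgc := fd_cent Pn hPnp hidx g hdg
      constructor
      · rw [← hx, orderOf_conj_eq]
        exact hreg
      · rw [hcent, ← hx]
        exact (inferInstance : (Subgroup.centralizer (Pn : Set N)).Normal).conj_mem g hgc x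
    exact Nat.card_le_card_of_injective
      (fun C => (⟨C.1, hsub C.1 C.2⟩ : {C : ConjClasses N // ∀ n : N, ConjClasses.mk n = C →
        ¬ p ∣ orderOf n ∧ (n : G) ∈ Subgroup.centralizer ((P : Subgroup G) : Set G)}))
      (fun C₁ C₂ h => by
        have h' := congrArg Subtype.val h
        exact Subtype.ext h')
  · obtain ⟨K, hKn, hKp, hK⟩ := fd_compl Pn hPnp hidx
    haveI := hKn
    refine le_trans ?_ (fd_rank hM K hKp)
    exact Nat.card_le_card_of_injective
      (fun C => (⟨C.1, fun g hg => hK g ((hcent g).mp (C.2 g hg).2) (C.2 g hg).1⟩ :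
        {C : ConjClasses N // ∀ g : N, ConjClasses.mk g = C → g ∈ K}))
      (fun C₁ C₂ h => by
        have h' := congrArg Subtype.val h
        exact Subtype.ext h')

end Cfsg.Agent.Helper25
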