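import Mathlib
import Cfsg.Agent.Helper25.BlockPairs26

/-!
# Shared block-theory library (helper25), part 44: induced blocks from subgroups containing the
centralizer of a defect group

* `isNormalSubpair_to_sub`: normal inclusion of pairs in `G` gives normal inclusion in `H`;
* `isInducedBlock_of_pair_sub`: a pair `(Q, β)` of `B` whose copy in `H` is a pair of `b` gives
  `b^G = B`;
* `induced_defect_main`: if `Q ≤ H` is a defect group of the block `b` of `H` and `C_G(Q) ≤ H`,
  then `b^G` is defined and has a defect group `D ≥ Q` with `Z(D) ≤ Q`.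
-/

set_option autoImplicit false

namespace Cfsg.Agent.Helper25

open Cfsg Cfsg.Agent.Helper2
open scoped ComplexConjugate Pointwise

universe u

variable {G : Type u} [Group G] {p : ℕ} {M : Ideal AlgInt}

/-- Normal inclusion of pairs in `G` gives normal inclusion in `H`. -/
theorem isNormalSubpair_to_sub [Finite G] (H : Subgroup G) {Q P : Subgroup G} (hQH : Q ≤ H)
    (hCQ : Subgroup.centralizer (Q : Set G) ≤ H) (hPH : P ≤ H)
    (hCP : Subgroup.centralizer (P : Set G) ≤ H)
    {f : Set (IrrCharacter (Subgroup.centralizer (Q : Set G)))}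
    {e : Set (IrrCharacter (Subgroup.centralizer (P : Set G)))}
    (h : IsNormalSubpair p M Q f P e) :
    IsNormalSubpair p M (Q.subgroupOf H) (subBlock H Q hQH hCQ f) (P.subgroupOf H)
      (subBlock H P hPH hCP e) := by
  obtain ⟨hQf, hPe, hQP, hPN, hst, hω⟩ := h
  have hQP' : Q.subgroupOf H ≤ P.subgroupOf H := by
    intro q hq
    exact Subgroup.mem_subgroupOf.mpr (hQP (Subgroup.mem_subgroupOf.mp hq))
  have hPN' : P.subgroupOf H ≤ Subgroup.normalizer ((Q.subgroupOf H : Subgroup H) : Set H) := by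
    intro x hx
    have h1 := Subgroup.mem_normalizer_iff.mp (hPN (Subgroup.mem_subgroupOf.mp hx))
    rw [Subgroup.mem_normalizer_iff]
    intro g
    constructor
    · intro hg
      exact Subgroup.mem_subgroupOf.mpr ((h1 (g : G)).mp (Subgroup.mem_subgroupOf.mp hg))
    · intro hg
      exact Subgroup.mem_subgroupOf.mpr ((h1 (g : G)).mpr (Subgroup.mem_subgroupOf.mp hg))
  refine ⟨⟨hQf.1.comap_subtype, isPBlock_subBlock H Q hQH hCQ hQf.2⟩,
    ⟨hPe.1.comap_subtype, isPBlock_subBlock H P hPH hCP hPe.2⟩, hQP', hPN', ?_, ?_⟩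
  · intro x hx
    have hxP : (x : G) ∈ P := Subgroup.mem_subgroupOf.mp hx
    have hxN : (x : G) ∈ Subgroup.normalizer
        ((Subgroup.centralizer (Q : Set G) : Subgroup G) : Set G) :=
      normalizer_le_normalizer_centralizer Q (hPN hxP)
    have hxN' : x ∈ Subgroup.normalizer
        ((Subgroup.centralizer ((Q.subgroupOf H : Subgroup H) : Set H) : Subgroup H) : Set H) :=
      normalizer_le_normalizer_centralizer (Q.subgroupOf H) (hPN' hx)
    have h1 := (stabilizesBlock_iff_smul_eq _ f ⟨(x : G), hxN⟩).mp (hst (x : G) hxP)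
    have h2 := smul_subBlock H Q hQH hCQ f (⟨x, hxN'⟩ : Subgroup.normalizer
        ((Subgroup.centralizer ((Q.subgroupOf H : Subgroup H) : Set H) : Subgroup H) : Set H)) hxN
    rw [h1] at h2
    exact (stabilizesBlock_iff_smul_eq
      (Subgroup.centralizer ((Q.subgroupOf H : Subgroup H) : Set H))
      (subBlock H Q hQH hCQ f) (⟨x, hxN'⟩ : Subgroup.normalizer
        ((Subgroup.centralizer ((Q.subgroupOf H : Subgroup H) : Set H) : Subgroup H) : Set H))).mpr h2
  · rintro ξ' ⟨ξ, hξ, rfl⟩
    have h1 := hω ξ hξ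
    rw [← brauerOmega_subChar H P hPH hCP
      (subgroupBlockCoeff (Subgroup.centralizer ((Q.subgroupOf H : Subgroup H) : Set H))
        (subBlock H Q hQH hCQ f))
      (subgroupBlockCoeff (Subgroup.centralizer (Q : Set G)) f)
      (fun k => (subgroupBlockCoeff_subBlock H Q hQH hCQ f k).symm)] at h1
    exact h1

/-- A pair `(Q, β)` of `B` whose copy in `H` is a pair of `b` gives `b^G = B`. -/
theorem isInducedBlock_of_pair_sub [Finite G] (hM : IsPModular p M) (H : Subgroup G)
    {b : Set (IrrCharacter H)} {B : Set (IrrCharacter G)}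
    (Q : Subgroup G) (h1 : Q ≤ H) (h2 : Subgroup.centralizer (Q : Set G) ≤ H)
    {β : Set (IrrCharacter (Subgroup.centralizer (Q : Set G)))}
    (hpairH : IsBrauerPairOf p M b (Q.subgroupOf H) (subBlock H Q h1 h2 β))
    (hpairG : IsBrauerPairOf p M B Q β) :
    IsInducedBlock M H b B := by
  classical
  let _ : Fintype G := Fintype.ofFinite G
  let _ : Fintype H := Fintype.ofFinite H
  let _ : Fintype (Subgroup.centralizer (Q : Set G)) := Fintype.ofFinite _
  let _ : Fintype (Subgroup.centralizer ((Q.subgroupOf H : Subgroup H) : Set H)) :=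
    Fintype.ofFinite _
  obtain ⟨⟨hQ₀p, hβ₀⟩, hb, hω₀⟩ := id hpairH
  obtain ⟨⟨hQp, hβ⟩, hB, hω⟩ := id hpairG
  refine ⟨hb, hB, fun ξ hξ χ hχ g => ?_⟩
  obtain ⟨ψ, hψ⟩ : ∃ ψ, ψ ∈ β := by
    obtain ⟨ψ, rfl⟩ := hβ
    exact ⟨ψ, self_mem_blockOf hM ψ⟩
  have hψ₀ : subChar H Q h1 h2 ψ ∈ subBlock H Q h1 h2 β := Set.mem_image_of_mem _ hψ
  rw [inducedCentralChar_eq_omega_classIndicator, centralChar_eq_omega_classIndicator]
  have hG := li_omega_res_sub_omega hM hB Q hQp ψ (hω ψ hψ) hχ (classIndicator g)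
    (fun x y => classIndicator_conj g x y) (fun x => classIndicator_lr hM g x)
  have hH := li_omega_res_sub_omega hM hb (Q.subgroupOf H) hQ₀p (subChar H Q h1 h2 ψ)
    (hω₀ _ hψ₀) hξ (fun h : H => classIndicator g (h : G))
    (fun x y => by
      show classIndicator g ((y * x * y⁻¹ : H) : G) = classIndicator g (x : G)
      rw [Subgroup.coe_mul, Subgroup.coe_mul, Subgroup.coe_inv]
      exact classIndicator_conj g _ _)
    (fun x => classIndicator_lr hM g _)
  have e : omega (fun c : Subgroup.centralizer ((Q.subgroupOf H : Subgroup H) : Set H) =>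
        (fun h : H => classIndicator g (h : G)) (c : H)) (subChar H Q h1 h2 ψ)
      = omega (fun c : Subgroup.centralizer (Q : Set G) => classIndicator g (c : G)) ψ := by
    exact (brauerOmega_eq_omega (P := Q.subgroupOf H) (fun h : H => classIndicator g (h : G))
      (subChar H Q h1 h2 ψ)).symm.trans
      ((brauerOmega_subChar H Q h1 h2 (fun h : H => classIndicator g (h : G))
        (classIndicator g) (fun k => rfl) ψ).trans (brauerOmega_eq_omega Q (classIndicator g) ψ))
  rw [e] at hH
  have h3 := li_sub hM hG hH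
  have e2 : omega (fun c : Subgroup.centralizer (Q : Set G) => classIndicator g (c : G)) ψ
        - omega (classIndicator g) χ
      - (omega (fun c : Subgroup.centralizer (Q : Set G) => classIndicator g (c : G)) ψ
        - omega (fun h : H => classIndicator g (h : G)) ξ)
      = omega (fun h : H => classIndicator g (h : G)) ξ - omega (classIndicator g) χ := by ring
  rw [e2] at h3
  exact h3

/-- If `Q ≤ H` is a defect group of the block `b` of `H` and `C_G(Q) ≤ H`, then `b^G` is defined,
and every block `B = b^G` has a defect group `D ≥ Q` with `Z(D) ≤ Q`; if some defect group of `B`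
is abelian then `Q` is a defect group of `B`. -/
theorem induced_defect_main [Finite G] [Fact p.Prime] (hM : IsPModular p M) (H : Subgroup G)
    {b : Set (IrrCharacter H)} (hb : IsPBlock M b) (Q : Subgroup G) (hQH : Q ≤ H)
    (hC : Subgroup.centralizer (Q : Set G) ≤ H)
    (hD₀ : IsDefectGroup p M b (Q.subgroupOf H)) :
    InducedBlockDefined M H b ∧
    ∀ B : Set (IrrCharacter G), IsInducedBlock M H b B →
      (∃ D : Subgroup G, IsDefectGroup p M B D ∧ Q ≤ D ∧
        ∀ z ∈ D, (∀ y ∈ D, y * z = z * y) → z ∈ Q) ∧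
      (∀ D : Subgroup G, IsDefectGroup p M B D → (∀ x ∈ D, ∀ y ∈ D, x * y = y * x) →
        IsDefectGroup p M B Q) := by
  classical
  let _ : Fintype G := Fintype.ofFinite G
  let _ : Fintype H := Fintype.ofFinite H
  obtain ⟨e', he'⟩ := exists_isBrauerPairOf_of_isDefectGroup hM hb hD₀
  obtain ⟨β, hβe⟩ := exists_subBlock_eq H Q hQH hC e'
  rw [← hβe] at he'
  have hβ : IsPBlock M β := isPBlock_of_subBlock H Q hQH hC he'.1.2
  have hQp : IsPGroup p Q := by
    have h3 := he'.1.1.map H.subtype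
    rwa [Subgroup.map_subgroupOf_eq_of_le hQH] at h3
  obtain ⟨B₁, hB₁⟩ := exists_isBrauerPairOf hM (⟨hQp, hβ⟩ : IsBrauerPair p M Q β)
  have hind₁ : IsInducedBlock M H b B₁ := isInducedBlock_of_pair_sub hM H Q hQH hC he' hB₁
  refine ⟨⟨B₁, hind₁⟩, fun B hind => ?_⟩
  have hB : IsPBlock M B := hind.2.1
  have hpair : IsBrauerPairOf p M B Q β := isBrauerPairOf_of_sub hM H hind Q hQH hC he'
  obtain ⟨⟨D, eD⟩, hmax, hle⟩ := exists_maximal_ge (p := p) (M := M) (B := B) (Nat.card G)
    ⟨Q, β⟩ hpair (Nat.sub_le _ _)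
  have hmax' : IsMaximalBrauerPair p M B D eD := hmax
  have hle' : SubpairLE p M Q β D eD := hle
  have hDdef : IsDefectGroup p M B D := isDefectGroup_of_maximal hM hmax'
  have hQD : Q ≤ D := subpairLE_le _ _ hle
  have hcard : Nat.card (Q.subgroupOf H) = p ^ blockDefect p b :=
    Cfsg.Agent.Helper7.card_defectGroup hM hb hD₀
  have hmaxH : IsMaximalBrauerPair p M b (Q.subgroupOf H) (subBlock H Q hQH hC β) :=
    isMaximal_of_card hM he' hcard
  have hDpair : IsBrauerPair p M D eD := hmax'.1.1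
  have hcenter : ∀ z ∈ D, (∀ y ∈ D, y * z = z * y) → z ∈ Q := by
    intro z hz hzc
    obtain ⟨R, hRdef⟩ : ∃ R : Subgroup G, R = Q ⊔ Subgroup.zpowers z := ⟨_, rfl⟩
    have hQR : Q ≤ R := by rw [hRdef]; exact le_sup_left
    have hzR : z ∈ R := by
      rw [hRdef]
      exact (le_sup_right : Subgroup.zpowers z ≤ Q ⊔ Subgroup.zpowers z) (Subgroup.mem_zpowers z)
    have hRD : R ≤ D := by
      rw [hRdef]
      exact sup_le hQD (by rw [Subgroup.zpowers_le]; exact hz)
    have hzC : z ∈ Subgroup.centralizer (Q : Set G) := by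
      rw [Subgroup.mem_centralizer_iff]
      intro y hy
      exact hzc y (hQD hy)
    have hRH : R ≤ H := by
      rw [hRdef]
      exact sup_le hQH (by rw [Subgroup.zpowers_le]; exact hC hzC)
    have hCR : Subgroup.centralizer (R : Set G) ≤ H :=
      le_trans (Subgroup.centralizer_le hQR) hC
    have hRN : R ≤ Subgroup.normalizer (Q : Set G) := by
      rw [hRdef]
      exact sup_le Subgroup.le_normalizer
        (by rw [Subgroup.zpowers_le]; exact Subgroup.centralizer_le_normalizer _ hzC)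
    obtain ⟨βR, hβR, hleR⟩ := exists_subpair hM D eD hDpair (Nat.card D) R hRD (Nat.sub_le _ _)
    have hRpair : IsBrauerPair p M R βR := ⟨hDpair.1.to_le hRD, hβR⟩
    obtain ⟨β', hβ', hleQ⟩ := exists_subpair hM R βR hRpair (Nat.card R) Q hQR (Nat.sub_le _ _)
    obtain ⟨f₀, -, huniq⟩ := exists_unique_subpair hM D Q eD hDpair hQD
    have hβeq : β' = β := by
      rw [huniq β' ⟨hβ', Relation.ReflTransGen.trans hleQ hleR⟩, huniq β ⟨hβ, hle'⟩]
    rw [hβeq] at hleQ
    have hns : IsNormalSubpair p M Q β R βR :=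
      normalSubpair_of_subpairLE hM (a := ⟨Q, β⟩) (c := ⟨R, βR⟩) hRpair hleQ hRN
    have hnsH := isNormalSubpair_to_sub H hQH hC hRH hCR hns
    have hRpairH : IsBrauerPairOf p M b (R.subgroupOf H) (subBlock H R hRH hCR βR) :=
      (isBrauerPairOf_iff_of_normalSubpair hM hnsH b).mpr he'
    have hRQ := hmaxH.2 (R.subgroupOf H) _ hRpairH (Relation.ReflTransGen.single hnsH)
    have h5 : (⟨z, hRH hzR⟩ : H) ∈ Q.subgroupOf H := by
      rw [← hRQ]
      exact Subgroup.mem_subgroupOf.mpr hzR
    exact Subgroup.mem_subgroupOf.mp h5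
  refine ⟨⟨D, hDdef, hQD, hcenter⟩, fun D' hD' hab => ?_⟩
  obtain ⟨x, hx⟩ := exists_conj_of_isDefectGroup hM hB hD' hDdef
  have hmem : ∀ u ∈ D, x * u * x⁻¹ ∈ D' := by
    intro u hu
    rw [← hx]
    exact ⟨u, hu, rfl⟩
  have hDab : ∀ u ∈ D, ∀ v ∈ D, u * v = v * u := by
    intro u hu v hv
    have h4 := hab _ (hmem u hu) _ (hmem v hv)
    have h5 : x * (u * v) * x⁻¹ = x * (v * u) * x⁻¹ := by
      have e1 : x * (u * v) * x⁻¹ = x * u * x⁻¹ * (x * v * x⁻¹) := by group
      have e2 : x * (v * u) * x⁻¹ = x * v * x⁻¹ * (x * u * x⁻¹) := by group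
      rw [e1, e2, h4]
    exact mul_left_cancel (mul_right_cancel h5)
  have hDQ : D ≤ Q := fun z hz => hcenter z hz (fun y hy => hDab y hy z hz)
  have hDeq : D = Q := le_antisymm hDQ hQD
  rw [← hDeq]
  exact hDdef

end Cfsg.Agent.Helper25
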