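import Mathlib
import Cfsg.Prelude.Def_Characters
import Cfsg.Agent.Helper25.CharBasic
import Cfsg.Agent.Helper25.CharMore
import Cfsg.Agent.Helper25.CharClass
import Cfsg.Agent.Helper25.CharZ
import Cfsg.Agent.Helper25.GalConj
import Cfsg.Agent.Helper11.AbelChar
import Cfsg.Agent.Helper2.CharExtra
import Cfsg.Agent.Helper2.Ind
import Cfsg.Agent.Helper2.IndExtra

/-!
# Primitive linear groups of degree two (helper25)

Lemmas for S4473: a finite group with a faithful primitive irreducible character of degree `2`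
has centre of index `12`, `24` or `60`.

The group-theoretic core (`pt_group`): if the centralizers of the non-central elements are
abelian, have index at most two in their normalizers and are not normal, then the centre has
index `12`, `24` or `60` (the classical counting argument for finite subgroups of `PGL₂`).
-/

set_option autoImplicit false

namespace Cfsg.Agent.Helper25

universe u

/-! ### Arithmetic -/

theorem pt_d1 (g c n a : ℕ) (hc : 2 ≤ c) (hn : n = 1 ∨ n = 2)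
    (hg : g = n * (c * a)) (heq : g + c = 1 + c * a) : False := by
  obtain ⟨P, hP⟩ : ∃ P, P = c * a := ⟨_, rfl⟩
  rw [← hP] at hg heq
  rcases hn with rfl | rfl <;> omega

theorem pt_d2a (g c₁ a₁ c₂ a₂ : ℕ) (hc₂ : 2 ≤ c₂) (ha₁ : 2 ≤ a₁)
    (ha₂ : 2 ≤ a₂) (hg₁ : g = c₁ * a₁) (hg₂ : g = 2 * (c₂ * a₂))
    (heq : g + c₁ + c₂ = 1 + c₁ * a₁ + c₂ * a₂) : g = 12 := by
  have h2 : c₂ * 2 ≤ c₂ * a₂ := Nat.mul_le_mul_left c₂ ha₂
  have ha1 : a₁ < 4 := by
    by_contra hcon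
    have h3 : c₁ * 4 ≤ c₁ * a₁ := Nat.mul_le_mul_left c₁ (by omega)
    obtain ⟨P₁, hP₁⟩ : ∃ P, P = c₁ * a₁ := ⟨_, rfl⟩
    obtain ⟨P₂, hP₂⟩ : ∃ P, P = c₂ * a₂ := ⟨_, rfl⟩
    rw [← hP₁] at hg₁ heq h3
    rw [← hP₂] at hg₂ heq h2
    omega
  interval_cases a₁
  · exfalso
    obtain ⟨P₂, hP₂⟩ : ∃ P, P = c₂ * a₂ := ⟨_, rfl⟩
    rw [← hP₂] at hg₂ heq h2
    omega
  · have ha2 : a₂ < 3 := by
      by_contra hcon
      have h3 : c₂ * 3 ≤ c₂ * a₂ := Nat.mul_le_mul_left c₂ (by omega)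
      obtain ⟨P₂, hP₂⟩ : ∃ P, P = c₂ * a₂ := ⟨_, rfl⟩
      rw [← hP₂] at hg₂ heq h2 h3
      omega
    interval_cases a₂
    omega

theorem pt_d2 (g c₁ n₁ a₁ c₂ n₂ a₂ : ℕ) (hc₁ : 2 ≤ c₁) (ha₁ : 2 ≤ a₁) (hn₁ : n₁ = 1 ∨ n₁ = 2)
    (hc₂ : 2 ≤ c₂) (ha₂ : 2 ≤ a₂) (hn₂ : n₂ = 1 ∨ n₂ = 2)
    (hg₁ : g = n₁ * (c₁ * a₁)) (hg₂ : g = n₂ * (c₂ * a₂))
    (heq : g + c₁ + c₂ = 1 + c₁ * a₁ + c₂ * a₂) : g = 12 := by
  have h1 : c₁ * 2 ≤ c₁ * a₁ := Nat.mul_le_mul_left c₁ ha₁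
  have h2 : c₂ * 2 ≤ c₂ * a₂ := Nat.mul_le_mul_left c₂ ha₂
  rcases hn₁ with rfl | rfl <;> rcases hn₂ with rfl | rfl
  · exfalso
    obtain ⟨P₁, hP₁⟩ : ∃ P, P = c₁ * a₁ := ⟨_, rfl⟩
    obtain ⟨P₂, hP₂⟩ : ∃ P, P = c₂ * a₂ := ⟨_, rfl⟩
    rw [← hP₁] at hg₁ heq h1
    rw [← hP₂] at hg₂ heq h2
    omega
  · exact pt_d2a g c₁ a₁ c₂ a₂ hc₂ ha₁ ha₂ (by rw [hg₁, one_mul]) hg₂ heq
  · exact pt_d2a g c₂ a₂ c₁ a₁ hc₁ ha₂ ha₁ (by rw [hg₂, one_mul]) hg₁ (by omega)
  · exfalso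
    obtain ⟨P₁, hP₁⟩ : ∃ P, P = c₁ * a₁ := ⟨_, rfl⟩
    obtain ⟨P₂, hP₂⟩ : ∃ P, P = c₂ * a₂ := ⟨_, rfl⟩
    rw [← hP₁] at hg₁ heq h1
    rw [← hP₂] at hg₂ heq h2
    omega

theorem pt_d3c (h c₁ c₂ c₃ a₃ : ℕ) (ha₃ : 2 ≤ a₃)
    (h₁ : c₁ * 2 = h) (h₂ : c₂ * 3 = h) (h₃ : c₃ * a₃ = h) (hs : c₁ + c₂ + c₃ = h + 1) :
    h = 6 ∨ h = 12 ∨ h = 30 := by
  have ha3 : a₃ < 6 := by
    by_contra hcon
    have h4 : c₃ * 6 ≤ c₃ * a₃ := Nat.mul_le_mul_left c₃ (by omega)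
    rw [h₃] at h4
    omega
  interval_cases a₃ <;> omega

theorem pt_d3b (h c₁ c₂ c₃ a₂ a₃ : ℕ) (ha₂ : 2 ≤ a₂) (ha₃ : 2 ≤ a₃)
    (hc₂ : 2 ≤ c₂) (hc₃ : 2 ≤ c₃)
    (h₁ : c₁ * 2 = h) (h₂ : c₂ * a₂ = h) (h₃ : c₃ * a₃ = h) (hs : c₁ + c₂ + c₃ = h + 1) :
    h = 6 ∨ h = 12 ∨ h = 30 := by
  by_cases h23 : a₂ < 4
  · interval_cases a₂
    · exfalso; omega
    · exact pt_d3c h c₁ c₂ c₃ a₃ ha₃ h₁ h₂ h₃ hs
  · by_cases h33 : a₃ < 4
    · interval_cases a₃
      · exfalso; omega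
      · exact pt_d3c h c₁ c₃ c₂ a₂ ha₂ h₁ h₃ h₂ (by omega)
    · exfalso
      have h4 : c₂ * 4 ≤ c₂ * a₂ := Nat.mul_le_mul_left c₂ (by omega)
      have h5 : c₃ * 4 ≤ c₃ * a₃ := Nat.mul_le_mul_left c₃ (by omega)
      rw [h₂] at h4
      rw [h₃] at h5
      omega

theorem pt_d3 (h c₁ c₂ c₃ a₁ a₂ a₃ : ℕ) (hc₁ : 2 ≤ c₁) (hc₂ : 2 ≤ c₂) (hc₃ : 2 ≤ c₃)
    (ha₁ : 2 ≤ a₁) (ha₂ : 2 ≤ a₂) (ha₃ : 2 ≤ a₃)
    (h₁ : c₁ * a₁ = h) (h₂ : c₂ * a₂ = h) (h₃ : c₃ * a₃ = h) (hs : c₁ + c₂ + c₃ = h + 1) :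
    h = 6 ∨ h = 12 ∨ h = 30 := by
  by_cases q1 : a₁ < 3
  · interval_cases a₁
    exact pt_d3b h c₁ c₂ c₃ a₂ a₃ ha₂ ha₃ hc₂ hc₃ h₁ h₂ h₃ hs
  · by_cases q2 : a₂ < 3
    · interval_cases a₂
      exact pt_d3b h c₂ c₁ c₃ a₁ a₃ ha₁ ha₃ hc₁ hc₃ h₂ h₁ h₃ (by omega)
    · by_cases q3 : a₃ < 3
      · interval_cases a₃
        exact pt_d3b h c₃ c₁ c₂ a₁ a₂ ha₁ ha₂ hc₁ hc₂ h₃ h₁ h₂ (by omega)
      · exfalso
        have h4 : c₁ * 3 ≤ c₁ * a₁ := Nat.mul_le_mul_left c₁ (by omega)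
        have h5 : c₂ * 3 ≤ c₂ * a₂ := Nat.mul_le_mul_left c₂ (by omega)
        have h6 : c₃ * 3 ≤ c₃ * a₃ := Nat.mul_le_mul_left c₃ (by omega)
        rw [h₁] at h4
        rw [h₂] at h5
        rw [h₃] at h6
        omega

theorem pt_d3' (g c₁ n₁ a₁ c₂ n₂ a₂ c₃ n₃ a₃ : ℕ) (hc₁ : 2 ≤ c₁) (ha₁ : 2 ≤ a₁)
    (hn₁ : n₁ = 1 ∨ n₁ = 2) (hc₂ : 2 ≤ c₂) (ha₂ : 2 ≤ a₂) (hn₂ : n₂ = 1 ∨ n₂ = 2)
    (hc₃ : 2 ≤ c₃) (ha₃ : 2 ≤ a₃) (hn₃ : n₃ = 1 ∨ n₃ = 2)
    (hg₁ : g = n₁ * (c₁ * a₁)) (hg₂ : g = n₂ * (c₂ * a₂)) (hg₃ : g = n₃ * (c₃ * a₃))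
    (heq : g + c₁ + c₂ + c₃ = 1 + c₁ * a₁ + c₂ * a₂ + c₃ * a₃) :
    g = 12 ∨ g = 24 ∨ g = 60 := by
  have h1 : c₁ * 2 ≤ c₁ * a₁ := Nat.mul_le_mul_left c₁ ha₁
  have h2 : c₂ * 2 ≤ c₂ * a₂ := Nat.mul_le_mul_left c₂ ha₂
  have h3 : c₃ * 2 ≤ c₃ * a₃ := Nat.mul_le_mul_left c₃ ha₃
  obtain ⟨P₁, hP₁⟩ : ∃ P, P = c₁ * a₁ := ⟨_, rfl⟩
  obtain ⟨P₂, hP₂⟩ : ∃ P, P = c₂ * a₂ := ⟨_, rfl⟩
  obtain ⟨P₃, hP₃⟩ : ∃ P, P = c₃ * a₃ := ⟨_, rfl⟩
  rw [← hP₁] at hg₁ heq h1
  rw [← hP₂] at hg₂ heq h2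
  rw [← hP₃] at hg₃ heq h3
  by_cases hall : n₁ = 2 ∧ n₂ = 2 ∧ n₃ = 2
  · obtain ⟨rfl, rfl, rfl⟩ := hall
    have h4 := pt_d3 P₁ c₁ c₂ c₃ a₁ a₂ a₃ hc₁ hc₂ hc₃ ha₁ ha₂ ha₃ hP₁.symm
      (by rw [← hP₂]; omega) (by rw [← hP₃]; omega) (by omega)
    omega
  · exfalso
    rcases hn₁ with rfl | rfl <;> rcases hn₂ with rfl | rfl <;> rcases hn₃ with rfl | rfl <;>
      omega

/-! ### The counting argument -/

theorem pt_mem_cent {G : Type u} [Group G] (x g : G) :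
    g ∈ Subgroup.centralizer ({x} : Set G) ↔ x * g = g * x := by
  rw [Subgroup.mem_centralizer_iff]; simp

theorem pt_cent_conj {G : Type u} [Group G] (x g h : G) :
    h ∈ Subgroup.centralizer ({g * x * g⁻¹} : Set G)
      ↔ g⁻¹ * h * g ∈ Subgroup.centralizer ({x} : Set G) := by
  rw [pt_mem_cent, pt_mem_cent]
  constructor
  · intro e
    calc x * (g⁻¹ * h * g) = g⁻¹ * (g * x * g⁻¹ * h) * g := by group
      _ = g⁻¹ * (h * (g * x * g⁻¹)) * g := by rw [e]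
      _ = g⁻¹ * h * g * x := by group
  · intro e
    calc g * x * g⁻¹ * h = g * (x * (g⁻¹ * h * g)) * g⁻¹ := by group
      _ = g * (g⁻¹ * h * g * x) * g⁻¹ := by rw [e]
      _ = h * (g * x * g⁻¹) := by group

/-- Centralizers of commuting non-central elements coincide. -/
theorem pt_cent_eq {G : Type u} [Group G]
    (h1 : ∀ x : G, x ∉ Subgroup.center G → ∀ a ∈ Subgroup.centralizer ({x} : Set G),
      ∀ b ∈ Subgroup.centralizer ({x} : Set G), a * b = b * a)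
    (x y : G) (hx : x ∉ Subgroup.center G) (hy : y ∉ Subgroup.center G)
    (hyx : y ∈ Subgroup.centralizer ({x} : Set G)) :
    Subgroup.centralizer ({y} : Set G) = Subgroup.centralizer ({x} : Set G) := by
  have hxy : x ∈ Subgroup.centralizer ({y} : Set G) :=
    (pt_mem_cent y x).2 ((pt_mem_cent x y).1 hyx).symm
  apply le_antisymm
  · intro g hg
    rw [pt_mem_cent]
    exact h1 y hy x hxy g hg
  · intro g hg
    rw [pt_mem_cent]
    exact h1 x hx y hyx g hg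

theorem pt_conj_not_center {G : Type u} [Group G] (y g : G) (hy : y ∉ Subgroup.center G) :
    g * y * g⁻¹ ∉ Subgroup.center G := by
  intro h
  apply hy
  have h1 := (Subgroup.center G).normal_of_characteristic.conj_mem _ h g⁻¹
  have h2 : g⁻¹ * (g * y * g⁻¹) * g⁻¹⁻¹ = y := by group
  rw [h2] at h1
  exact h1

/-- The relation "the centralizer of `y` is conjugate to the centralizer of `x`". -/
def ptRel {G : Type u} [Group G] (x y : G) : Prop :=
  y ∉ Subgroup.center G ∧ ∃ g : G,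
    Subgroup.centralizer ({y} : Set G) = Subgroup.centralizer ({g * x * g⁻¹} : Set G)

theorem ptRel_refl {G : Type u} [Group G] (x : G) (hx : x ∉ Subgroup.center G) : ptRel x x :=
  ⟨hx, 1, by simp⟩

theorem ptRel_trans {G : Type u} [Group G] (x y w : G) (h1 : ptRel x y) (h2 : ptRel y w) :
    ptRel x w := by
  obtain ⟨-, g, hg⟩ := h1
  obtain ⟨hw, h, hh⟩ := h2
  refine ⟨hw, h * g, ?_⟩
  rw [hh]
  ext k
  rw [pt_cent_conj, hg, pt_cent_conj, pt_cent_conj]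
  have e : (h * g)⁻¹ * k * (h * g) = g⁻¹ * (h⁻¹ * k * h) * g := by group
  rw [e]

theorem ptRel_symm {G : Type u} [Group G] (x y : G) (hx : x ∉ Subgroup.center G)
    (h1 : ptRel x y) : ptRel y x := by
  obtain ⟨-, g, hg⟩ := h1
  refine ⟨hx, g⁻¹, ?_⟩
  ext k
  rw [pt_cent_conj, hg, pt_cent_conj]
  have e : g⁻¹ * (g⁻¹⁻¹ * k * g⁻¹) * g = k := by group
  rw [e]

/-- The block size formula: `|S(x)| * |N(C(x))| = |G| * |C(x) ∖ Z|`. -/
theorem pt_block {G : Type u} [Group G] [Fintype G] [DecidableEq G]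
    (h1 : ∀ x : G, x ∉ Subgroup.center G → ∀ a ∈ Subgroup.centralizer ({x} : Set G),
      ∀ b ∈ Subgroup.centralizer ({x} : Set G), a * b = b * a)
    (x : G) (hx : x ∉ Subgroup.center G) (S B N : Finset G)
    (hS : ∀ y, y ∈ S ↔ ptRel x y)
    (hB : ∀ a, a ∈ B ↔ a ∈ Subgroup.centralizer ({x} : Set G) ∧ a ∉ Subgroup.center G)
    (hN : ∀ m, m ∈ N ↔
      m ∈ Subgroup.normalizer ((Subgroup.centralizer ({x} : Set G) : Subgroup G) : Set G)) :
    Fintype.card G * B.card = S.card * N.card := by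
  classical
  have key := Finset.sum_card_bipartiteAbove_eq_sum_card_bipartiteBelow
    (s := (Finset.univ : Finset G)) (t := S)
    (fun g y => g⁻¹ * y * g ∈ Subgroup.centralizer ({x} : Set G))
  have hL : ∀ g ∈ (Finset.univ : Finset G),
      (Finset.bipartiteAbove (fun g y => g⁻¹ * y * g ∈ Subgroup.centralizer ({x} : Set G))
        S g).card = B.card := by
    intro g _
    apply Finset.card_bij (fun y _ => g⁻¹ * y * g)
    · intro y hy
      rw [Finset.mem_bipartiteAbove] at hy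
      rw [hB]
      refine ⟨hy.2, ?_⟩
      have h2 := pt_conj_not_center y g⁻¹ ((hS y).1 hy.1).1
      rw [inv_inv] at h2
      exact h2
    · intro y₁ _ y₂ _ h
      have h2 : g * (g⁻¹ * y₁ * g) * g⁻¹ = g * (g⁻¹ * y₂ * g) * g⁻¹ := by rw [h]
      have e1 : g * (g⁻¹ * y₁ * g) * g⁻¹ = y₁ := by group
      have e2 : g * (g⁻¹ * y₂ * g) * g⁻¹ = y₂ := by group
      rw [e1, e2] at h2
      exact h2
    · intro a ha
      rw [hB] at ha
      refine ⟨g * a * g⁻¹, ?_, by group⟩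
      rw [Finset.mem_bipartiteAbove]
      have e : g⁻¹ * (g * a * g⁻¹) * g = a := by group
      refine ⟨(hS _).2 ⟨pt_conj_not_center a g ha.2, g, ?_⟩, by rw [e]; exact ha.1⟩
      ext k
      rw [pt_cent_conj, pt_cent_conj, pt_cent_eq h1 x a hx ha.2 ha.1]
  have hR : ∀ y ∈ S,
      (Finset.bipartiteBelow (fun g y => g⁻¹ * y * g ∈ Subgroup.centralizer ({x} : Set G))
        (Finset.univ : Finset G) y).card = N.card := by
    intro y hy
    obtain ⟨hyZ, g₀, hg₀⟩ := (hS y).1 hy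
    have hiff : ∀ g : G, g⁻¹ * y * g ∈ Subgroup.centralizer ({x} : Set G) ↔ g₀⁻¹ * g ∈ N := by
      intro g
      rw [hN]
      constructor
      · intro h
        have haZ : g⁻¹ * y * g ∉ Subgroup.center G := by
          have h2 := pt_conj_not_center y g⁻¹ hyZ
          rw [inv_inv] at h2
          exact h2
        have hCa := pt_cent_eq h1 x (g⁻¹ * y * g) hx haZ h
        rw [Subgroup.mem_normalizer_iff]
        intro k
        have a1 : k ∈ Subgroup.centralizer ({g⁻¹ * y * g⁻¹⁻¹} : Set G)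
            ↔ g⁻¹⁻¹ * k * g⁻¹ ∈ Subgroup.centralizer ({y} : Set G) := pt_cent_conj y g⁻¹ k
        rw [inv_inv, hCa] at a1
        have e2 : g₀⁻¹ * (g * k * g⁻¹) * g₀ = g₀⁻¹ * g * k * (g₀⁻¹ * g)⁻¹ := by group
        show k ∈ Subgroup.centralizer ({x} : Set G)
          ↔ g₀⁻¹ * g * k * (g₀⁻¹ * g)⁻¹ ∈ Subgroup.centralizer ({x} : Set G)
        rw [← e2, a1, hg₀, pt_cent_conj]
      · intro h
        rw [Subgroup.mem_normalizer_iff''] at h
        have hyy : y ∈ Subgroup.centralizer ({y} : Set G) := (pt_mem_cent y y).2 rfl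
        rw [hg₀, pt_cent_conj] at hyy
        have h2 := (h (g₀⁻¹ * y * g₀)).1 hyy
        have e : (g₀⁻¹ * g)⁻¹ * (g₀⁻¹ * y * g₀) * (g₀⁻¹ * g) = g⁻¹ * y * g := by group
        rw [e] at h2
        exact h2
    apply Finset.card_bij (fun g _ => g₀⁻¹ * g)
    · intro g hg
      rw [Finset.mem_bipartiteBelow] at hg
      exact (hiff g).1 hg.2
    · intro g₁ _ g₂ _ h
      exact mul_left_cancel h
    · intro m hm
      refine ⟨g₀ * m, ?_, by group⟩
      rw [Finset.mem_bipartiteBelow]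
      refine ⟨Finset.mem_univ _, (hiff _).2 ?_⟩
      have e : g₀⁻¹ * (g₀ * m) = m := by group
      rw [e]; exact hm
  rw [Finset.sum_congr rfl hL, Finset.sum_congr rfl hR, Finset.sum_const, Finset.sum_const,
    smul_eq_mul, smul_eq_mul, Finset.card_univ] at key
  exact key

/-- Numerical data of a block. -/
theorem pt_data {G : Type u} [Group G] [Fintype G] [DecidableEq G]
    (h1 : ∀ x : G, x ∉ Subgroup.center G → ∀ a ∈ Subgroup.centralizer ({x} : Set G),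
      ∀ b ∈ Subgroup.centralizer ({x} : Set G), a * b = b * a)
    (h2 : ∀ x : G, x ∉ Subgroup.center G →
      ∀ n₁ ∈ Subgroup.normalizer ((Subgroup.centralizer ({x} : Set G) : Subgroup G) : Set G),
      ∀ n₂ ∈ Subgroup.normalizer ((Subgroup.centralizer ({x} : Set G) : Subgroup G) : Set G),
      n₁ ∉ Subgroup.centralizer ({x} : Set G) → n₂ ∉ Subgroup.centralizer ({x} : Set G) →
      n₂⁻¹ * n₁ ∈ Subgroup.centralizer ({x} : Set G))
    (h3 : ∀ x : G, x ∉ Subgroup.center G → ¬ (Subgroup.centralizer ({x} : Set G)).Normal)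
    (x : G) (hx : x ∉ Subgroup.center G) (S : Finset G) (hS : ∀ y, y ∈ S ↔ ptRel x y) :
    ∃ c n a : ℕ, 2 ≤ c ∧ (n = 1 ∨ n = 2) ∧ 2 ≤ a ∧
      Nat.card G = n * (c * a) * Nat.card (Subgroup.center G) ∧
      S.card + c * Nat.card (Subgroup.center G) = c * a * Nat.card (Subgroup.center G) := by
  classical
  obtain ⟨C, hC⟩ : ∃ C : Subgroup G, C = Subgroup.centralizer ({x} : Set G) := ⟨_, rfl⟩
  obtain ⟨Nm, hNm⟩ : ∃ Nm : Subgroup G, Nm = Subgroup.normalizer (C : Set G) := ⟨_, rfl⟩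
  obtain ⟨Z, hZ⟩ : ∃ Z : Subgroup G, Z = Subgroup.center G := ⟨_, rfl⟩
  rw [← hZ]
  rw [← hZ] at hx
  have hZC : Z ≤ C := by rw [hZ, hC]; exact Subgroup.center_le_centralizer _
  have hCN : C ≤ Nm := by rw [hNm]; exact Subgroup.le_normalizer
  have hxC : x ∈ C := by rw [hC]; exact (pt_mem_cent x x).2 rfl
  have hblock := pt_block h1 x (by rw [← hZ]; exact hx) S
    (Finset.univ.filter (fun a => a ∈ C ∧ a ∉ Z)) (Finset.univ.filter (fun m => m ∈ Nm)) hS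
    (fun a => by rw [Finset.mem_filter, ← hC, ← hZ]; simp)
    (fun m => by rw [Finset.mem_filter, ← hC, ← hNm]; simp)
  have hcardf : ∀ K : Subgroup G, (Finset.univ.filter (fun a : G => a ∈ K)).card = Nat.card K := by
    intro K
    rw [← Fintype.card_subtype, ← Nat.card_eq_fintype_card]
  have hB : (Finset.univ.filter (fun a : G => a ∈ C ∧ a ∉ Z)).card + Nat.card Z = Nat.card C := by
    have e3 := Finset.card_filter_add_card_filter_not
      (s := Finset.univ.filter (fun a : G => a ∈ C)) (fun a => a ∈ Z)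
    rw [Finset.filter_filter, Finset.filter_filter, hcardf C] at e3
    have e4 : Finset.univ.filter (fun a : G => a ∈ C ∧ a ∈ Z)
        = Finset.univ.filter (fun a : G => a ∈ Z) := by
      ext a
      simp only [Finset.mem_filter, Finset.mem_univ, true_and]
      exact ⟨fun h => h.2, fun h => ⟨hZC h, h⟩⟩
    rw [e4, hcardf Z] at e3
    omega
  have hzpos : 0 < Nat.card Z := Nat.card_pos
  have hCpos : 0 < Nat.card C := Nat.card_pos
  have hNpos : 0 < Nat.card Nm := Nat.card_pos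
  obtain ⟨a, ha⟩ := Subgroup.card_dvd_of_le hZC
  have ha2 : 2 ≤ a := by
    rcases Nat.lt_or_ge a 2 with h | h
    · exfalso
      interval_cases a
      · rw [mul_zero] at ha; omega
      · rw [mul_one] at ha
        have h5 : Z = C := Subgroup.eq_of_le_of_card_ge hZC (by omega)
        exact hx (by rw [h5]; exact hxC)
    · exact h
  obtain ⟨n, hn⟩ := Subgroup.card_dvd_of_le hCN
  have hNle : Nat.card Nm ≤ 2 * Nat.card C := by
    by_cases hNC : ∀ m ∈ Nm, m ∈ C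
    · have := Subgroup.card_le_of_le (show Nm ≤ C from hNC)
      omega
    · rw [not_forall] at hNC
      obtain ⟨n₂, hn₂⟩ := hNC
      rw [Classical.not_imp] at hn₂
      obtain ⟨hn₂N, hn₂C⟩ := hn₂
      have hsub : Finset.univ.filter (fun m : G => m ∈ Nm)
          ⊆ Finset.univ.filter (fun m : G => m ∈ C)
            ∪ (Finset.univ.filter (fun m : G => m ∈ C)).image (fun k => n₂ * k) := by
        intro m hm
        rw [Finset.mem_filter] at hm
        rw [Finset.mem_union, Finset.mem_filter, Finset.mem_image]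
        by_cases hmC : m ∈ C
        · exact Or.inl ⟨Finset.mem_univ _, hmC⟩
        · right
          refine ⟨n₂⁻¹ * m, ?_, by group⟩
          rw [Finset.mem_filter]
          refine ⟨Finset.mem_univ _, ?_⟩
          rw [hC]
          exact h2 x (by rw [← hZ]; exact hx) m (by rw [← hC, ← hNm]; exact hm.2) n₂
            (by rw [← hC, ← hNm]; exact hn₂N) (by rw [← hC]; exact hmC) (by rw [← hC]; exact hn₂C)
      have h5 := (Finset.card_le_card hsub).trans (Finset.card_union_le _ _)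
      have h6 := Finset.card_image_le (s := Finset.univ.filter (fun m : G => m ∈ C))
        (f := fun k => n₂ * k)
      rw [hcardf Nm, hcardf C] at h5
      rw [hcardf C] at h6
      omega
  have hn12 : n = 1 ∨ n = 2 := by
    have h5 : n ≠ 0 := by rintro rfl; rw [mul_zero] at hn; omega
    have h6 : n ≤ 2 := by
      rw [hn] at hNle
      have h7 : Nat.card C * n ≤ Nat.card C * 2 := by rw [mul_comm _ 2]; exact hNle
      exact Nat.le_of_mul_le_mul_left h7 hCpos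
    omega
  have hidx := Subgroup.card_mul_index Nm
  have hc2 : 2 ≤ Nm.index := by
    have h5 : Nm.index ≠ 0 := Subgroup.index_ne_zero_of_finite
    have h6 : Nm.index ≠ 1 := by
      intro h
      rw [Subgroup.index_eq_one, hNm, Subgroup.normalizer_eq_top_iff, hC] at h
      exact h3 x (by rw [← hZ]; exact hx) h
    omega
  refine ⟨Nm.index, n, a, hc2, hn12, ha2, ?_, ?_⟩
  · rw [← hidx, hn, ha]; ring
  · have h5 : S.card = Nm.index * (Finset.univ.filter (fun a : G => a ∈ C ∧ a ∉ Z)).card := by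
      rw [hcardf Nm, ← Nat.card_eq_fintype_card, ← hidx] at hblock
      have h6 : Nat.card Nm * (Nm.index * (Finset.univ.filter (fun a : G => a ∈ C ∧ a ∉ Z)).card)
          = Nat.card Nm * S.card := by
        rw [← mul_assoc, hblock, mul_comm]
      exact (Nat.eq_of_mul_eq_mul_left hNpos h6).symm
    rw [h5]
    have h7 : Nm.index * (Finset.univ.filter (fun a : G => a ∈ C ∧ a ∉ Z)).card
        + Nm.index * Nat.card Z = Nm.index * Nat.card C := by
      rw [← mul_add, hB]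
    rw [h7, ha]; ring

/-- The group-theoretic core: the classical counting argument. -/
theorem pt_group {G : Type u} [Group G] [Fintype G]
    (h1 : ∀ x : G, x ∉ Subgroup.center G → ∀ a ∈ Subgroup.centralizer ({x} : Set G),
      ∀ b ∈ Subgroup.centralizer ({x} : Set G), a * b = b * a)
    (h2 : ∀ x : G, x ∉ Subgroup.center G →
      ∀ n₁ ∈ Subgroup.normalizer ((Subgroup.centralizer ({x} : Set G) : Subgroup G) : Set G),
      ∀ n₂ ∈ Subgroup.normalizer ((Subgroup.centralizer ({x} : Set G) : Subgroup G) : Set G),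
      n₁ ∉ Subgroup.centralizer ({x} : Set G) → n₂ ∉ Subgroup.centralizer ({x} : Set G) →
      n₂⁻¹ * n₁ ∈ Subgroup.centralizer ({x} : Set G))
    (h3 : ∀ x : G, x ∉ Subgroup.center G → ¬ (Subgroup.centralizer ({x} : Set G)).Normal)
    (h4 : ∃ x : G, x ∉ Subgroup.center G) :
    (Subgroup.center G).index = 12 ∨ (Subgroup.center G).index = 24
      ∨ (Subgroup.center G).index = 60 := by
  classical
  obtain ⟨z, hz⟩ : ∃ z, z = Nat.card (Subgroup.center G) := ⟨_, rfl⟩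
  have hzpos : 0 < z := by rw [hz]; exact Nat.card_pos
  obtain ⟨g, hg⟩ : ∃ g, g = (Subgroup.center G).index := ⟨_, rfl⟩
  rw [← hg]
  have hG : Nat.card G = z * g := by
    rw [hz, hg]; exact (Subgroup.card_mul_index (Subgroup.center G)).symm
  obtain ⟨S, hS⟩ : ∃ S : G → Finset G, ∀ x y, y ∈ S x ↔ ptRel x y :=
    ⟨fun x => Finset.univ.filter (fun y => ptRel x y), fun x y => by simp⟩
  obtain ⟨X, hXmem⟩ : ∃ X : Finset G, ∀ y, y ∈ X ↔ y ∉ Subgroup.center G :=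
    ⟨Finset.univ.filter (fun y => y ∉ Subgroup.center G), fun y => by simp⟩
  have hX : X.card + z = Nat.card G := by
    have e := Finset.card_filter_add_card_filter_not (s := (Finset.univ : Finset G))
      (fun a => a ∈ Subgroup.center G)
    have e2 : (Finset.univ.filter (fun a : G => a ∈ Subgroup.center G)).card
        = Nat.card (Subgroup.center G) := by
      rw [← Fintype.card_subtype, ← Nat.card_eq_fintype_card]
    have e3 : Finset.univ.filter (fun a : G => ¬ a ∈ Subgroup.center G) = X := by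
      ext y; rw [hXmem]; simp
    rw [e2, e3, Finset.card_univ, ← Nat.card_eq_fintype_card, ← hz] at e
    omega
  have hSX : ∀ x, S x ⊆ X := by
    intro x y hy
    rw [hXmem]
    exact ((hS x y).1 hy).1
  have hdisj : ∀ x y, y ∉ Subgroup.center G → y ∉ S x → Disjoint (S x) (S y) := by
    intro x y hy hyx
    rw [Finset.disjoint_left]
    intro w hw1 hw2
    apply hyx
    rw [hS] at hw1 hw2 ⊢
    exact ptRel_trans x w y hw1 (ptRel_symm y w hy hw2)
  have hdata : ∀ x, x ∉ Subgroup.center G → ∃ c n a : ℕ, 2 ≤ c ∧ (n = 1 ∨ n = 2) ∧ 2 ≤ a ∧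
      Nat.card G = n * (c * a) * z ∧ (S x).card + c * z = c * a * z := by
    intro x hx
    rw [hz]
    exact pt_data h1 h2 h3 x hx (S x) (hS x)
  have hbig : ∀ x, x ∉ Subgroup.center G → Nat.card G ≤ 4 * (S x).card := by
    intro x hx
    obtain ⟨c, n, a, hc, hn, ha, e1, e2⟩ := hdata x hx
    have e3 : 2 * (c * z) ≤ c * a * z := by
      calc 2 * (c * z) = c * 2 * z := by ring
        _ ≤ c * a * z := Nat.mul_le_mul_right z (Nat.mul_le_mul_left c ha)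
    have e4 : Nat.card G ≤ 2 * (c * a * z) := by
      rw [e1]
      rcases hn with rfl | rfl
      · rw [one_mul]; omega
      · rw [mul_assoc]
    omega
  have hgeq : ∀ c n a : ℕ, Nat.card G = n * (c * a) * z → g = n * (c * a) := by
    intro c n a e1
    apply Nat.eq_of_mul_eq_mul_left hzpos
    rw [← hG, e1]; ring
  obtain ⟨x₁, hx₁⟩ := h4
  by_cases c1 : X ⊆ S x₁
  · exfalso
    have hXeq : X.card = (S x₁).card :=
      le_antisymm (Finset.card_le_card c1) (Finset.card_le_card (hSX x₁))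
    obtain ⟨c, n, a, hc, hn, ha, e1, e2⟩ := hdata x₁ hx₁
    apply pt_d1 g c n a hc hn (hgeq c n a e1)
    apply Nat.eq_of_mul_eq_mul_left hzpos
    have A : z * (g + c) = z * g + c * z := by ring
    have B : z * (1 + c * a) = z + c * a * z := by ring
    rw [A, B, ← hG]
    omega
  · obtain ⟨x₂, hx₂X, hx₂S⟩ := Finset.not_subset.1 c1
    have hx₂ : x₂ ∉ Subgroup.center G := (hXmem x₂).1 hx₂X
    have d12 := hdisj x₁ x₂ hx₂ hx₂S
    by_cases c2 : X ⊆ S x₁ ∪ S x₂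
    · left
      have hXeq : X.card = (S x₁).card + (S x₂).card := by
        rw [← Finset.card_union_of_disjoint d12]
        exact le_antisymm (Finset.card_le_card c2)
          (Finset.card_le_card (Finset.union_subset (hSX x₁) (hSX x₂)))
      obtain ⟨c₁, n₁, a₁, hc₁, hn₁, ha₁, e1, e2⟩ := hdata x₁ hx₁
      obtain ⟨c₂, n₂, a₂, hc₂, hn₂, ha₂, f1, f2⟩ := hdata x₂ hx₂
      apply pt_d2 g c₁ n₁ a₁ c₂ n₂ a₂ hc₁ ha₁ hn₁ hc₂ ha₂ hn₂ (hgeq _ _ _ e1) (hgeq _ _ _ f1)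
      apply Nat.eq_of_mul_eq_mul_left hzpos
      have A : z * (g + c₁ + c₂) = z * g + c₁ * z + c₂ * z := by ring
      have B : z * (1 + c₁ * a₁ + c₂ * a₂) = z + c₁ * a₁ * z + c₂ * a₂ * z := by ring
      rw [A, B, ← hG]
      omega
    · obtain ⟨x₃, hx₃X, hx₃S⟩ := Finset.not_subset.1 c2
      have hx₃ : x₃ ∉ Subgroup.center G := (hXmem x₃).1 hx₃X
      have hx₃1 : x₃ ∉ S x₁ := fun h => hx₃S (Finset.mem_union_left _ h)
      have hx₃2 : x₃ ∉ S x₂ := fun h => hx₃S (Finset.mem_union_right _ h)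
      have d13 := hdisj x₁ x₃ hx₃ hx₃1
      have d23 := hdisj x₂ x₃ hx₃ hx₃2
      have dd : Disjoint (S x₁ ∪ S x₂) (S x₃) := Finset.disjoint_union_left.2 ⟨d13, d23⟩
      have hU3 : (S x₁ ∪ S x₂ ∪ S x₃).card = (S x₁).card + (S x₂).card + (S x₃).card := by
        rw [Finset.card_union_of_disjoint dd, Finset.card_union_of_disjoint d12]
      by_cases c3 : X ⊆ S x₁ ∪ S x₂ ∪ S x₃
      · have hXeq : X.card = (S x₁).card + (S x₂).card + (S x₃).card := by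
          rw [← hU3]
          exact le_antisymm (Finset.card_le_card c3)
            (Finset.card_le_card (Finset.union_subset
              (Finset.union_subset (hSX x₁) (hSX x₂)) (hSX x₃)))
        obtain ⟨c₁, n₁, a₁, hc₁, hn₁, ha₁, e1, e2⟩ := hdata x₁ hx₁
        obtain ⟨c₂, n₂, a₂, hc₂, hn₂, ha₂, f1, f2⟩ := hdata x₂ hx₂
        obtain ⟨c₃, n₃, a₃, hc₃, hn₃, ha₃, k1, k2⟩ := hdata x₃ hx₃
        apply pt_d3' g c₁ n₁ a₁ c₂ n₂ a₂ c₃ n₃ a₃ hc₁ ha₁ hn₁ hc₂ ha₂ hn₂ hc₃ ha₃ hn₃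
          (hgeq _ _ _ e1) (hgeq _ _ _ f1) (hgeq _ _ _ k1)
        apply Nat.eq_of_mul_eq_mul_left hzpos
        have A : z * (g + c₁ + c₂ + c₃) = z * g + c₁ * z + c₂ * z + c₃ * z := by ring
        have B : z * (1 + c₁ * a₁ + c₂ * a₂ + c₃ * a₃)
            = z + c₁ * a₁ * z + c₂ * a₂ * z + c₃ * a₃ * z := by ring
        rw [A, B, ← hG]
        omega
      · exfalso
        obtain ⟨x₄, hx₄X, hx₄S⟩ := Finset.not_subset.1 c3
        have hx₄ : x₄ ∉ Subgroup.center G := (hXmem x₄).1 hx₄X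
        have hx₄1 : x₄ ∉ S x₁ :=
          fun h => hx₄S (Finset.mem_union_left _ (Finset.mem_union_left _ h))
        have hx₄2 : x₄ ∉ S x₂ :=
          fun h => hx₄S (Finset.mem_union_left _ (Finset.mem_union_right _ h))
        have hx₄3 : x₄ ∉ S x₃ := fun h => hx₄S (Finset.mem_union_right _ h)
        have d4 : Disjoint (S x₁ ∪ S x₂ ∪ S x₃) (S x₄) :=
          Finset.disjoint_union_left.2 ⟨Finset.disjoint_union_left.2
            ⟨hdisj x₁ x₄ hx₄ hx₄1, hdisj x₂ x₄ hx₄ hx₄2⟩, hdisj x₃ x₄ hx₄ hx₄3⟩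
        have h5 : (S x₁ ∪ S x₂ ∪ S x₃ ∪ S x₄).card ≤ X.card :=
          Finset.card_le_card (Finset.union_subset (Finset.union_subset
            (Finset.union_subset (hSX x₁) (hSX x₂)) (hSX x₃)) (hSX x₄))
        rw [Finset.card_union_of_disjoint d4, hU3] at h5
        have b1 := hbig x₁ hx₁
        have b2 := hbig x₂ hx₂
        have b3 := hbig x₃ hx₃
        have b4 := hbig x₄ hx₄
        omega


/-! ### Character-theoretic input -/

/-- A character of degree two is irreducible or a sum of two linear characters. -/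
theorem pt_dich {C : Type u} [Group C] [Fintype C] (ψ : C → ℂ) (hψ : Cfsg.IsCharacter C ψ)
    (h2 : ψ 1 = 2) :
    Cfsg.IsIrrCharacter C ψ ∨ ∃ l₁ l₂ : Cfsg.IrrCharacter C, (l₁ : C → ℂ) 1 = 1 ∧
      (l₂ : C → ℂ) 1 = 1 ∧ ∀ c, ψ c = (l₁ : C → ℂ) c + (l₂ : C → ℂ) c := by
  classical
  have hcl := Helper2.isClassFunction_of_isCharacter hψ
  have hm : ∀ ξ : Cfsg.IrrCharacter C, ∃ m : ℕ, Cfsg.classInner ψ (ξ : C → ℂ) = (m : ℂ) :=
    fun ξ => Helper2.classInner_char_nat hψ (irr_isCharacter ξ)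
  choose m hm using hm
  have hdec : ∀ c, ψ c = ∑ ξ : Cfsg.IrrCharacter C, (m ξ : ℂ) * (ξ : C → ℂ) c := by
    intro c
    have h := congrFun (Helper2.classFun_eq_sum_classInner hcl) c
    rw [Finset.sum_apply] at h
    refine h.trans ?_
    apply Finset.sum_congr rfl
    intro ξ _
    rw [Pi.smul_apply, smul_eq_mul, hm ξ]
  have hsum : ∑ ξ : Cfsg.IrrCharacter C, m ξ * Cfsg.charDegree (ξ : C → ℂ) = 2 := by
    have h := hdec 1
    rw [h2] at h
    have h' : ((∑ ξ : Cfsg.IrrCharacter C, m ξ * Cfsg.charDegree (ξ : C → ℂ) : ℕ) : ℂ) = 2 := by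
      rw [h]
      push_cast
      apply Finset.sum_congr rfl
      intro ξ _
      rw [irr_one_eq_degree]
    exact_mod_cast h'
  obtain ⟨ξ₁, h1⟩ : ∃ ξ₁, m ξ₁ ≠ 0 := by
    by_contra hcon
    push_neg at hcon
    rw [Finset.sum_eq_zero (fun ξ _ => by rw [hcon ξ, zero_mul])] at hsum
    omega
  have hd1 := irr_degree_pos ξ₁
  have hsplit := Finset.add_sum_erase Finset.univ
    (fun ξ : Cfsg.IrrCharacter C => m ξ * Cfsg.charDegree (ξ : C → ℂ)) (Finset.mem_univ ξ₁)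
  rw [hsum] at hsplit
  have hpos : 1 ≤ m ξ₁ * Cfsg.charDegree (ξ₁ : C → ℂ) :=
    Nat.mul_pos (Nat.pos_of_ne_zero h1) hd1
  rcases Nat.lt_or_ge (m ξ₁ * Cfsg.charDegree (ξ₁ : C → ℂ)) 2 with hlt | hge
  · have hprod : m ξ₁ * Cfsg.charDegree (ξ₁ : C → ℂ) = 1 := by omega
    have hm1 : m ξ₁ = 1 := Nat.eq_one_of_mul_eq_one_right hprod
    have hdd1 : Cfsg.charDegree (ξ₁ : C → ℂ) = 1 := Nat.eq_one_of_mul_eq_one_left hprod
    have hrest : ∑ ξ ∈ Finset.univ.erase ξ₁, m ξ * Cfsg.charDegree (ξ : C → ℂ) = 1 := by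
      omega
    obtain ⟨ξ₂, hξ₂mem, h2'⟩ : ∃ ξ₂ ∈ Finset.univ.erase ξ₁, m ξ₂ ≠ 0 := by
      by_contra hcon
      push_neg at hcon
      rw [Finset.sum_eq_zero (fun ξ hξ => by rw [hcon ξ hξ, zero_mul])] at hrest
      omega
    have hsplit2 := Finset.add_sum_erase (Finset.univ.erase ξ₁)
      (fun ξ : Cfsg.IrrCharacter C => m ξ * Cfsg.charDegree (ξ : C → ℂ)) hξ₂mem
    rw [hrest] at hsplit2
    have hd2 := irr_degree_pos ξ₂
    have hpos2 : 1 ≤ m ξ₂ * Cfsg.charDegree (ξ₂ : C → ℂ) :=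
      Nat.mul_pos (Nat.pos_of_ne_zero h2') hd2
    have hprod2 : m ξ₂ * Cfsg.charDegree (ξ₂ : C → ℂ) = 1 := by
      omega
    have hrest2 : ∑ ξ ∈ (Finset.univ.erase ξ₁).erase ξ₂,
        m ξ * Cfsg.charDegree (ξ : C → ℂ) = 0 := by
      omega
    have hm2 : m ξ₂ = 1 := Nat.eq_one_of_mul_eq_one_right hprod2
    have hdd2 : Cfsg.charDegree (ξ₂ : C → ℂ) = 1 := Nat.eq_one_of_mul_eq_one_left hprod2
    have hz : ∀ ξ, ξ ≠ ξ₁ → ξ ≠ ξ₂ → m ξ = 0 := by
      intro ξ hne1 hne2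
      have h0 := (Finset.sum_eq_zero_iff.mp hrest2) ξ (by simp [hne1, hne2])
      have hdξ := irr_degree_pos ξ
      rcases Nat.mul_eq_zero.mp h0 with h | h
      · exact h
      · omega
    right
    refine ⟨ξ₁, ξ₂, ?_, ?_, ?_⟩
    · rw [irr_one_eq_degree, hdd1]; simp
    · rw [irr_one_eq_degree, hdd2]; simp
    · intro c
      rw [hdec c]
      have hne : ξ₁ ≠ ξ₂ := (Finset.ne_of_mem_erase hξ₂mem).symm
      rw [Finset.sum_eq_add ξ₁ ξ₂ hne]
      · rw [hm1, hm2]; simp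
      · intro ξ _ hh
        rw [hz ξ hh.1 hh.2]; simp
      · intro h; exact absurd (Finset.mem_univ _) h
      · intro h; exact absurd (Finset.mem_univ _) h
  · have hprod : m ξ₁ * Cfsg.charDegree (ξ₁ : C → ℂ) = 2 := by
      omega
    have hrest : ∑ ξ ∈ Finset.univ.erase ξ₁, m ξ * Cfsg.charDegree (ξ : C → ℂ) = 0 := by
      omega
    have hz : ∀ ξ, ξ ≠ ξ₁ → m ξ = 0 := by
      intro ξ hne1
      have h0 := (Finset.sum_eq_zero_iff.mp hrest) ξ (by simp [hne1])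
      have hdξ := irr_degree_pos ξ
      rcases Nat.mul_eq_zero.mp h0 with h | h
      · exact h
      · omega
    have hψ1 : ∀ c, ψ c = (m ξ₁ : ℂ) * (ξ₁ : C → ℂ) c := by
      intro c
      rw [hdec c, Finset.sum_eq_single ξ₁]
      · intro ξ _ hne; rw [hz ξ hne]; simp
      · intro h; exact absurd (Finset.mem_univ _) h
    have hdvd : m ξ₁ ∣ 2 := Dvd.intro _ hprod
    have hle : m ξ₁ ≤ 2 := Nat.le_of_dvd (by norm_num) hdvd
    have hcases : m ξ₁ = 1 ∨ m ξ₁ = 2 := by omega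
    rcases hcases with hm1 | hm2
    · left
      have : ψ = (ξ₁ : C → ℂ) := by
        funext c; rw [hψ1 c, hm1]; simp
      rw [this]; exact ξ₁.2
    · right
      have hdd1 : Cfsg.charDegree (ξ₁ : C → ℂ) = 1 := by
        rw [hm2] at hprod; omega
      refine ⟨ξ₁, ξ₁, ?_, ?_, ?_⟩
      · rw [irr_one_eq_degree, hdd1]; simp
      · rw [irr_one_eq_degree, hdd1]; simp
      · intro c; rw [hψ1 c, hm2]; push_cast; ring

/-- The restriction of a degree-two character to an abelian subgroup is a sum of two linear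
characters. -/
theorem pt_split {G : Type u} [Group G] [Fintype G] (χ : Cfsg.IrrCharacter G)
    (h2 : Cfsg.charDegree (χ : G → ℂ) = 2) (A : Subgroup G)
    (hab : ∀ a ∈ A, ∀ b ∈ A, a * b = b * a) :
    ∃ l₁ l₂ : Cfsg.IrrCharacter A, (l₁ : A → ℂ) 1 = 1 ∧ (l₂ : A → ℂ) 1 = 1 ∧
      ∀ c : A, (χ : G → ℂ) c = (l₁ : A → ℂ) c + (l₂ : A → ℂ) c := by
  classical
  haveI : Fintype A := Fintype.ofFinite A
  have hψ : Cfsg.IsCharacter A (fun c : A => (χ : G → ℂ) c) :=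
    Helper2.isCharacter_restrict A (irr_isCharacter χ)
  have hχ1 : (χ : G → ℂ) 1 = 2 := by rw [irr_one_eq_degree, h2]; norm_num
  have hψ1 : (fun c : A => (χ : G → ℂ) c) 1 = 2 := by simpa using hχ1
  rcases pt_dich _ hψ hψ1 with hirr | h
  · exfalso
    have hcomm : ∀ a b : A, a * b = b * a := fun a b => Subtype.ext (hab a a.2 b b.2)
    have h1 := Helper11.irr_one_of_comm hcomm (⟨_, hirr⟩ : Cfsg.IrrCharacter A)
    have h3 : (2 : ℂ) = 1 := by rw [← hψ1]; exact h1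
    norm_num at h3
  · exact h

/-- A linear character is trivial on commutators. -/
theorem pt_lin_comm {C : Type u} [Group C] (l : Cfsg.IrrCharacter C)
    (hl1 : (l : C → ℂ) 1 = 1) (u v : C) : (l : C → ℂ) (u * v * u⁻¹ * v⁻¹) = 1 := by
  rw [irr_linear_mul l hl1, irr_linear_mul l hl1, irr_linear_mul l hl1]
  have hu : (l : C → ℂ) u * (l : C → ℂ) u⁻¹ = 1 := by
    rw [← irr_linear_mul l hl1, mul_inv_cancel, hl1]
  have hv : (l : C → ℂ) v * (l : C → ℂ) v⁻¹ = 1 := by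
    rw [← irr_linear_mul l hl1, mul_inv_cancel, hl1]
  calc (l : C → ℂ) u * (l : C → ℂ) v * (l : C → ℂ) u⁻¹ * (l : C → ℂ) v⁻¹
      = ((l : C → ℂ) u * (l : C → ℂ) u⁻¹) * ((l : C → ℂ) v * (l : C → ℂ) v⁻¹) := by ring
    _ = 1 := by rw [hu, hv, mul_one]

/-- (F1) Centralizers of non-central elements are abelian. -/
theorem pt_F1 {G : Type u} [Group G] [Fintype G] (χ : Cfsg.IrrCharacter G)
    (hfaith : ∀ g : G, (χ : G → ℂ) g = (χ : G → ℂ) 1 → g = 1)
    (h2 : Cfsg.charDegree (χ : G → ℂ) = 2) (x : G) (hx : x ∉ Subgroup.center G) :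
    ∀ a ∈ Subgroup.centralizer ({x} : Set G), ∀ b ∈ Subgroup.centralizer ({x} : Set G),
      a * b = b * a := by
  classical
  haveI : Fintype (Subgroup.centralizer ({x} : Set G)) := Fintype.ofFinite _
  have hψ : Cfsg.IsCharacter (Subgroup.centralizer ({x} : Set G))
      (fun c : Subgroup.centralizer ({x} : Set G) => (χ : G → ℂ) c) :=
    Helper2.isCharacter_restrict _ (irr_isCharacter χ)
  have hχ1 : (χ : G → ℂ) 1 = 2 := by rw [irr_one_eq_degree, h2]; norm_num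
  have hψ1 : (fun c : Subgroup.centralizer ({x} : Set G) => (χ : G → ℂ) c) 1 = 2 := by
    simpa using hχ1
  rcases pt_dich _ hψ hψ1 with hirr | ⟨l₁, l₂, hl1, hl2, hl⟩
  · exfalso
    have hxC : x ∈ Subgroup.centralizer ({x} : Set G) := (pt_mem_cent x x).2 rfl
    have hxcen : (⟨x, hxC⟩ : Subgroup.centralizer ({x} : Set G)) ∈
        Subgroup.center (Subgroup.centralizer ({x} : Set G)) := by
      rw [Subgroup.mem_center_iff]
      intro c
      apply Subtype.ext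
      exact ((pt_mem_cent x c.1).1 c.2).symm
    obtain ⟨cc, hcn, hcc⟩ := gq_central_mul
      (⟨_, hirr⟩ : Cfsg.IrrCharacter (Subgroup.centralizer ({x} : Set G))) ⟨x, hxC⟩ hxcen
    have h1 := hcc 1
    have hnorm : ‖(χ : G → ℂ) x‖ = 2 := by
      have h3 : (χ : G → ℂ) x = cc * 2 := by simpa [hχ1] using h1
      rw [h3, norm_mul, hcn]; simp
    exact hx (irr_mem_center_of_norm_eq χ hfaith x (by rw [hnorm, h2]; norm_num))
  · intro a ha b hb
    have hcomm := hl (⟨a, ha⟩ * ⟨b, hb⟩ * ⟨a, ha⟩⁻¹ * ⟨b, hb⟩⁻¹)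
    rw [pt_lin_comm l₁ hl1, pt_lin_comm l₂ hl2] at hcomm
    have h3 : (χ : G → ℂ) (a * b * a⁻¹ * b⁻¹) = (χ : G → ℂ) 1 := by
      rw [hχ1]
      have h4 : (((⟨a, ha⟩ * ⟨b, hb⟩ * ⟨a, ha⟩⁻¹ * ⟨b, hb⟩⁻¹ :
          Subgroup.centralizer ({x} : Set G))) : G) = a * b * a⁻¹ * b⁻¹ := rfl
      rw [← h4, hcomm]
      norm_num
    have h4 := hfaith _ h3
    calc a * b = a * b * a⁻¹ * b⁻¹ * (b * a) := by group
      _ = b * a := by rw [h4, one_mul]

/-- Faithfulness on an abelian subgroup: two elements with the same pair of linear constituent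
values are equal. -/
theorem pt_faith_pair {G : Type u} [Group G] [Fintype G] (χ : Cfsg.IrrCharacter G)
    (hfaith : ∀ g : G, (χ : G → ℂ) g = (χ : G → ℂ) 1 → g = 1)
    (h2 : Cfsg.charDegree (χ : G → ℂ) = 2) (A : Subgroup G)
    (l₁ l₂ : Cfsg.IrrCharacter A) (hl1 : (l₁ : A → ℂ) 1 = 1) (hl2 : (l₂ : A → ℂ) 1 = 1)
    (hl : ∀ c : A, (χ : G → ℂ) c = (l₁ : A → ℂ) c + (l₂ : A → ℂ) c)
    (u v : A) (h1 : (l₁ : A → ℂ) u = (l₁ : A → ℂ) v) (h2' : (l₂ : A → ℂ) u = (l₂ : A → ℂ) v) :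
    u = v := by
  have hχ1 : (χ : G → ℂ) 1 = 2 := by rw [irr_one_eq_degree, h2]; norm_num
  have key : ∀ l : Cfsg.IrrCharacter A, (l : A → ℂ) 1 = 1 → (l : A → ℂ) u = (l : A → ℂ) v →
      (l : A → ℂ) (u * v⁻¹) = 1 := by
    intro l hl1 huv
    rw [irr_linear_mul l hl1, huv, ← irr_linear_mul l hl1, mul_inv_cancel, hl1]
  have h3 : (χ : G → ℂ) ((u * v⁻¹ : A) : G) = (χ : G → ℂ) 1 := by
    rw [hl, key l₁ hl1 h1, key l₂ hl2 h2', hχ1]; norm_num
  have h4 := hfaith _ h3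
  have h5 : u * v⁻¹ = 1 := Subtype.ext h4
  exact mul_inv_eq_one.mp h5

/-- (F2) The centralizer of a non-central element has index at most two in its normalizer. -/
theorem pt_F2 {G : Type u} [Group G] [Fintype G] (χ : Cfsg.IrrCharacter G)
    (hfaith : ∀ g : G, (χ : G → ℂ) g = (χ : G → ℂ) 1 → g = 1)
    (h2 : Cfsg.charDegree (χ : G → ℂ) = 2) (x : G)
    (hab : ∀ a ∈ Subgroup.centralizer ({x} : Set G), ∀ b ∈ Subgroup.centralizer ({x} : Set G),
      a * b = b * a) :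
    ∀ n₁ ∈ Subgroup.normalizer ((Subgroup.centralizer ({x} : Set G) : Subgroup G) : Set G),
      ∀ n₂ ∈ Subgroup.normalizer ((Subgroup.centralizer ({x} : Set G) : Subgroup G) : Set G),
      n₁ ∉ Subgroup.centralizer ({x} : Set G) → n₂ ∉ Subgroup.centralizer ({x} : Set G) →
      n₂⁻¹ * n₁ ∈ Subgroup.centralizer ({x} : Set G) := by
  classical
  obtain ⟨l₁, l₂, hl1, hl2, hl⟩ := pt_split χ h2 (Subgroup.centralizer ({x} : Set G)) hab
  have hxC : x ∈ Subgroup.centralizer ({x} : Set G) := (pt_mem_cent x x).2 rfl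
  have hsq : ∀ (l : Cfsg.IrrCharacter (Subgroup.centralizer ({x} : Set G))),
      (l : Subgroup.centralizer ({x} : Set G) → ℂ) 1 = 1 →
      ∀ w : Subgroup.centralizer ({x} : Set G),
      (l : Subgroup.centralizer ({x} : Set G) → ℂ) (w * w)
        = (l : Subgroup.centralizer ({x} : Set G) → ℂ) w ^ 2 := by
    intro l hl1 w
    rw [irr_linear_mul l hl1, sq]
  -- the dichotomy for a normalizing element
  have hdich : ∀ n ∈ Subgroup.normalizer
      ((Subgroup.centralizer ({x} : Set G) : Subgroup G) : Set G),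
      n ∉ Subgroup.centralizer ({x} : Set G) →
      ∃ hy : n * x * n⁻¹ ∈ Subgroup.centralizer ({x} : Set G),
        (l₁ : Subgroup.centralizer ({x} : Set G) → ℂ) ⟨n * x * n⁻¹, hy⟩
          = (l₂ : Subgroup.centralizer ({x} : Set G) → ℂ) ⟨x, hxC⟩ ∧
        (l₂ : Subgroup.centralizer ({x} : Set G) → ℂ) ⟨n * x * n⁻¹, hy⟩
          = (l₁ : Subgroup.centralizer ({x} : Set G) → ℂ) ⟨x, hxC⟩ := by
    intro n hn hnC
    have hy : n * x * n⁻¹ ∈ Subgroup.centralizer ({x} : Set G) :=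
      (Subgroup.mem_normalizer_iff.mp hn x).1 hxC
    refine ⟨hy, ?_⟩
    have e1 : (χ : G → ℂ) (n * x * n⁻¹) = (χ : G → ℂ) x := irr_conj χ x n
    have e2 : (χ : G → ℂ) (n * x * n⁻¹ * (n * x * n⁻¹)) = (χ : G → ℂ) (x * x) := by
      have : n * x * n⁻¹ * (n * x * n⁻¹) = n * (x * x) * n⁻¹ := by group
      rw [this]; exact irr_conj χ (x * x) n
    have f1 := hl ⟨n * x * n⁻¹, hy⟩
    have f2 := hl ⟨x, hxC⟩
    have f3 := hl (⟨n * x * n⁻¹, hy⟩ * ⟨n * x * n⁻¹, hy⟩)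
    have f4 := hl (⟨x, hxC⟩ * ⟨x, hxC⟩)
    rw [hsq l₁ hl1, hsq l₂ hl2] at f3 f4
    have g1 : (l₁ : Subgroup.centralizer ({x} : Set G) → ℂ) ⟨n * x * n⁻¹, hy⟩
        + (l₂ : Subgroup.centralizer ({x} : Set G) → ℂ) ⟨n * x * n⁻¹, hy⟩
        = (l₁ : Subgroup.centralizer ({x} : Set G) → ℂ) ⟨x, hxC⟩
        + (l₂ : Subgroup.centralizer ({x} : Set G) → ℂ) ⟨x, hxC⟩ := by
      rw [← f1, ← f2]; exact e1
    have g2 : (l₁ : Subgroup.centralizer ({x} : Set G) → ℂ) ⟨n * x * n⁻¹, hy⟩ ^ 2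
        + (l₂ : Subgroup.centralizer ({x} : Set G) → ℂ) ⟨n * x * n⁻¹, hy⟩ ^ 2
        = (l₁ : Subgroup.centralizer ({x} : Set G) → ℂ) ⟨x, hxC⟩ ^ 2
        + (l₂ : Subgroup.centralizer ({x} : Set G) → ℂ) ⟨x, hxC⟩ ^ 2 := by
      rw [← f3, ← f4]; exact e2
    have hnot : ¬ ((l₁ : Subgroup.centralizer ({x} : Set G) → ℂ) ⟨n * x * n⁻¹, hy⟩
          = (l₁ : Subgroup.centralizer ({x} : Set G) → ℂ) ⟨x, hxC⟩ ∧
        (l₂ : Subgroup.centralizer ({x} : Set G) → ℂ) ⟨n * x * n⁻¹, hy⟩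
          = (l₂ : Subgroup.centralizer ({x} : Set G) → ℂ) ⟨x, hxC⟩) := by
      rintro ⟨k1, k2⟩
      have heq := pt_faith_pair χ hfaith h2 _ l₁ l₂ hl1 hl2 hl ⟨n * x * n⁻¹, hy⟩ ⟨x, hxC⟩ k1 k2
      have heq' : n * x * n⁻¹ = x := congrArg Subtype.val heq
      apply hnC
      rw [pt_mem_cent]
      calc x * n = (n * x * n⁻¹) * n := by rw [heq']
        _ = n * x := by group
    generalize (l₁ : Subgroup.centralizer ({x} : Set G) → ℂ) ⟨n * x * n⁻¹, hy⟩ = p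
      at g1 g2 hnot ⊢
    generalize (l₂ : Subgroup.centralizer ({x} : Set G) → ℂ) ⟨n * x * n⁻¹, hy⟩ = q
      at g1 g2 hnot ⊢
    by_cases hpa : p = (l₁ : Subgroup.centralizer ({x} : Set G) → ℂ) ⟨x, hxC⟩
    · exfalso
      have hqb : q = (l₂ : Subgroup.centralizer ({x} : Set G) → ℂ) ⟨x, hxC⟩ := by
        rw [hpa] at g1; exact add_left_cancel g1
      exact hnot ⟨hpa, hqb⟩
    · have hprod : (p - (l₁ : Subgroup.centralizer ({x} : Set G) → ℂ) ⟨x, hxC⟩)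
          * (p - (l₂ : Subgroup.centralizer ({x} : Set G) → ℂ) ⟨x, hxC⟩) = 0 := by
        have hq : q = (l₁ : Subgroup.centralizer ({x} : Set G) → ℂ) ⟨x, hxC⟩
            + (l₂ : Subgroup.centralizer ({x} : Set G) → ℂ) ⟨x, hxC⟩ - p := by
          rw [← g1]; ring
        rw [hq] at g2
        linear_combination g2 / 2
      rcases mul_eq_zero.mp hprod with h | h
      · exact absurd (sub_eq_zero.mp h) hpa
      · have hpb := sub_eq_zero.mp h
        refine ⟨hpb, ?_⟩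
        rw [hpb] at g1
        have : (l₂ : Subgroup.centralizer ({x} : Set G) → ℂ) ⟨x, hxC⟩ + q
            = (l₂ : Subgroup.centralizer ({x} : Set G) → ℂ) ⟨x, hxC⟩
              + (l₁ : Subgroup.centralizer ({x} : Set G) → ℂ) ⟨x, hxC⟩ := by
          rw [g1]; ring
        exact add_left_cancel this
  intro n₁ hn₁ n₂ hn₂ hn₁C hn₂C
  obtain ⟨hy₁, ha₁, hb₁⟩ := hdich n₁ hn₁ hn₁C
  obtain ⟨hy₂, ha₂, hb₂⟩ := hdich n₂ hn₂ hn₂C
  have heq := pt_faith_pair χ hfaith h2 _ l₁ l₂ hl1 hl2 hl ⟨n₁ * x * n₁⁻¹, hy₁⟩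
    ⟨n₂ * x * n₂⁻¹, hy₂⟩ (ha₁.trans ha₂.symm) (hb₁.trans hb₂.symm)
  have heq' : n₁ * x * n₁⁻¹ = n₂ * x * n₂⁻¹ := congrArg Subtype.val heq
  rw [pt_mem_cent]
  calc x * (n₂⁻¹ * n₁) = n₂⁻¹ * (n₂ * x * n₂⁻¹) * n₁ := by group
    _ = n₂⁻¹ * (n₁ * x * n₁⁻¹) * n₁ := by rw [heq']
    _ = n₂⁻¹ * n₁ * x := by group

/-- (F3) The centralizer of a non-central element is not normal. -/
theorem pt_F3 {G : Type u} [Group G] [Fintype G] (χ : Cfsg.IrrCharacter G)
    (hfaith : ∀ g : G, (χ : G → ℂ) g = (χ : G → ℂ) 1 → g = 1)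
    (h2 : Cfsg.charDegree (χ : G → ℂ) = 2)
    (hprim : ∀ H : Subgroup G, H ≠ ⊤ → ∀ θ : H → ℂ, Cfsg.IsCharacter H θ →
      (χ : G → ℂ) ≠ Cfsg.indFun H θ)
    (x : G) (hx : x ∉ Subgroup.center G) :
    ¬ (Subgroup.centralizer ({x} : Set G)).Normal := by
  classical
  intro hnormal
  have hab := pt_F1 χ hfaith h2 x hx
  have hF2 := pt_F2 χ hfaith h2 x hab
  have hNtop : Subgroup.normalizer ((Subgroup.centralizer ({x} : Set G) : Subgroup G) : Set G)
      = ⊤ := Subgroup.normalizer_eq_top_iff.mpr hnormal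
  have hAtop : Subgroup.centralizer ({x} : Set G) ≠ ⊤ := by
    intro htop
    apply hx
    rw [Subgroup.mem_center_iff]
    intro g
    have hg : g ∈ Subgroup.centralizer ({x} : Set G) := by rw [htop]; exact Subgroup.mem_top g
    exact ((pt_mem_cent x g).1 hg).symm
  obtain ⟨a, ha⟩ : ∃ a : G, a ∉ Subgroup.centralizer ({x} : Set G) := by
    by_contra hcon
    push_neg at hcon
    exact hAtop (eq_top_iff.mpr (fun g _ => hcon g))
  have hidx : (Subgroup.centralizer ({x} : Set G)).index = 2 := by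
    rw [Subgroup.index_eq_two_iff_exists_notMem_and]
    refine ⟨a, ha, fun b => ?_⟩
    by_cases hb : b ∈ Subgroup.centralizer ({x} : Set G)
    · exact Or.inr hb
    · left
      have hb' : b⁻¹ ∉ Subgroup.centralizer ({x} : Set G) := fun h => hb (by simpa using inv_mem h)
      have := hF2 a (by rw [hNtop]; exact Subgroup.mem_top a) b⁻¹
        (by rw [hNtop]; exact Subgroup.mem_top _) ha hb'
      simpa using this
  obtain ⟨l₁, l₂, hl1, hl2, hl⟩ := pt_split χ h2 (Subgroup.centralizer ({x} : Set G)) hab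
  haveI : Fintype (Subgroup.centralizer ({x} : Set G)) := Fintype.ofFinite _
  have hχ1 : (χ : G → ℂ) 1 = 2 := by rw [irr_one_eq_degree, h2]; norm_num
  have hΨchar : Cfsg.IsCharacter G (Cfsg.indFun (Subgroup.centralizer ({x} : Set G))
      (l₁ : Subgroup.centralizer ({x} : Set G) → ℂ)) :=
    Helper2.isCharacter_indFun _ (irr_isCharacter l₁)
  have hΨ1 : Cfsg.indFun (Subgroup.centralizer ({x} : Set G))
      (l₁ : Subgroup.centralizer ({x} : Set G) → ℂ) 1 = 2 := by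
    rw [Helper2.indFun_one_apply, hidx, hl1]; norm_num
  have hfrob := Helper2.frobenius_reciprocity (Subgroup.centralizer ({x} : Set G))
    (l₁ : Subgroup.centralizer ({x} : Set G) → ℂ) (χ : G → ℂ)
    (Helper2.isClassFunction_of_isCharacter (irr_isCharacter χ))
  have hres : (fun h : Subgroup.centralizer ({x} : Set G) => (χ : G → ℂ) h)
      = (l₁ : Subgroup.centralizer ({x} : Set G) → ℂ)
        + (l₂ : Subgroup.centralizer ({x} : Set G) → ℂ) := funext hl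
  have hne : Cfsg.classInner (Cfsg.indFun (Subgroup.centralizer ({x} : Set G))
      (l₁ : Subgroup.centralizer ({x} : Set G) → ℂ)) (χ : G → ℂ) ≠ 0 := by
    rw [hfrob, hres, Helper2.classInner_add_right, Helper2.classInner_irr_irr,
      Helper2.classInner_irr_irr, if_pos rfl]
    split_ifs <;> norm_num
  rcases pt_dich _ hΨchar hΨ1 with hirr | ⟨μ₁, μ₂, hμ1, hμ2, hμ⟩
  · have h3 := Helper2.classInner_irr_irr (⟨_, hirr⟩ : Cfsg.IrrCharacter G) χ
    by_cases heq : (⟨_, hirr⟩ : Cfsg.IrrCharacter G) = χ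
    · exact hprim _ hAtop _ (irr_isCharacter l₁) (congrArg Subtype.val heq).symm
    · rw [if_neg heq] at h3
      exact hne h3
  · have hfun : Cfsg.indFun (Subgroup.centralizer ({x} : Set G))
        (l₁ : Subgroup.centralizer ({x} : Set G) → ℂ) = (μ₁ : G → ℂ) + (μ₂ : G → ℂ) := funext hμ
    have hμne : ∀ μ : Cfsg.IrrCharacter G, (μ : G → ℂ) 1 = 1 → μ ≠ χ := by
      intro μ h1 heq
      rw [heq, hχ1] at h1
      norm_num at h1
    apply hne
    rw [hfun, Helper2.classInner_add_left, Helper2.classInner_irr_irr,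
      Helper2.classInner_irr_irr, if_neg (hμne μ₁ hμ1), if_neg (hμne μ₂ hμ2), add_zero]

/-- A finite group with a faithful primitive irreducible character of degree two has centre of
index `12`, `24` or `60`. -/
theorem pt_main {G : Type u} [Group G] [Fintype G] (χ : Cfsg.IrrCharacter G)
    (hfaith : ∀ g : G, (χ : G → ℂ) g = (χ : G → ℂ) 1 → g = 1)
    (h2 : Cfsg.charDegree (χ : G → ℂ) = 2)
    (hprim : ∀ H : Subgroup G, H ≠ ⊤ → ∀ θ : H → ℂ, Cfsg.IsCharacter H θ →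
      (χ : G → ℂ) ≠ Cfsg.indFun H θ) :
    (Subgroup.center G).index = 12 ∨ (Subgroup.center G).index = 24
      ∨ (Subgroup.center G).index = 60 := by
  apply pt_group
  · exact fun x hx => pt_F1 χ hfaith h2 x hx
  · exact fun x hx => pt_F2 χ hfaith h2 x (pt_F1 χ hfaith h2 x hx)
  · exact fun x hx => pt_F3 χ hfaith h2 hprim x hx
  · by_contra hcon
    push_neg at hcon
    have hcomm : ∀ a b : G, a * b = b * a := fun a b => (Subgroup.mem_center_iff.mp (hcon b)) a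
    have h1 := Helper11.irr_one_of_comm hcomm χ
    rw [irr_one_eq_degree, h2] at h1
    norm_num at h1

end Cfsg.Agent.Helper25
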