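import Mathlib
import Cfsg.Agent.Helper7.CliffDeg
import Cfsg.Agent.Helper4.MinNormal
import Cfsg.Agent.Helper11.EPPO
import Cfsg.Agent.Lead.Quat

/-!
# A relative quasi-primitivity lemma (helper25)

`qp_main`: `L ⊴ G`, `L ≤ H` with `H` maximal, `G / L` solvable, `ϑ ∈ Irr(H)` with `ϑ_L`
irreducible and `χ = ϑ^G` irreducible.  Then `χ_M` is not homogeneous for some `M ⊴ G`
containing `L`.
-/

set_option autoImplicit false

namespace Cfsg.Agent.Helper25

open Cfsg Cfsg.Agent.Helper2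
open scoped ComplexConjugate

universe u

section Basic

variable {G : Type u} [Group G] [Fintype G]

open Classical in
/-- Sum over a subgroup as an indicator sum. -/
theorem qp_ind_sum (N : Subgroup G) [Fintype N] (F : G → ℂ) :
    ∑ g : G, (if g ∈ N then F g else 0) = ∑ x : N, F x := by
  rw [← Finset.sum_filter]
  exact Finset.sum_subtype (Finset.univ.filter (fun g : G => g ∈ N)) (by simp) F

/-- The norm of a homogeneous restriction. -/
theorem qp_norm (N : Subgroup G) [Fintype N] (F : G → ℂ) (φ : N → ℂ) (hφ : IsIrrCharacter N φ)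
    (e : ℕ) (h : (fun m : N => F m) = (e : ℂ) • φ) :
    ∑ x : N, F x * conj (F x) = (e : ℂ) ^ 2 * (Nat.card N : ℂ) := by
  have h1 := classInner_irr_irr (⟨φ, hφ⟩ : IrrCharacter N) ⟨φ, hφ⟩
  rw [if_pos rfl] at h1
  unfold classInner at h1
  have hN : (Nat.card N : ℂ) ≠ 0 := Nat.cast_ne_zero.mpr Nat.card_pos.ne'
  have h2 : ∑ x : N, φ x * conj (φ x) = (Nat.card N : ℂ) := by
    field_simp at h1
    exact h1
  have h3 : ∀ x : N, F x = (e : ℂ) * φ x := fun x => congrFun h x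
  rw [Finset.sum_congr rfl (fun x _ => by rw [h3 x, map_mul, Complex.conj_natCast]), ← h2,
    Finset.mul_sum]
  apply Finset.sum_congr rfl
  intro x _
  ring

/-- An induced function vanishes at elements with no conjugate in the subgroup. -/
theorem qp_vanish (H : Subgroup G) (ϑ : H → ℂ) (g : G) (hg : ∀ x : G, x⁻¹ * g * x ∉ H) :
    indFun H ϑ g = 0 := by
  rw [indFun_apply, Finset.sum_eq_zero, mul_zero]
  intro x _
  exact extendByZero_of_not_mem H ϑ (hg x)

open Classical in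
/-- Frobenius reciprocity against the truncation of `χ = ϑ^G` to a normal subgroup. -/
theorem qp_frob (H N : Subgroup G) [hN : N.Normal] [Fintype H] (ϑ : H → ℂ) :
    ∑ g : G, (if g ∈ N then indFun H ϑ g * conj (indFun H ϑ g) else 0)
      = (H.index : ℂ) *
        ∑ g : G, (if g ∈ N then extendByZero H ϑ g * conj (indFun H ϑ g) else 0) := by
  obtain ⟨χ, hχ⟩ : ∃ χ : G → ℂ, χ = indFun H ϑ := ⟨_, rfl⟩
  rw [← hχ]
  have hcl : IsClassFunction G χ := hχ ▸ indFun_isClassFunction H ϑ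
  obtain ⟨χ', hχ'⟩ : ∃ χ' : G → ℂ, χ' = fun g => if g ∈ N then χ g else 0 := ⟨_, rfl⟩
  have hcl' : IsClassFunction G χ' := by
    intro g x
    rw [hχ']
    simp only
    by_cases hg : g ∈ N
    · rw [if_pos hg, if_pos (hN.conj_mem g hg x)]
      exact hcl g x
    · have : x * g * x⁻¹ ∉ N := fun h' => hg (by
        have := hN.conj_mem _ h' x⁻¹
        simpa [mul_assoc] using this)
      rw [if_neg hg, if_neg this]
  have h1 := frobenius_reciprocity H ϑ χ' hcl'
  rw [← hχ] at h1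
  unfold classInner at h1
  have hG : (Nat.card G : ℂ) ≠ 0 := Nat.cast_ne_zero.mpr Nat.card_pos.ne'
  have hH : (Nat.card H : ℂ) ≠ 0 := Nat.cast_ne_zero.mpr Nat.card_pos.ne'
  have hmul : (Nat.card H : ℂ) * (H.index : ℂ) = (Nat.card G : ℂ) := by
    exact_mod_cast Subgroup.card_mul_index H
  have e1 : ∑ g : G, χ g * conj (χ' g)
      = ∑ g : G, (if g ∈ N then χ g * conj (χ g) else 0) := by
    apply Finset.sum_congr rfl
    intro g _
    rw [hχ']
    simp only
    split_ifs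
    · rfl
    · rw [map_zero, mul_zero]
  have e2 : ∑ h : H, ϑ h * conj (χ' (h : G))
      = ∑ g : G, (if g ∈ N then extendByZero H ϑ g * conj (χ g) else 0) := by
    rw [← sum_extendByZero_mul H ϑ (fun g => conj (χ' g))]
    apply Finset.sum_congr rfl
    intro g _
    rw [hχ']
    simp only
    split_ifs
    · rfl
    · rw [map_zero, mul_zero]
  rw [e1, e2] at h1
  rw [← hmul] at h1
  have hidx : (H.index : ℂ) ≠ 0 := by
    intro h0
    rw [h0, mul_zero] at hmul
    exact hG hmul.symm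
  field_simp at h1
  exact h1

/-- The order of a normal supplement. -/
theorem qp_card (H N : Subgroup G) [hN : N.Normal] (hsup : H ⊔ N = ⊤) :
    Nat.card N = H.index * Nat.card (H ⊓ N : Subgroup G) := by
  have h1 := Subgroup.card_mul_index H
  have h2 := Subgroup.card_mul_index N
  have h3 : N.index = N.relIndex H := by
    rw [← Subgroup.relIndex_sup_right (H := H) (K := N), hsup, Subgroup.relIndex_top_right]
  have h4 : Nat.card (H ⊓ N : Subgroup G) * N.relIndex H = Nat.card H := by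
    have := Subgroup.relIndex_mul_relIndex ⊥ (H ⊓ N) H bot_le inf_le_left
    rwa [Subgroup.relIndex_bot_left, Subgroup.relIndex_bot_left, Subgroup.inf_relIndex_left] at this
  have hpos : 0 < N.relIndex H := by
    rcases Nat.eq_zero_or_pos (N.relIndex H) with h0 | h0
    · rw [h0, mul_zero] at h4
      exact absurd h4.symm Nat.card_pos.ne'
    · exact h0
  have h5 : Nat.card N * N.relIndex H
      = (H.index * Nat.card (H ⊓ N : Subgroup G)) * N.relIndex H := by
    calc Nat.card N * N.relIndex H = Nat.card N * N.index := by rw [h3]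
      _ = Nat.card G := h2
      _ = Nat.card H * H.index := h1.symm
      _ = (Nat.card (H ⊓ N : Subgroup G) * N.relIndex H) * H.index := by rw [h4]
      _ = _ := by ring
  exact Nat.eq_of_mul_eq_mul_right hpos h5

/-- A character whose restriction to a subgroup is irreducible is irreducible. -/
theorem qp_irr_restrict {Q : Type u} [Group Q] [Fintype Q] (K' : Subgroup Q) [Fintype K']
    (θ : Q → ℂ) (hθ : IsCharacter Q θ) (hφ : IsIrrCharacter K' (fun k : K' => θ k)) :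
    IsIrrCharacter Q θ := by
  classical
  apply isIrrCharacter_of_classInner_self hθ
  have hcl := isClassFunction_of_isCharacter hθ
  have ha : ∀ χ : IrrCharacter Q, ∃ m : ℕ, classInner θ (χ : Q → ℂ) = (m : ℂ) :=
    fun χ => classInner_char_nat hθ (isCharacter_of_isIrrCharacter χ.2)
  choose a ha using ha
  have hc : ∀ χ χ' : IrrCharacter Q, ∃ m : ℕ,
      classInner (fun k : K' => (χ : Q → ℂ) k) (fun k : K' => (χ' : Q → ℂ) k) = (m : ℂ) :=
    fun χ χ' => classInner_char_nat (isCharacter_restrict K' (isCharacter_of_isIrrCharacter χ.2))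
      (isCharacter_restrict K' (isCharacter_of_isIrrCharacter χ'.2))
  choose c hc using hc
  have hcpos : ∀ χ : IrrCharacter Q, 1 ≤ c χ χ := by
    intro χ
    rcases Nat.eq_zero_or_pos (c χ χ) with h0 | h0
    · exfalso
      have h1 := hc χ χ
      rw [h0, Nat.cast_zero, classInner_self_eq_zero_iff] at h1
      have h2 := congrFun h1 1
      exact irr_one_ne_zero χ h2
    · exact h0
  have hres : (fun k : K' => θ k)
      = ∑ χ : IrrCharacter Q, (a χ : ℂ) • (fun k : K' => (χ : Q → ℂ) k) := by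
    funext k
    have h1 := congrFun (classFun_eq_sum_classInner hcl) (k : Q)
    rw [h1, Finset.sum_apply, Finset.sum_apply]
    apply Finset.sum_congr rfl
    intro χ _
    rw [Pi.smul_apply, Pi.smul_apply, ha χ]
  have hb : ∀ χ : IrrCharacter Q,
      classInner (fun k : K' => (χ : Q → ℂ) k) (fun k : K' => θ k)
        = ((∑ χ' : IrrCharacter Q, a χ' * c χ χ' : ℕ) : ℂ) := by
    intro χ
    rw [hres, classInner_sum_right]
    push_cast
    apply Finset.sum_congr rfl
    intro χ' _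
    rw [classInner_smul_right, hc χ χ', Complex.conj_natCast]
  have h1 : classInner (fun k : K' => θ k) (fun k : K' => θ k) = 1 := by
    have := classInner_irr_irr (⟨_, hφ⟩ : IrrCharacter K') ⟨_, hφ⟩
    rwa [if_pos rfl] at this
  have h2 : (∑ χ : IrrCharacter Q, a χ * (∑ χ' : IrrCharacter Q, a χ' * c χ χ') : ℕ) = 1 := by
    have h3 : ((∑ χ : IrrCharacter Q, a χ * (∑ χ' : IrrCharacter Q, a χ' * c χ χ') : ℕ) : ℂ)
        = 1 := by
      rw [← h1]
      have h4 : classInner (fun k : K' => θ k) (fun k : K' => θ k)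
          = classInner (∑ χ : IrrCharacter Q, (a χ : ℂ) • (fun k : K' => (χ : Q → ℂ) k))
              (fun k : K' => θ k) := by
        rw [← hres]
      rw [h4, classInner_sum_left]
      push_cast
      apply Finset.sum_congr rfl
      intro χ _
      rw [classInner_smul_left, hb χ]
      push_cast
      rfl
    exact_mod_cast h3
  have hterm : ∀ χ : IrrCharacter Q,
      a χ * a χ = a χ * (∑ χ' : IrrCharacter Q, a χ' * c χ χ') := by
    intro χ
    have hle : a χ * (∑ χ' : IrrCharacter Q, a χ' * c χ χ') ≤ 1 := by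
      rw [← h2]
      exact Finset.single_le_sum
        (f := fun χ => a χ * (∑ χ' : IrrCharacter Q, a χ' * c χ χ'))
        (fun _ _ => Nat.zero_le _) (Finset.mem_univ χ)
    rcases Nat.eq_zero_or_pos (a χ) with h0 | h0
    · rw [h0, zero_mul, zero_mul]
    · have hge : a χ ≤ ∑ χ' : IrrCharacter Q, a χ' * c χ χ' := by
        calc a χ ≤ a χ * c χ χ := Nat.le_mul_of_pos_right _ (hcpos χ)
          _ ≤ _ := Finset.single_le_sum (f := fun χ' => a χ' * c χ χ')
            (fun _ _ => Nat.zero_le _) (Finset.mem_univ χ)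
      have ha1 : a χ = 1 := by nlinarith
      have hb1 : (∑ χ' : IrrCharacter Q, a χ' * c χ χ') = 1 := by nlinarith
      rw [ha1, hb1]
  rw [classInner_eq_sum_mul hcl θ]
  have h5 : ((∑ χ : IrrCharacter Q, a χ * a χ : ℕ) : ℂ) = 1 := by
    rw [Finset.sum_congr rfl (fun χ _ => hterm χ), h2]
    simp
  rw [← h5]
  push_cast
  apply Finset.sum_congr rfl
  intro χ _
  rw [ha χ, Complex.conj_natCast]

end Basic

section Core

variable {G : Type u} [Group G] [Fintype G]

/-- Multiplicities of homogeneous restrictions to nested normal subgroups. -/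
theorem qp_mult (M K₁ : Subgroup G) [hMn : M.Normal] (hMK₁ : M ≤ K₁) (χ : G → ℂ)
    (ψ : M → ℂ) (hψ : IsIrrCharacter M ψ) (eM : ℕ) (hM : (fun m : M => χ m) = (eM : ℂ) • ψ)
    (ψ₁ : K₁ → ℂ) (hψ₁ : IsIrrCharacter K₁ ψ₁) (e₁ : ℕ)
    (hK₁ : (fun m : K₁ => χ m) = (e₁ : ℂ) • ψ₁) (h1 : χ 1 ≠ 0) :
    ∃ q : ℕ, eM = e₁ * q ∧ q ∣ M.relIndex K₁ := by
  classical
  haveI : Fintype (M.subgroupOf K₁) := Fintype.ofFinite _
  have e₁0 : (e₁ : ℂ) ≠ 0 := by
    intro h0
    have h2 := congrFun hK₁ 1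
    simp only [Pi.smul_apply, smul_eq_mul, h0, zero_mul, Subgroup.coe_one] at h2
    exact h1 h2
  have eM0 : (eM : ℂ) ≠ 0 := by
    intro h0
    have h2 := congrFun hM 1
    simp only [Pi.smul_apply, smul_eq_mul, h0, zero_mul, Subgroup.coe_one] at h2
    exact h1 h2
  obtain ⟨iso, hiso⟩ : ∃ iso : (M.subgroupOf K₁) ≃* M, ∀ x : M.subgroupOf K₁,
      ((iso x : M) : G) = ((x : K₁) : G) :=
    ⟨Subgroup.subgroupOfEquivOfLe hMK₁, fun x => rfl⟩
  have hψ' : IsIrrCharacter (M.subgroupOf K₁) (fun x => ψ (iso x)) :=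
    isIrrCharacter_comp_of_surjective iso.toMonoidHom iso.surjective hψ
  have hval : ∀ x : M.subgroupOf K₁, ψ₁ (x : K₁) = ((eM : ℂ) / (e₁ : ℂ)) * ψ (iso x) := by
    intro x
    have h2 := congrFun hK₁ (x : K₁)
    have h3 := congrFun hM (iso x)
    simp only [Pi.smul_apply, smul_eq_mul] at h2 h3
    rw [hiso x] at h3
    rw [h2] at h3
    field_simp
    rw [← h3]
    ring
  have hcon : classInner (fun x : M.subgroupOf K₁ => ψ₁ (x : K₁)) (fun x => ψ (iso x)) ≠ 0 := by
    have h2 : (fun x : M.subgroupOf K₁ => ψ₁ (x : K₁))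
        = ((eM : ℂ) / (e₁ : ℂ)) • (fun x : M.subgroupOf K₁ => ψ (iso x)) := by
      funext x
      rw [Pi.smul_apply, smul_eq_mul]
      exact hval x
    rw [h2, classInner_smul_left]
    have h3 := classInner_irr_irr (⟨_, hψ'⟩ : IrrCharacter (M.subgroupOf K₁)) ⟨_, hψ'⟩
    rw [if_pos rfl] at h3
    rw [h3, mul_one]
    exact div_ne_zero eM0 e₁0
  obtain ⟨q, hq, hqd⟩ := Helper7.degree_quot_dvd_index (M.subgroupOf K₁)
    (⟨ψ₁, hψ₁⟩ : IrrCharacter K₁) ⟨_, hψ'⟩ hcon
  refine ⟨q, ?_, hqd⟩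
  have hd1 := irr_one_eq_degree (⟨ψ₁, hψ₁⟩ : IrrCharacter K₁)
  have hd2 := irr_one_eq_degree (⟨_, hψ'⟩ : IrrCharacter (M.subgroupOf K₁))
  have hd0 := irr_degree_pos (⟨_, hψ'⟩ : IrrCharacter (M.subgroupOf K₁))
  have h4 := hval 1
  have h5 : ψ₁ ((1 : M.subgroupOf K₁) : K₁) = ψ₁ 1 := rfl
  rw [h5] at h4
  simp only at hd1 hd2
  rw [hd1, hd2, hq] at h4
  have h6 : ((e₁ * q * charDegree (fun x : M.subgroupOf K₁ => ψ (iso x)) : ℕ) : ℂ)
      = ((eM * charDegree (fun x : M.subgroupOf K₁ => ψ (iso x)) : ℕ) : ℂ) := by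
    push_cast at h4 ⊢
    field_simp at h4
    linear_combination h4
  have h7 : e₁ * q * charDegree (fun x : M.subgroupOf K₁ => ψ (iso x))
      = eM * charDegree (fun x : M.subgroupOf K₁ => ψ (iso x)) := by exact_mod_cast h6
  exact (Nat.eq_of_mul_eq_mul_right hd0 h7).symm

open Classical in
/-- The core computation: with `G = HM`, `H ∩ M = K = core(H)`, a normal `K₁ ≥ M` with
`[K₁ : M]` prime to `[G : H]`, and `χ = ϑ^G` homogeneous on `K`, `M`, `K₁`, one gets
`K₁ = M`. -/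
theorem qp_core (H K M K₁ : Subgroup G) [hKn : K.Normal] [hMn : M.Normal] [hK₁n : K₁.Normal]
    (hKH : K ≤ H) (hcore : ∀ y ∈ H, (∀ g : G, g * y * g⁻¹ ∈ H) → y ∈ K)
    (hKM : K ≤ M) (hMK₁ : M ≤ K₁) (hsup : H ⊔ M = ⊤) (hinf : H ⊓ M = K)
    (hcop : Nat.Coprime H.index (M.relIndex K₁))
    (ϑ : H → ℂ) (hϑ : IsIrrCharacter H ϑ)
    (hφ : IsIrrCharacter K (fun k : K => ϑ ⟨(k : G), hKH k.2⟩))
    (hind : IsIrrCharacter G (indFun H ϑ))
    (hhK : ∃ (φ : K → ℂ) (e : ℕ), IsIrrCharacter K φ ∧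
      (fun m : K => indFun H ϑ m) = (e : ℂ) • φ)
    (hhM : ∃ (φ : M → ℂ) (e : ℕ), IsIrrCharacter M φ ∧
      (fun m : M => indFun H ϑ m) = (e : ℂ) • φ)
    (hhK₁ : ∃ (φ : K₁ → ℂ) (e : ℕ), IsIrrCharacter K₁ φ ∧
      (fun m : K₁ => indFun H ϑ m) = (e : ℂ) • φ) :
    K₁ = M := by
  haveI : Fintype H := Fintype.ofFinite H
  haveI : Fintype K := Fintype.ofFinite K
  haveI : Fintype M := Fintype.ofFinite M
  haveI : Fintype K₁ := Fintype.ofFinite K₁
  haveI : Fintype (H ⊓ K₁ : Subgroup G) := Fintype.ofFinite _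
  have hfrobK := qp_frob H K ϑ
  have hfrobK₁ := qp_frob H K₁ ϑ
  have hvanish := qp_vanish H ϑ
  obtain ⟨χ, hχ⟩ : ∃ χ : G → ℂ, χ = indFun H ϑ := ⟨_, rfl⟩
  rw [← hχ] at hind hhK hhM hhK₁ hfrobK hfrobK₁ hvanish
  obtain ⟨ϑ0, hϑ0⟩ : ∃ ϑ0 : G → ℂ, ϑ0 = extendByZero H ϑ := ⟨_, rfl⟩
  rw [← hϑ0] at hfrobK hfrobK₁
  have hϑ0mem : ∀ (g : G) (hg : g ∈ H), ϑ0 g = ϑ ⟨g, hg⟩ := by
    intro g hg
    rw [hϑ0]
    exact extendByZero_of_mem H ϑ hg
  have hϑ0not : ∀ g : G, g ∉ H → ϑ0 g = 0 := by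
    intro g hg
    rw [hϑ0]
    exact extendByZero_of_not_mem H ϑ hg
  obtain ⟨φK, eK, hφK, hK⟩ := hhK
  obtain ⟨ψ, eM, hψ, hM⟩ := hhM
  obtain ⟨ψ₁, e₁, hψ₁, hK₁⟩ := hhK₁
  have hcl : IsClassFunction G χ := hχ ▸ indFun_isClassFunction H ϑ
  obtain ⟨n, hn⟩ : ∃ n : ℕ, n = H.index := ⟨_, rfl⟩
  rw [← hn] at hfrobK hfrobK₁ hcop
  have hn0 : n ≠ 0 := by
    rw [hn]
    exact Subgroup.index_ne_zero_of_finite
  have hnC : (n : ℂ) ≠ 0 := Nat.cast_ne_zero.mpr hn0
  have hχ1 : χ 1 ≠ 0 := irr_one_ne_zero (⟨χ, hind⟩ : IrrCharacter G)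
  have hcK : (Nat.card K : ℂ) ≠ 0 := Nat.cast_ne_zero.mpr Nat.card_pos.ne'
  -- step (III): the restriction to `K`
  have eK0 : (eK : ℂ) ≠ 0 := by
    intro h0
    have h2 := congrFun hK 1
    simp only [Pi.smul_apply, smul_eq_mul, h0, zero_mul, Subgroup.coe_one] at h2
    exact hχ1 h2
  have hφsum : ∑ k : K, ϑ0 k * conj (ϑ0 k) = (Nat.card K : ℂ) := by
    have h1 := classInner_irr_irr (⟨_, hφ⟩ : IrrCharacter K) ⟨_, hφ⟩
    rw [if_pos rfl] at h1
    unfold classInner at h1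
    field_simp at h1
    rw [← h1]
    apply Finset.sum_congr rfl
    intro k _
    rw [hϑ0mem (k : G) (hKH k.2)]
  have hAK : ∑ g : G, (if g ∈ K then χ g * conj (χ g) else 0)
      = (eK : ℂ) ^ 2 * (Nat.card K : ℂ) := by
    rw [qp_ind_sum K (fun g => χ g * conj (χ g))]
    exact qp_norm K χ φK hφK eK hK
  have hTK : ∑ g : G, (if g ∈ K then ϑ0 g * conj (χ g) else 0)
      = (eK : ℂ) * (Nat.card K : ℂ) *
        classInner (fun k : K => ϑ ⟨(k : G), hKH k.2⟩) φK := by
    rw [qp_ind_sum K (fun g => ϑ0 g * conj (χ g))]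
    unfold classInner
    rw [← mul_assoc, mul_assoc (eK : ℂ), mul_inv_cancel₀ hcK, mul_one, Finset.mul_sum]
    apply Finset.sum_congr rfl
    intro k _
    have h2 := congrFun hK k
    simp only [Pi.smul_apply, smul_eq_mul] at h2
    rw [h2, hϑ0mem (k : G) (hKH k.2), map_mul, Complex.conj_natCast]
    ring
  have hδ : classInner (fun k : K => ϑ ⟨(k : G), hKH k.2⟩) φK = 1 ∧ (eK : ℂ) = (n : ℂ) := by
    rw [hAK, hTK] at hfrobK
    have h1 := classInner_irr_irr (⟨_, hφ⟩ : IrrCharacter K) ⟨φK, hφK⟩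
    simp only at h1
    by_cases heq : (⟨_, hφ⟩ : IrrCharacter K) = ⟨φK, hφK⟩
    · rw [if_pos heq] at h1
      rw [h1, mul_one] at hfrobK
      refine ⟨h1, ?_⟩
      have h3 : (eK : ℂ) * ((eK : ℂ) * (Nat.card K : ℂ)) = (n : ℂ) * ((eK : ℂ) * (Nat.card K : ℂ)) := by
        linear_combination hfrobK
      exact mul_right_cancel₀ (mul_ne_zero eK0 hcK) h3
    · rw [if_neg heq] at h1
      rw [h1, mul_zero, mul_zero] at hfrobK
      exfalso
      exact (mul_ne_zero (pow_ne_zero 2 eK0) hcK) hfrobK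
  have hKval : ∀ k ∈ K, χ k = (n : ℂ) * ϑ0 k := by
    intro k hk
    have h1 := classInner_irr_irr (⟨_, hφ⟩ : IrrCharacter K) ⟨φK, hφK⟩
    simp only at h1
    rw [hδ.1] at h1
    have heq : (⟨_, hφ⟩ : IrrCharacter K) = ⟨φK, hφK⟩ := by
      by_contra hne
      rw [if_neg hne] at h1
      exact one_ne_zero h1
    have heq' : (fun k : K => ϑ ⟨(k : G), hKH k.2⟩) = φK := congrArg Subtype.val heq
    have h2 := congrFun hK ⟨k, hk⟩
    simp only [Pi.smul_apply, smul_eq_mul] at h2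
    rw [h2, hδ.2, ← heq', hϑ0mem k (hKH hk)]
  have hAK' : ∑ g : G, (if g ∈ K then χ g * conj (χ g) else 0)
      = (n : ℂ) ^ 2 * (Nat.card K : ℂ) := by
    rw [hAK, hδ.2]
  -- step (IV): the restriction to `M`
  have hcardM : Nat.card M = n * Nat.card K := by
    have := qp_card H M hsup
    rw [hinf, ← hn] at this
    exact this
  have hAM : ∑ g : G, (if g ∈ M then χ g * conj (χ g) else 0)
      = (eM : ℂ) ^ 2 * (Nat.card M : ℂ) := by
    rw [qp_ind_sum M (fun g => χ g * conj (χ g))]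
    exact qp_norm M χ ψ hψ eM hM
  have hAMK : ∑ g : G, (if g ∈ M then χ g * conj (χ g) else 0)
      = ∑ g : G, (if g ∈ K then χ g * conj (χ g) else 0) := by
    apply Finset.sum_congr rfl
    intro g _
    by_cases hgK : g ∈ K
    · rw [if_pos hgK, if_pos (hKM hgK)]
    · rw [if_neg hgK]
      by_cases hgM : g ∈ M
      · rw [if_pos hgM]
        have h0 : χ g = 0 := by
          apply hvanish
          intro x hx
          apply hgK
          have h1 : x⁻¹ * g * x ∈ M := by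
            have := hMn.conj_mem g hgM x⁻¹
            simpa using this
          have h2 : x⁻¹ * g * x ∈ K := by
            rw [← hinf]
            exact ⟨hx, h1⟩
          have h3 := hKn.conj_mem _ h2 x
          simpa [mul_assoc] using h3
        rw [h0, zero_mul]
      · rw [if_neg hgM]
  have heM : eM ^ 2 = n := by
    rw [hAMK, hAK', hcardM] at hAM
    push_cast at hAM
    have h1 : ((eM ^ 2 * (n * Nat.card K) : ℕ) : ℂ) = ((n * (n * Nat.card K) : ℕ) : ℂ) := by
      push_cast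
      linear_combination -hAM
    have h2 : eM ^ 2 * (n * Nat.card K) = n * (n * Nat.card K) := by exact_mod_cast h1
    exact Nat.eq_of_mul_eq_mul_right (Nat.mul_pos (Nat.pos_of_ne_zero hn0) Nat.card_pos) h2
  -- step (V): the restriction to `K₁`
  obtain ⟨q, hq, hqd⟩ := qp_mult M K₁ hMK₁ χ ψ hψ eM hM ψ₁ hψ₁ e₁ hK₁ hχ1
  have hq1 : q = 1 := by
    apply Nat.eq_one_of_dvd_coprimes hcop _ hqd
    rw [← heM, hq]
    exact ⟨e₁ * (e₁ * q), by ring⟩
  have he₁ : e₁ ^ 2 = n := by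
    rw [← heM, hq, hq1, mul_one]
  have hsup₁ : H ⊔ K₁ = ⊤ := by
    apply top_le_iff.mp
    rw [← hsup]
    exact sup_le_sup_left hMK₁ H
  have hcardK₁ : Nat.card K₁ = n * Nat.card (H ⊓ K₁ : Subgroup G) := by
    have := qp_card H K₁ hsup₁
    rw [← hn] at this
    exact this
  have hAK₁ : ∑ g : G, (if g ∈ K₁ then χ g * conj (χ g) else 0)
      = (n : ℂ) * (Nat.card K₁ : ℂ) := by
    rw [qp_ind_sum K₁ (fun g => χ g * conj (χ g)), qp_norm K₁ χ ψ₁ hψ₁ e₁ hK₁, ← he₁]
    push_cast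
    ring
  have hTK₁ : ∑ g : G, (if g ∈ K₁ then ϑ0 g * conj (χ g) else 0) = (Nat.card K₁ : ℂ) := by
    rw [hAK₁] at hfrobK₁
    exact (mul_left_cancel₀ hnC hfrobK₁).symm
  -- step (VI): `χ = n ϑ` on `K₁`
  obtain ⟨cQ, hcQ⟩ : ∃ cQ : ℕ, cQ = Nat.card (H ⊓ K₁ : Subgroup G) := ⟨_, rfl⟩
  rw [← hcQ] at hcardK₁
  have hξchar : IsCharacter (H ⊓ K₁ : Subgroup G)
      (fun y : (H ⊓ K₁ : Subgroup G) => ϑ ⟨(y : G), y.2.1⟩) :=
    isCharacter_comp (Subgroup.inclusion (inf_le_left : H ⊓ K₁ ≤ H))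
      (isCharacter_of_isIrrCharacter hϑ)
  have hKQ : K ≤ H ⊓ K₁ := le_inf hKH (hKM.trans hMK₁)
  obtain ⟨iso, hiso⟩ : ∃ iso : (K.subgroupOf (H ⊓ K₁)) ≃* K, ∀ x : K.subgroupOf (H ⊓ K₁),
      ((iso x : K) : G) = ((x : (H ⊓ K₁ : Subgroup G)) : G) :=
    ⟨Subgroup.subgroupOfEquivOfLe hKQ, fun x => rfl⟩
  haveI : Fintype (K.subgroupOf (H ⊓ K₁)) := Fintype.ofFinite _
  have hξirr : IsIrrCharacter (H ⊓ K₁ : Subgroup G)
      (fun y : (H ⊓ K₁ : Subgroup G) => ϑ ⟨(y : G), y.2.1⟩) := by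
    apply qp_irr_restrict (K.subgroupOf (H ⊓ K₁)) _ hξchar
    have h1 := isIrrCharacter_comp_of_surjective iso.toMonoidHom iso.surjective hφ
    have h2 : (fun x : K.subgroupOf (H ⊓ K₁) =>
          (fun k : K => ϑ ⟨(k : G), hKH k.2⟩) (iso.toMonoidHom x))
        = (fun k : K.subgroupOf (H ⊓ K₁) =>
          (fun y : (H ⊓ K₁ : Subgroup G) => ϑ ⟨(y : G), y.2.1⟩) k) := by
      funext x
      show ϑ ⟨((iso x : K) : G), _⟩ = ϑ ⟨((x : (H ⊓ K₁ : Subgroup G)) : G), _⟩
      congr 1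
      exact Subtype.ext (hiso x)
    rw [← h2]
    exact h1
  have hU : ∑ g : G, (if g ∈ K₁ then ϑ0 g * conj (ϑ0 g) else 0) = (cQ : ℂ) := by
    have h1 := classInner_irr_irr (⟨_, hξirr⟩ : IrrCharacter (H ⊓ K₁ : Subgroup G)) ⟨_, hξirr⟩
    rw [if_pos rfl] at h1
    unfold classInner at h1
    have hc : (Nat.card (H ⊓ K₁ : Subgroup G) : ℂ) ≠ 0 := Nat.cast_ne_zero.mpr Nat.card_pos.ne'
    field_simp at h1
    have e1 : ∑ g : G, (if g ∈ K₁ then ϑ0 g * conj (ϑ0 g) else 0)
        = ∑ g : G, (if g ∈ (H ⊓ K₁ : Subgroup G) then ϑ0 g * conj (ϑ0 g) else 0) := by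
      apply Finset.sum_congr rfl
      intro g _
      by_cases hgH : g ∈ H
      · by_cases hgK₁ : g ∈ K₁
        · rw [if_pos hgK₁, if_pos ⟨hgH, hgK₁⟩]
        · rw [if_neg hgK₁, if_neg (fun h => hgK₁ h.2)]
      · rw [hϑ0not g hgH, zero_mul, ite_self, ite_self]
    rw [e1, qp_ind_sum (H ⊓ K₁) (fun g => ϑ0 g * conj (ϑ0 g)), hcQ, ← h1]
    apply Finset.sum_congr rfl
    intro y _
    rw [hϑ0mem (y : G) y.2.1]
  have hS : ∑ g : G, (if g ∈ K₁ then (χ g - n * ϑ0 g) * conj (χ g - n * ϑ0 g) else 0) = 0 := by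
    have hT' : ∑ g : G, (if g ∈ K₁ then χ g * conj (ϑ0 g) else 0) = (Nat.card K₁ : ℂ) := by
      have h1 := congrArg (starRingEnd ℂ) hTK₁
      rw [map_sum, Complex.conj_natCast] at h1
      rw [← h1]
      apply Finset.sum_congr rfl
      intro g _
      split_ifs
      · rw [map_mul, Complex.conj_conj]
        ring
      · rw [map_zero]
    have hexp : ∀ g : G,
        (if g ∈ K₁ then (χ g - n * ϑ0 g) * conj (χ g - n * ϑ0 g) else 0)
        = (if g ∈ K₁ then χ g * conj (χ g) else 0)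
          - n * (if g ∈ K₁ then ϑ0 g * conj (χ g) else 0)
          - n * (if g ∈ K₁ then χ g * conj (ϑ0 g) else 0)
          + n ^ 2 * (if g ∈ K₁ then ϑ0 g * conj (ϑ0 g) else 0) := by
      intro g
      split_ifs
      · rw [map_sub, map_mul, Complex.conj_natCast]
        ring
      · ring
    rw [Finset.sum_congr rfl (fun g _ => hexp g), Finset.sum_add_distrib,
      Finset.sum_sub_distrib, Finset.sum_sub_distrib, ← Finset.mul_sum, ← Finset.mul_sum,
      ← Finset.mul_sum, hAK₁, hTK₁, hT', hU, hcardK₁]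
    push_cast
    ring
  have hval : ∀ g ∈ K₁, χ g = n * ϑ0 g := by
    have h1 : ∑ g : G, (if g ∈ K₁ then Complex.normSq (χ g - n * ϑ0 g) else 0) = 0 := by
      have h2 : ((∑ g : G, (if g ∈ K₁ then Complex.normSq (χ g - n * ϑ0 g) else 0) : ℝ) : ℂ)
          = 0 := by
        rw [← hS]
        push_cast
        apply Finset.sum_congr rfl
        intro g _
        split_ifs
        · rw [Complex.mul_conj]
        · rfl
      exact_mod_cast h2
    intro g hg
    have h3 := (Finset.sum_eq_zero_iff_of_nonneg (fun g _ => by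
      split_ifs
      · exact Complex.normSq_nonneg _
      · exact le_refl _)).mp h1 g (Finset.mem_univ g)
    rw [if_pos hg, Complex.normSq_eq_zero, sub_eq_zero] at h3
    exact h3
  -- step (VII): `ϑ` vanishes on `(H ∩ K₁) \ K`
  have hvan : ∀ y ∈ H, y ∈ K₁ → y ∉ K → ϑ0 y = 0 := by
    intro y hyH hyK₁ hyK
    have h1 : ¬ ∀ g : G, g * y * g⁻¹ ∈ H := fun h => hyK (hcore y hyH h)
    rw [not_forall] at h1
    obtain ⟨g, hg⟩ := h1
    have h2 := hval (g * y * g⁻¹) (hK₁n.conj_mem y hyK₁ g)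
    rw [hϑ0not _ hg, mul_zero, hcl y g, hval y hyK₁] at h2
    exact (mul_eq_zero.mp h2).resolve_left hnC
  have hUK : ∑ g : G, (if g ∈ K₁ then ϑ0 g * conj (ϑ0 g) else 0) = (Nat.card K : ℂ) := by
    rw [← hφsum, ← qp_ind_sum K (fun g => ϑ0 g * conj (ϑ0 g))]
    apply Finset.sum_congr rfl
    intro g _
    by_cases hgK : g ∈ K
    · rw [if_pos hgK, if_pos (hMK₁ (hKM hgK))]
    · rw [if_neg hgK]
      by_cases hgK₁ : g ∈ K₁
      · rw [if_pos hgK₁]
        by_cases hgH : g ∈ H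
        · rw [hvan g hgH hgK₁ hgK, zero_mul]
        · rw [hϑ0not g hgH, zero_mul]
      · rw [if_neg hgK₁]
  have hcQK : cQ = Nat.card K := by
    rw [hU] at hUK
    exact_mod_cast hUK
  have hcard : Nat.card K₁ = Nat.card M := by rw [hcardK₁, hcQK, hcardM]
  exact (Subgroup.eq_of_le_of_card_ge hMK₁ hcard.le).symm

end Core

section Struct

variable {G : Type u} [Group G]

/-- With `G = HM`, an element of `H` all of whose `M`-conjugates lie in `H` has all its
conjugates in `H`. -/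
theorem qp_conj (H M : Subgroup G) [hMn : M.Normal] (hsup : H ⊔ M = ⊤) (x : G)
    (hx : ∀ m ∈ M, m * x * m⁻¹ ∈ H) (g : G) : g * x * g⁻¹ ∈ H := by
  have hg : g ∈ ((H ⊔ M : Subgroup G) : Set G) := by
    rw [hsup]
    exact Set.mem_univ g
  rw [Subgroup.mul_normal] at hg
  obtain ⟨h, hh, m, hm, rfl⟩ := Set.mem_mul.mp hg
  have h1 : h * m * x * (h * m)⁻¹ = h * (m * x * m⁻¹) * h⁻¹ := by group
  rw [h1]
  exact H.mul_mem (H.mul_mem hh (hx m hm)) (H.inv_mem hh)

/-- Quotients of a solvable quotient are solvable. -/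
theorem qp_solv_quot (N N' : Subgroup G) [N.Normal] [N'.Normal] (h : N ≤ N')
    (hs : Group.IsSolvable (G ⧸ N)) : Group.IsSolvable (G ⧸ N') := by
  have h' : N ≤ N'.comap (MonoidHom.id G) := h
  apply Group.isSolvable_of_surjective (f := QuotientGroup.map N N' (MonoidHom.id G) h')
  intro y
  obtain ⟨g, rfl⟩ := QuotientGroup.mk_surjective y
  exact ⟨(g : G ⧸ N), rfl⟩

/-- The relative index of a normal subgroup in a preimage. -/
theorem qp_relIndex_comap (N : Subgroup G) [N.Normal] (B : Subgroup (G ⧸ N)) :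
    N.relIndex (B.comap (QuotientGroup.mk' N)) = Nat.card B := by
  have h1 : N = (⊥ : Subgroup (G ⧸ N)).comap (QuotientGroup.mk' N) := by
    rw [MonoidHom.comap_bot, QuotientGroup.ker_mk']
  have h2 : N.relIndex (B.comap (QuotientGroup.mk' N))
      = ((⊥ : Subgroup (G ⧸ N)).comap (QuotientGroup.mk' N)).relIndex
        (B.comap (QuotientGroup.mk' N)) := by
    rw [← h1]
  rw [h2, Subgroup.relIndex_comap,
    Subgroup.map_comap_eq_self_of_surjective (QuotientGroup.mk'_surjective N),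
    Subgroup.relIndex_bot_left]

/-- The order of a subgroup containing a given one. -/
theorem qp_card_relIndex [Finite G] {A B : Subgroup G} (h : A ≤ B) :
    Nat.card A * A.relIndex B = Nat.card B := by
  have := Subgroup.relIndex_mul_relIndex ⊥ A B bot_le h
  rwa [Subgroup.relIndex_bot_left, Subgroup.relIndex_bot_left] at this

/-- The two chief factors above the core of a non-normal maximal subgroup with solvable
quotient. -/
theorem qp_struct [Finite G] (H K : Subgroup G) [hKn : K.Normal] (hmax : IsCoatom H)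
    (hK : K = H.normalCore) (hKne : K ≠ H) (hsolv : Group.IsSolvable (G ⧸ K)) :
    ∃ M K₁ : Subgroup G, M.Normal ∧ K₁.Normal ∧ K ≤ M ∧ M ≤ K₁ ∧ M ≠ K₁ ∧ H ⊔ M = ⊤ ∧
      H ⊓ M = K ∧ Nat.Coprime H.index (M.relIndex K₁) := by
  classical
  haveI := Fintype.ofFinite G
  have hKH : K ≤ H := hK ▸ Subgroup.normalCore_le H
  have hle_core : ∀ N : Subgroup G, N.Normal → N ≤ H → N ≤ K := by
    intro N hN hNH
    rw [hK]
    haveI := hN
    exact Subgroup.normal_le_normalCore.mpr hNH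
  have hKtop : K ≠ ⊤ := by
    intro h
    apply hmax.1
    apply top_le_iff.mp
    rw [← h]
    exact hKH
  haveI : Nontrivial (G ⧸ K) := by
    rw [← Finite.one_lt_card_iff_nontrivial, ← Subgroup.index_eq_card]
    have h1 : K.index ≠ 1 := fun h => hKtop (Subgroup.index_eq_one.mp h)
    have h0 : K.index ≠ 0 := Subgroup.index_ne_zero_of_finite
    omega
  obtain ⟨Mb, hMbn, hMb1, hMbmin⟩ := Helper11.exists_min_normal (G ⧸ K)
  haveI := hMbn
  haveI := hsolv
  obtain ⟨p, hp, hMbp⟩ := Helper4.isPGroup_of_min_normal Mb hMb1 hMbmin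
  have hMbab := Helper4.abelian_of_min_normal Mb hMb1 hMbmin
  obtain ⟨M, hM⟩ : ∃ M : Subgroup G, M = Mb.comap (QuotientGroup.mk' K) := ⟨_, rfl⟩
  have hMn : M.Normal := by
    rw [hM]
    exact hMbn.comap _
  haveI := hMn
  have hmemM : ∀ g : G, g ∈ M ↔ (QuotientGroup.mk' K g) ∈ Mb := by
    intro g
    rw [hM]
    exact Subgroup.mem_comap
  have hKM : K ≤ M := by
    intro k hk
    rw [hmemM]
    show ((k : G) : G ⧸ K) ∈ Mb
    rw [(QuotientGroup.eq_one_iff k).mpr hk]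
    exact Mb.one_mem
  have hMH : ¬ M ≤ H := by
    intro h
    have h1 := hle_core M hMn h
    apply hMb1
    rw [eq_bot_iff]
    intro x hx
    obtain ⟨g, rfl⟩ := QuotientGroup.mk'_surjective K x
    rw [Subgroup.mem_bot]
    exact (QuotientGroup.eq_one_iff g).mpr (h1 ((hmemM g).mpr hx))
  have hsup : H ⊔ M = ⊤ :=
    hmax.2 _ (lt_of_le_of_ne le_sup_left (fun h => hMH (le_of_le_of_eq le_sup_right h.symm)))
  have hcomm : ∀ m ∈ M, ∀ x ∈ M, m * x * m⁻¹ * x⁻¹ ∈ K := by
    intro m hm x hx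
    have h1 := hMbab _ ((hmemM m).mp hm) _ ((hmemM x).mp hx)
    rw [← QuotientGroup.eq_one_iff]
    show (QuotientGroup.mk' K) (m * x * m⁻¹ * x⁻¹) = 1
    rw [map_mul, map_mul, map_mul, map_inv, map_inv, h1]
    group
  have hinf : H ⊓ M = K := by
    apply le_antisymm
    · have hn : (H ⊓ M).Normal := by
        constructor
        intro x hx g
        refine ⟨?_, hMn.conj_mem x hx.2 g⟩
        apply qp_conj H M hsup x
        intro m hm
        have h1 := hcomm m hm x hx.2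
        have h2 : m * x * m⁻¹ = (m * x * m⁻¹ * x⁻¹) * x := by group
        rw [h2]
        exact H.mul_mem (hKH h1) hx.1
      exact hle_core _ hn inf_le_left
    · exact le_inf hKH hKM
  have hrelM : K.relIndex M = Nat.card Mb := by
    rw [hM]
    exact qp_relIndex_comap K Mb
  have hidx : H.index = Nat.card Mb := by
    have h1 := qp_card H M hsup
    rw [hinf] at h1
    have h2 := qp_card_relIndex hKM
    rw [hrelM] at h2
    have h4 : H.index * Nat.card K = Nat.card Mb * Nat.card K := by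
      rw [← h1, ← h2, mul_comm]
    exact Nat.eq_of_mul_eq_mul_right Nat.card_pos h4
  have hMtop : M ≠ ⊤ := by
    intro h
    apply hKne
    rw [← hinf, h, inf_top_eq]
  haveI : Nontrivial (G ⧸ M) := by
    rw [← Finite.one_lt_card_iff_nontrivial, ← Subgroup.index_eq_card]
    have h1 : M.index ≠ 1 := fun h => hMtop (Subgroup.index_eq_one.mp h)
    have h0 : M.index ≠ 0 := Subgroup.index_ne_zero_of_finite
    omega
  haveI hsolvM : Group.IsSolvable (G ⧸ M) := qp_solv_quot K M hKM hsolv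
  obtain ⟨Nb, hNbn, hNb1, hNbmin⟩ := Helper11.exists_min_normal (G ⧸ M)
  haveI := hNbn
  obtain ⟨q, hq, hNbq⟩ := Helper4.isPGroup_of_min_normal Nb hNb1 hNbmin
  obtain ⟨K₁, hK₁⟩ : ∃ K₁ : Subgroup G, K₁ = Nb.comap (QuotientGroup.mk' M) := ⟨_, rfl⟩
  have hK₁n : K₁.Normal := by
    rw [hK₁]
    exact hNbn.comap _
  haveI := hK₁n
  have hMK₁ : M ≤ K₁ := by
    intro m hm
    rw [hK₁, Subgroup.mem_comap]
    show ((m : G) : G ⧸ M) ∈ Nb
    rw [(QuotientGroup.eq_one_iff m).mpr hm]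
    exact Nb.one_mem
  have hrel : M.relIndex K₁ = Nat.card Nb := by
    rw [hK₁]
    exact qp_relIndex_comap M Nb
  have hNbcard : 1 < Nat.card Nb := by
    haveI : Nontrivial Nb := (Subgroup.nontrivial_iff_ne_bot Nb).mpr hNb1
    exact Finite.one_lt_card
  have hne : M ≠ K₁ := by
    intro h
    rw [← h, Subgroup.relIndex_self] at hrel
    omega
  refine ⟨M, K₁, hMn, hK₁n, hKM, hMK₁, hne, hsup, hinf, ?_⟩
  rw [hidx, hrel]
  haveI : Fact p.Prime := ⟨hp⟩
  haveI : Fact q.Prime := ⟨hq⟩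
  obtain ⟨j, hj⟩ := IsPGroup.iff_card.mp hMbp
  obtain ⟨i, hi⟩ := IsPGroup.iff_card.mp hNbq
  rw [hj, hi]
  apply Nat.Coprime.pow
  rw [Nat.coprime_primes hp hq]
  intro hpq
  subst hpq
  apply hne
  obtain ⟨Pb, hPb⟩ : ∃ Pb : Subgroup (G ⧸ K), Pb = K₁.map (QuotientGroup.mk' K) := ⟨_, rfl⟩
  have hPbn : Pb.Normal := by
    rw [hPb]
    exact hK₁n.map _ (QuotientGroup.mk'_surjective K)
  haveI := hPbn
  have hPbcard : Nat.card Pb = p ^ (j + i) := by
    have h1 : K.relIndex K₁ = Nat.card Pb := by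
      have h2 : K = (⊥ : Subgroup (G ⧸ K)).comap (QuotientGroup.mk' K) := by
        rw [MonoidHom.comap_bot, QuotientGroup.ker_mk']
      have h3 : K.relIndex K₁
          = ((⊥ : Subgroup (G ⧸ K)).comap (QuotientGroup.mk' K)).relIndex K₁ := by
        rw [← h2]
      rw [h3, Subgroup.relIndex_comap, Subgroup.relIndex_bot_left, hPb]
    have h4 := Subgroup.relIndex_mul_relIndex K M K₁ hKM hMK₁
    rw [h1, hrel, hrelM, hj, hi] at h4
    rw [← h4, pow_add]
  have hPbp : IsPGroup p Pb := IsPGroup.of_card hPbcard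
  have hMbPb : Mb ≤ Pb := by
    intro x hx
    obtain ⟨g, rfl⟩ := QuotientGroup.mk'_surjective K x
    rw [hPb]
    exact Subgroup.mem_map_of_mem _ (hMK₁ ((hmemM g).mpr hx))
  have hMb' : (Mb.subgroupOf Pb) ≠ ⊥ := by
    intro h
    apply hMb1
    rw [eq_bot_iff]
    intro x hx
    have h1 : (⟨x, hMbPb hx⟩ : Pb) ∈ Mb.subgroupOf Pb := Subgroup.mem_subgroupOf.mpr hx
    rw [h, Subgroup.mem_bot] at h1
    rw [Subgroup.mem_bot]
    exact congrArg Subtype.val h1
  obtain ⟨b, hbM, hb1, hbc⟩ := Lead.normal_inf_center_ne_bot' p hPbp (Mb.subgroupOf Pb) hMb'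
  have hZn : (Mb ⊓ Subgroup.centralizer (Pb : Set (G ⧸ K))).Normal := inferInstance
  have hZ : Mb ⊓ Subgroup.centralizer (Pb : Set (G ⧸ K)) = Mb := by
    rcases hMbmin _ hZn inf_le_left with h | h
    · exfalso
      apply hb1
      have hbZ : (b : G ⧸ K) ∈ Mb ⊓ Subgroup.centralizer (Pb : Set (G ⧸ K)) := by
        refine Subgroup.mem_inf.mpr ⟨Subgroup.mem_subgroupOf.mp hbM, ?_⟩
        rw [Subgroup.mem_centralizer_iff]
        intro y hy
        have h1 := Subgroup.mem_center_iff.mp hbc ⟨y, hy⟩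
        exact congrArg Subtype.val h1
      rw [h, Subgroup.mem_bot] at hbZ
      exact Subtype.ext hbZ
    · exact h
  have hcent : ∀ y ∈ K₁, ∀ m ∈ M, m * y * m⁻¹ * y⁻¹ ∈ K := by
    intro y hy m hm
    have h1 : (QuotientGroup.mk' K m) ∈ Subgroup.centralizer (Pb : Set (G ⧸ K)) := by
      have h0 : (QuotientGroup.mk' K m) ∈ Mb ⊓ Subgroup.centralizer (Pb : Set (G ⧸ K)) := by
        rw [hZ]
        exact (hmemM m).mp hm
      exact h0.2
    rw [Subgroup.mem_centralizer_iff] at h1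
    have h2 := h1 (QuotientGroup.mk' K y) (by
      rw [hPb]
      exact Subgroup.mem_map_of_mem _ hy)
    rw [← QuotientGroup.eq_one_iff]
    show (QuotientGroup.mk' K) (m * y * m⁻¹ * y⁻¹) = 1
    rw [map_mul, map_mul, map_mul, map_inv, map_inv, ← h2]
    group
  have hQK : H ⊓ K₁ = K := by
    apply le_antisymm
    · intro y hy
      rw [hK]
      show ∀ g : G, g * y * g⁻¹ ∈ H
      apply qp_conj H M hsup y
      intro m hm
      have h1 := hcent y hy.2 m hm
      have h2 : m * y * m⁻¹ = (m * y * m⁻¹ * y⁻¹) * y := by group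
      rw [h2]
      exact H.mul_mem (hKH h1) hy.1
    · exact le_inf hKH (hKM.trans hMK₁)
  have hsup₁ : H ⊔ K₁ = ⊤ := by
    apply top_le_iff.mp
    rw [← hsup]
    exact sup_le_sup_left hMK₁ H
  have hc1 := qp_card H K₁ hsup₁
  have hc2 := qp_card H M hsup
  rw [hQK] at hc1
  rw [hinf] at hc2
  exact Subgroup.eq_of_le_of_card_ge hMK₁ (by rw [hc1, hc2])

end Struct

section Main

variable {G : Type u} [Group G] [Fintype G]

/-- The relative quasi-primitivity lemma. -/
theorem qp_main (L H : Subgroup G) [hLn : L.Normal] (hLH : L ≤ H) (hmax : IsCoatom H)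
    (hsolv : Group.IsSolvable (G ⧸ L)) (ϑ : H → ℂ) (hϑ : IsIrrCharacter H ϑ)
    (hϑL : IsIrrCharacter L (fun x : L => ϑ ⟨(x : G), hLH x.2⟩))
    (hind : IsIrrCharacter G (indFun H ϑ)) :
    ∃ M : Subgroup G, M.Normal ∧ L ≤ M ∧ ¬ ∃ (φ : M → ℂ) (e : ℕ), IsIrrCharacter M φ ∧
      (fun m : M => indFun H ϑ m) = (e : ℂ) • φ := by
  classical
  haveI : Fintype H := Fintype.ofFinite H
  by_contra hcon
  have hall : ∀ M : Subgroup G, M.Normal → L ≤ M → ∃ (φ : M → ℂ) (e : ℕ),
      IsIrrCharacter M φ ∧ (fun m : M => indFun H ϑ m) = (e : ℂ) • φ := by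
    intro M hM hLM
    by_contra h
    exact hcon ⟨M, hM, hLM, h⟩
  by_cases hHn : H.Normal
  · -- `H` normal
    obtain ⟨φ, e, hφ, he⟩ := hall H hHn hLH
    have h1 := frobenius_reciprocity H ϑ (indFun H ϑ) (indFun_isClassFunction H ϑ)
    have h2 := classInner_irr_irr (⟨_, hind⟩ : IrrCharacter G) ⟨_, hind⟩
    rw [if_pos rfl] at h2
    simp only at h2
    rw [h2, he, classInner_smul_right, Complex.conj_natCast] at h1
    have h3 := classInner_irr_irr (⟨ϑ, hϑ⟩ : IrrCharacter H) ⟨φ, hφ⟩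
    simp only at h3
    by_cases heq : (⟨ϑ, hϑ⟩ : IrrCharacter H) = ⟨φ, hφ⟩
    · rw [if_pos heq] at h3
      rw [h3, mul_one] at h1
      have he1 : e = 1 := by exact_mod_cast h1.symm
      have hϑφ : ϑ = φ := congrArg Subtype.val heq
      have h4 := congrFun he 1
      simp only [Pi.smul_apply, smul_eq_mul, he1, Nat.cast_one, one_mul, Subgroup.coe_one] at h4
      rw [indFun_one_apply, ← hϑφ] at h4
      have hϑ1 : ϑ 1 ≠ 0 := irr_one_ne_zero (⟨ϑ, hϑ⟩ : IrrCharacter H)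
      have h5 : (H.index : ℂ) = 1 := by
        have h6 : (H.index : ℂ) * ϑ 1 = 1 * ϑ 1 := by rw [h4, one_mul]
        exact mul_right_cancel₀ hϑ1 h6
      have h7 : H.index = 1 := by exact_mod_cast h5
      exact hmax.1 (Subgroup.index_eq_one.mp h7)
    · rw [if_neg heq] at h3
      rw [h3, mul_zero] at h1
      exact one_ne_zero h1
  · -- `H` not normal
    obtain ⟨K, hK⟩ : ∃ K : Subgroup G, K = H.normalCore := ⟨_, rfl⟩
    haveI hKn : K.Normal := by
      rw [hK]
      infer_instance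
    have hKH : K ≤ H := hK ▸ Subgroup.normalCore_le H
    have hLK : L ≤ K := by
      rw [hK]
      exact Subgroup.normal_le_normalCore.mpr hLH
    have hKne : K ≠ H := by
      intro h
      exact hHn (h ▸ hKn)
    haveI : Fintype K := Fintype.ofFinite K
    haveI : Fintype (L.subgroupOf K) := Fintype.ofFinite _
    have hφ : IsIrrCharacter K (fun k : K => ϑ ⟨(k : G), hKH k.2⟩) := by
      have hchar : IsCharacter K (fun k : K => ϑ ⟨(k : G), hKH k.2⟩) :=
        isCharacter_comp (Subgroup.inclusion hKH) (isCharacter_of_isIrrCharacter hϑ)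
      apply qp_irr_restrict (L.subgroupOf K) _ hchar
      obtain ⟨iso, hiso⟩ : ∃ iso : (L.subgroupOf K) ≃* L, ∀ x : L.subgroupOf K,
          ((iso x : L) : G) = ((x : K) : G) :=
        ⟨Subgroup.subgroupOfEquivOfLe hLK, fun x => rfl⟩
      have h1 := isIrrCharacter_comp_of_surjective iso.toMonoidHom iso.surjective hϑL
      have h2 : (fun x : L.subgroupOf K =>
            (fun x : L => ϑ ⟨(x : G), hLH x.2⟩) (iso.toMonoidHom x))
          = (fun k : L.subgroupOf K => (fun k : K => ϑ ⟨(k : G), hKH k.2⟩) k) := by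
        funext x
        show ϑ ⟨((iso x : L) : G), _⟩ = ϑ ⟨((x : K) : G), _⟩
        congr 1
        exact Subtype.ext (hiso x)
      rw [← h2]
      exact h1
    obtain ⟨M, K₁, hMn, hK₁n, hKM, hMK₁, hne, hsup, hinf, hcop⟩ :=
      qp_struct H K hmax hK hKne (qp_solv_quot L K hLK hsolv)
    haveI := hMn
    haveI := hK₁n
    have hcore : ∀ y ∈ H, (∀ g : G, g * y * g⁻¹ ∈ H) → y ∈ K := by
      intro y _ h
      rw [hK]
      exact h
    have hfin := qp_core H K M K₁ hKH hcore hKM hMK₁ hsup hinf hcop ϑ hϑ hφ hind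
      (hall K hKn hLK) (hall M hMn (hLK.trans hKM)) (hall K₁ hK₁n (hLK.trans (hKM.trans hMK₁)))
    exact hne hfin.symm

end Main

end Cfsg.Agent.Helper25
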