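import Mathlib
import Cfsg.Prelude.Def_Characters
import Cfsg.Agent.Helper25.CharArith
import Cfsg.Agent.Helper25.CharMore
import Cfsg.Agent.Helper25.CharBasic
import Cfsg.Agent.Helper11.GalConj
import Cfsg.Agent.Helper11.CentralTI
import Cfsg.Agent.Helper2.CharExtra
import Cfsg.Agent.Helper1.CharBasic

/-!
# Schur's bound for the Sylow exponent of a group with a faithful `p`-rational character (helper25)

Lemmas for S4488: if `χ` is a faithful character of degree `n` of the finite group `G` whose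
values lie in a cyclotomic field of conductor prime to `p`, then the exponent of `p` in `|G|` is
at most `∑ i, n / ((p - 1) p ^ i)`.
-/

set_option autoImplicit false

namespace Cfsg.Agent.Helper25

universe u

/-- A ring automorphism of the complex numbers fixing `z` fixes the field generated by `z`. -/
theorem sb_fix_adjoin (τ : ℂ ≃+* ℂ) (z : ℂ) (hz : τ z = z) (w : ℂ)
    (hw : w ∈ IntermediateField.adjoin ℚ ({z} : Set ℂ)) : τ w = w := by
  induction hw using IntermediateField.adjoin_induction with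
  | mem x hx => rw [Set.mem_singleton_iff] at hx; rw [hx, hz]
  | algebraMap q => simp
  | add x y _ _ hx hy => rw [map_add, hx, hy]
  | inv x _ hx => rw [map_inv₀, hx]
  | mul x y _ _ hx hy => rw [map_mul, hx, hy]

/-- Values of a `p`-rational character at `p`-elements are unchanged by prime-to-`p` powers. -/
theorem sb_gal {G : Type u} [Group G] [Finite G] (p : ℕ) (hp : p.Prime) (χ : G → ℂ)
    (hχ : IsCharacter G χ) (r : ℕ) (hr : 0 < r) (hpr : ¬ p ∣ r)
    (hrat : ∀ g : G, χ g ∈ IntermediateField.adjoin ℚ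
      ({Complex.exp (2 * Real.pi * Complex.I / r)} : Set ℂ))
    (x : G) (j : ℕ) (hx : x ^ (p ^ j) = 1) (k : ℕ) (hk : Nat.Coprime k p) :
    χ (x ^ k) = χ x := by
  classical
  have hN0 : Nat.card G ≠ 0 := Nat.card_pos.ne'
  obtain ⟨a, ha⟩ : ∃ a, a = (Nat.card G).factorization p := ⟨_, rfl⟩
  obtain ⟨N₁, hN₁⟩ : ∃ N₁, N₁ = Nat.card G / p ^ a := ⟨_, rfl⟩
  have hNeq : p ^ a * N₁ = Nat.card G := by
    rw [hN₁, ha]; exact Nat.ordProj_mul_ordCompl_eq_self (Nat.card G) p
  have hcop1 : Nat.Coprime p N₁ := by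
    rw [hN₁, ha]; exact Nat.coprime_ordCompl hp hN0
  have hcopr : Nat.Coprime p r := (Nat.Prime.coprime_iff_not_dvd hp).2 hpr
  have hcop : Nat.Coprime (p ^ (j + 1)) (r * N₁) :=
    Nat.Coprime.pow_left _ (Nat.Coprime.mul_right hcopr hcop1)
  obtain ⟨m, hm1, hm2⟩ := Nat.chineseRemainder hcop k 1
  have hmp : Nat.Coprime m p := by
    have h1 : m ≡ k [MOD p] := Nat.ModEq.of_dvd (dvd_pow_self p (Nat.succ_ne_zero j)) hm1
    have h2 := h1.gcd_eq
    rw [Nat.Coprime, h2]; exact hk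
  have hmr : Nat.Coprime m (r * N₁) := by
    have h2 := hm2.gcd_eq
    rw [Nat.Coprime, h2]; simp
  have hmM : Nat.Coprime m (p ^ a * (r * N₁)) :=
    Nat.Coprime.mul_right (Nat.Coprime.pow_right a hmp) hmr
  have hMpos : 0 < p ^ a * (r * N₁) := by
    have h1 : 0 < N₁ := Nat.pos_of_ne_zero (by
      rintro h; rw [h, mul_zero] at hNeq; exact hN0 hNeq.symm)
    have h2 : 0 < p := hp.pos
    positivity
  obtain ⟨τ, hτ⟩ := Cfsg.Agent.Helper11.exists_aut_pow (p ^ a * (r * N₁)) hMpos m hmM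
  have hxm : x ^ m = x ^ k := by
    have h1 : m ≡ k [MOD p ^ j] := Nat.ModEq.of_dvd (pow_dvd_pow p (Nat.le_succ j)) hm1
    have h2 : orderOf x ∣ p ^ j := orderOf_dvd_of_pow_eq_one hx
    exact pow_eq_pow_iff_modEq.2 (Nat.ModEq.of_dvd h2 h1)
  have h1 : τ (χ x) = χ (x ^ m) := by
    obtain ⟨d, ρ, rfl⟩ := hχ
    obtain ⟨b, μ, hμ, -, hb, -, hc, -⟩ := Cfsg.Agent.Helper1.exists_eigenbasis ρ x
    have hb' : ∀ i, ρ (x ^ m) (b i) = (μ i) ^ m • b i := by
      intro i
      rw [map_pow]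
      exact Cfsg.Agent.Helper1.pow_apply_of_apply_eq_smul (ρ x) (b i) (μ i) (hb i) m
    have hc' : ρ.character (x ^ m) = ∑ i, (μ i) ^ m :=
      Cfsg.Agent.Helper1.trace_eq_sum_of_eigenbasis b (ρ (x ^ m)) (fun i => (μ i) ^ m) hb'
    rw [hc', hc, map_sum]
    refine Finset.sum_congr rfl (fun i _ => hτ (μ i) ?_)
    have h3 : Nat.card G ∣ p ^ a * (r * N₁) := ⟨r, by rw [← hNeq]; ring⟩
    obtain ⟨e, he⟩ := h3
    rw [he, pow_mul, hμ i, one_pow]
  have h2 : τ (χ x) = χ x := by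
    apply sb_fix_adjoin τ _ _ (χ x) (hrat x)
    obtain ⟨ζ, hζ⟩ : ∃ ζ : ℂ, ζ = Complex.exp (2 * Real.pi * Complex.I / r) := ⟨_, rfl⟩
    rw [← hζ]
    have hζr : ζ ^ r = 1 := by
      rw [hζ, ← Complex.exp_nat_mul]
      have hr0 : (r : ℂ) ≠ 0 := by exact_mod_cast hr.ne'
      have : (r : ℂ) * (2 * Real.pi * Complex.I / r) = 2 * Real.pi * Complex.I := by
        field_simp
      rw [this]; exact Complex.exp_two_pi_mul_I
    have hζM : ζ ^ (p ^ a * (r * N₁)) = 1 := by
      have h3 : r ∣ p ^ a * (r * N₁) := ⟨p ^ a * N₁, by ring⟩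
      obtain ⟨e, he⟩ := h3
      rw [he, pow_mul, hζr, one_pow]
    rw [hτ ζ hζM]
    have h4 : m % r = 1 % r := Nat.ModEq.of_dvd (dvd_mul_right r N₁) hm2
    have h5 : ζ ^ m = ζ ^ (m % r) := by
      conv_lhs => rw [← Nat.div_add_mod m r, pow_add, pow_mul, hζr, one_pow, one_mul]
    have h6 : ζ ^ 1 = ζ ^ (1 % r) := by
      conv_lhs => rw [← Nat.div_add_mod 1 r, pow_add, pow_mul, hζr, one_pow, one_mul]
    rw [h5, h4, ← h6, pow_one]
  rw [← hxm, ← h1, h2]

/-- The sum of a character over (the elements of) a subgroup is the order of the subgroup times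
a natural number. -/
theorem sb_filter_sum {G : Type u} [Group G] [Fintype G] [DecidableEq G] {ψ : G → ℂ}
    (hψ : IsCharacter G ψ) (H : Subgroup G) [DecidablePred (· ∈ H)] :
    ∃ m : ℕ, ∑ g ∈ Finset.univ.filter (· ∈ H), ψ g = (Nat.card H : ℂ) * (m : ℂ) := by
  obtain ⟨m, hm⟩ := char_sum_subgroup hψ H
  refine ⟨m, ?_⟩
  rw [← hm]
  exact Finset.sum_subtype (Finset.univ.filter (· ∈ H)) (by simp) ψ

/-- The number of elements of a cyclic subgroup, as a filter. -/
theorem sb_card_filter {G : Type u} [Group G] [Fintype G] [DecidableEq G] (x : G)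
    [DecidablePred (· ∈ Subgroup.zpowers x)] :
    (Finset.univ.filter (· ∈ Subgroup.zpowers x)).card = orderOf x := by
  rw [← Fintype.card_subtype, ← Nat.card_eq_fintype_card, Nat.card_zpowers]

/-- Splitting a sum over a cyclic group of order `p ^ (j + 1)` into the sum over the subgroup of
index `p` and the sum over the generators, for a function constant on the generators. -/
theorem sb_cyc {G : Type u} [Group G] [Fintype G] [DecidableEq G] (p : ℕ) (hp : p.Prime) (x : G)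
    (j : ℕ) (hx : orderOf x = p ^ (j + 1)) (F : G → ℂ)
    (hF : ∀ k : ℕ, Nat.Coprime k p → F (x ^ k) = F x) :
    ∑ g ∈ Finset.univ.filter (· ∈ Subgroup.zpowers x), F g
      = ∑ g ∈ Finset.univ.filter (· ∈ Subgroup.zpowers (x ^ p)), F g
        + ((p : ℂ) ^ (j + 1) - (p : ℂ) ^ j) * F x := by
  classical
  have hsub : Finset.univ.filter (· ∈ Subgroup.zpowers (x ^ p))
      ⊆ Finset.univ.filter (· ∈ Subgroup.zpowers x) := by
    intro g hg
    rw [Finset.mem_filter] at hg ⊢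
    refine ⟨Finset.mem_univ _, ?_⟩
    exact (Subgroup.zpowers_le.2 (Subgroup.pow_mem _ (Subgroup.mem_zpowers x) p)) hg.2
  have hox : orderOf (x ^ p) = p ^ j := by
    rw [orderOf_pow_of_dvd hp.ne_zero (by rw [hx]; exact dvd_pow_self p (Nat.succ_ne_zero j)),
      hx, pow_succ, Nat.mul_div_cancel _ hp.pos]
  have h1 : ∀ g ∈ Finset.univ.filter (· ∈ Subgroup.zpowers x)
      \ Finset.univ.filter (· ∈ Subgroup.zpowers (x ^ p)), F g = F x := by
    intro g hg
    rw [Finset.mem_sdiff, Finset.mem_filter, Finset.mem_filter] at hg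
    obtain ⟨⟨-, h1⟩, h2⟩ := hg
    have h2' : g ∉ Subgroup.zpowers (x ^ p) := fun h => h2 ⟨Finset.mem_univ _, h⟩
    rw [← mem_powers_iff_mem_zpowers] at h1
    obtain ⟨k, rfl⟩ := (Submonoid.mem_powers_iff _ _).1 h1
    apply hF
    rw [Nat.coprime_comm, Nat.Prime.coprime_iff_not_dvd hp]
    rintro ⟨e, rfl⟩
    apply h2'
    rw [pow_mul]
    exact Subgroup.pow_mem _ (Subgroup.mem_zpowers _) e
  have h2 : ∑ g ∈ Finset.univ.filter (· ∈ Subgroup.zpowers x)
      \ Finset.univ.filter (· ∈ Subgroup.zpowers (x ^ p)), F g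
      = ((p : ℂ) ^ (j + 1) - (p : ℂ) ^ j) * F x := by
    rw [Finset.sum_congr rfl h1, Finset.sum_const, Finset.card_sdiff_of_subset hsub,
      sb_card_filter, sb_card_filter, hx, hox, nsmul_eq_mul,
      Nat.cast_sub (Nat.pow_le_pow_right hp.pos (Nat.le_add_right j 1))]
    push_cast; ring
  rw [← Finset.sum_sdiff hsub, h2]; ring

/-- Sums of products `ψ · ∏ (χ - c k)` over a subgroup are integer multiples of its order. -/
theorem sb_prod_sum {G : Type u} [Group G] {χ : G → ℂ} (hχ : IsCharacter G χ)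
    (P : Subgroup G) [Fintype P] (c : ℕ → ℤ) (s : Finset ℕ) :
    ∀ ψ : G → ℂ, IsCharacter G ψ →
      ∃ M : ℤ, ∑ u : P, ψ (u : G) * ∏ k ∈ s, (χ (u : G) - (c k : ℂ))
        = (Nat.card P : ℂ) * (M : ℂ) := by
  classical
  induction s using Finset.induction_on with
  | empty =>
    intro ψ hψ
    obtain ⟨m, hm⟩ := char_sum_subgroup hψ P
    refine ⟨m, ?_⟩
    simp only [Finset.prod_empty, mul_one]
    rw [hm]; simp
  | insert k s hk ih =>
    intro ψ hψ
    obtain ⟨M1, hM1⟩ := ih (ψ * χ) (Cfsg.Agent.Helper2.isCharacter_mul hψ hχ)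
    obtain ⟨M2, hM2⟩ := ih ψ hψ
    refine ⟨M1 - c k * M2, ?_⟩
    have h1 : ∀ u : P, ψ (u : G) * ∏ i ∈ insert k s, (χ (u : G) - (c i : ℂ))
        = (ψ * χ) (u : G) * ∏ i ∈ s, (χ (u : G) - (c i : ℂ))
          - (c k : ℂ) * (ψ (u : G) * ∏ i ∈ s, (χ (u : G) - (c i : ℂ))) := by
      intro u
      rw [Finset.prod_insert hk, Pi.mul_apply]; ring
    rw [Finset.sum_congr rfl (fun u _ => h1 u), Finset.sum_sub_distrib, ← Finset.mul_sum,
      hM1, hM2]
    push_cast; ring

/-- Values of a character at `p`-elements, when invariant under prime-to-`p` powers, are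
integers congruent to the degree modulo `p` and bounded below by `-n / (p - 1)`. -/
theorem sb_int {G : Type u} [Group G] [Fintype G] [DecidableEq G] (p : ℕ) (hp : p.Prime)
    (χ : G → ℂ) (hχ : IsCharacter G χ) (n : ℕ) (hn : χ 1 = (n : ℂ))
    (hR : ∀ (x : G) (j : ℕ), x ^ (p ^ j) = 1 → ∀ k : ℕ, Nat.Coprime k p → χ (x ^ k) = χ x) :
    ∀ (j : ℕ) (x : G), orderOf x = p ^ j →
      ∃ c : ℤ, χ x = (c : ℂ) ∧ (p : ℤ) ∣ ((n : ℤ) - c) ∧ -(n : ℤ) ≤ ((p : ℤ) - 1) * c := by
  classical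
  intro j
  induction j using Nat.strong_induction_on with
  | _ j ih =>
  intro x hx
  rcases Nat.eq_zero_or_pos j with hj | hj
  · subst hj
    rw [pow_zero, orderOf_eq_one_iff] at hx
    subst hx
    refine ⟨n, by rw [hn]; simp, by simp, ?_⟩
    have h1 : (1 : ℤ) ≤ p := by exact_mod_cast hp.one_lt.le
    have h2 : (0 : ℤ) ≤ n := by positivity
    nlinarith
  obtain ⟨j', rfl⟩ : ∃ j', j = j' + 1 := ⟨j - 1, by omega⟩
  have hp0 : (p : ℂ) ≠ 0 := by exact_mod_cast hp.ne_zero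
  have hp1 : (p : ℂ) - 1 ≠ 0 := by
    have : (p : ℂ) ≠ 1 := by exact_mod_cast hp.one_lt.ne'
    exact sub_ne_zero.2 this
  have hpj : ((p : ℂ)) ^ j' ≠ 0 := pow_ne_zero _ hp0
  have hox : orderOf (x ^ p) = p ^ j' := by
    rw [orderOf_pow_of_dvd hp.ne_zero (by rw [hx]; exact dvd_pow_self p (Nat.succ_ne_zero j')),
      hx, pow_succ, Nat.mul_div_cancel _ hp.pos]
  have hxp : x ^ (p ^ (j' + 1)) = 1 := by rw [← hx]; exact pow_orderOf_eq_one x
  obtain ⟨m, hm⟩ := sb_filter_sum hχ (Subgroup.zpowers x)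
  obtain ⟨m', hm'⟩ := sb_filter_sum hχ (Subgroup.zpowers (x ^ p))
  rw [Nat.card_zpowers, hx] at hm
  rw [Nat.card_zpowers, hox] at hm'
  have hcyc := sb_cyc p hp x j' hx χ (fun k hk => hR x (j' + 1) hxp k hk)
  rw [hm, hm'] at hcyc
  have h1 : ((p : ℂ) - 1) * χ x = (p : ℂ) * m - m' := by
    apply mul_left_cancel₀ hpj
    push_cast at hcyc
    linear_combination (-1 : ℂ) * hcyc
  obtain ⟨c, hc⟩ := Cfsg.Agent.Helper11.int_of_rat_isIntegral (χ x) (char_isIntegral hχ x)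
    (((p : ℚ) * m - m') / ((p : ℚ) - 1)) (by
      push_cast
      rw [eq_div_iff hp1]
      linear_combination h1)
  have h2 : ((p : ℤ) - 1) * c = (p : ℤ) * m - m' := by
    have : ((((p : ℤ) - 1) * c : ℤ) : ℂ) = (((p : ℤ) * m - m' : ℤ) : ℂ) := by
      push_cast
      rw [← hc]; exact h1
    exact_mod_cast this
  have hm'n : m' ≤ n := by
    have h3 : ‖∑ g ∈ Finset.univ.filter (· ∈ Subgroup.zpowers (x ^ p)), χ g‖
        ≤ ∑ g ∈ Finset.univ.filter (· ∈ Subgroup.zpowers (x ^ p)), (n : ℝ) := by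
      refine (norm_sum_le _ _).trans (Finset.sum_le_sum (fun g _ => ?_))
      have h4 := char_norm_le hχ g
      rw [hn] at h4
      simpa using h4
    rw [hm', Finset.sum_const, nsmul_eq_mul, sb_card_filter, hox] at h3
    have h4 : ‖((p ^ j' : ℕ) : ℂ) * (m' : ℂ)‖ = ((p ^ j' : ℕ) : ℝ) * (m' : ℝ) := by
      rw [norm_mul, Complex.norm_natCast, Complex.norm_natCast]
    rw [h4] at h3
    have h5 : (0 : ℝ) < ((p ^ j' : ℕ) : ℝ) := by exact_mod_cast pow_pos hp.pos j'
    have h6 : (m' : ℝ) ≤ n := le_of_mul_le_mul_left h3 h5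
    exact_mod_cast h6
  refine ⟨c, hc, ?_, ?_⟩
  · obtain ⟨t, ht⟩ : ∃ t, t = p ^ j' := ⟨_, rfl⟩
    have hψ : IsCharacter G (χ ^ t) := Cfsg.Agent.Helper2.isCharacter_pow hχ t
    obtain ⟨M, hM⟩ := sb_filter_sum hψ (Subgroup.zpowers x)
    rw [Nat.card_zpowers, hx] at hM
    have hcyc2 := sb_cyc p hp x j' hx (χ ^ t) (fun k hk => by
      rw [Pi.pow_apply, Pi.pow_apply, hR x (j' + 1) hxp k hk])
    rw [hM] at hcyc2
    have hS' : ∀ g : G, ∃ e : ℤ, g ∈ Subgroup.zpowers (x ^ p) →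
        (χ ^ t) g = ((n : ℂ) ^ t - (p : ℂ) ^ (j' + 1) * e) := by
      intro g
      by_cases hg : g ∈ Subgroup.zpowers (x ^ p)
      · have h3 : orderOf g ∣ p ^ j' := by
          rw [← hox]; exact orderOf_dvd_of_mem_zpowers hg
        obtain ⟨i, hi, hgi⟩ := (Nat.dvd_prime_pow hp).1 h3
        obtain ⟨cg, hcg, hdvd, -⟩ := ih i (by omega) g hgi
        have h4 : ((p : ℤ) ^ (j' + 1)) ∣ (n : ℤ) ^ p ^ j' - cg ^ p ^ j' :=
          dvd_sub_pow_of_dvd_sub (R := ℤ) (p := p) hdvd j'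
        obtain ⟨e, he⟩ := h4
        refine ⟨e, fun _ => ?_⟩
        rw [Pi.pow_apply, hcg, ht]
        have h5 : ((cg : ℂ)) ^ p ^ j'
            = (((n : ℤ) ^ p ^ j' - (p : ℤ) ^ (j' + 1) * e : ℤ) : ℂ) := by
          rw [← he]; push_cast; ring
        rw [h5]; push_cast; ring
      · exact ⟨0, fun h => absurd h hg⟩
    choose e he using hS'
    obtain ⟨E, hE⟩ : ∃ E : ℤ,
        E = ∑ g ∈ Finset.univ.filter (· ∈ Subgroup.zpowers (x ^ p)), e g := ⟨_, rfl⟩
    have hsum : ∑ g ∈ Finset.univ.filter (· ∈ Subgroup.zpowers (x ^ p)), (χ ^ t) g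
        = (p : ℂ) ^ j' * (n : ℂ) ^ t - (p : ℂ) ^ (j' + 1) * (E : ℂ) := by
      rw [Finset.sum_congr rfl (fun g hg => he g (Finset.mem_filter.1 hg).2),
        Finset.sum_sub_distrib, Finset.sum_const, ← Finset.mul_sum, nsmul_eq_mul,
        sb_card_filter, hox, hE]
      push_cast; ring
    rw [hsum, Pi.pow_apply, hc] at hcyc2
    have h5 : ((n : ℤ) ^ t - c ^ t) = (p : ℤ) * ((M : ℤ) + E - c ^ t) := by
      have h6 : (((n : ℤ) ^ t - c ^ t : ℤ) : ℂ)
          = (((p : ℤ) * ((M : ℤ) + E - c ^ t) : ℤ) : ℂ) := by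
        push_cast
        apply mul_left_cancel₀ hpj
        push_cast at hcyc2
        linear_combination (-1 : ℂ) * hcyc2
      exact_mod_cast h6
    haveI : Fact p.Prime := ⟨hp⟩
    have h6 : ((n : ℤ) : ZMod p) ^ t = ((c : ℤ) : ZMod p) ^ t := by
      have h7 : (((n : ℤ) ^ t - c ^ t : ℤ) : ZMod p) = 0 := by
        rw [h5]; push_cast; simp
      push_cast at h7
      have h8 := sub_eq_zero.1 h7
      push_cast
      exact h8
    rw [ht, ZMod.pow_card_pow, ZMod.pow_card_pow] at h6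
    have h7 := (ZMod.intCast_eq_intCast_iff_dvd_sub _ _ _).1 h6.symm
    exact h7
  · rw [h2]
    have h3 : (0 : ℤ) ≤ (p : ℤ) * m := by positivity
    have h4 : (m' : ℤ) ≤ n := by exact_mod_cast hm'n
    linarith

/-- Schur's bound: a finite group with a faithful `p`-rational character of degree `n` has
Sylow `p`-subgroups of order at most `p ^ ∑ i, n / ((p - 1) p ^ i)`. -/
theorem sb_main {G : Type u} [Group G] [Finite G] (p : ℕ) (hp : p.Prime) (χ : G → ℂ)
    (hχ : IsCharacter G χ) (hfaith : ∀ g : G, χ g = χ 1 → g = 1)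
    (hrat : ∃ r : ℕ, 0 < r ∧ ¬ p ∣ r ∧ ∀ g : G, χ g ∈ IntermediateField.adjoin ℚ
      ({Complex.exp (2 * Real.pi * Complex.I / r)} : Set ℂ))
    (n : ℕ) (hn : charDegree χ = n) :
    (Nat.card G).factorization p ≤ ∑ i ∈ Finset.range (n + 1), n / ((p - 1) * p ^ i) := by
  classical
  have := Fintype.ofFinite G
  haveI : Fact p.Prime := ⟨hp⟩
  obtain ⟨r, hr, hpr, hrat⟩ := hrat
  have hn1 : χ 1 = (n : ℂ) := by rw [char_one_eq_degree hχ, hn]
  have hR := sb_gal p hp χ hχ r hr hpr hrat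
  have hint := sb_int p hp χ hχ n hn1 hR
  obtain ⟨K, hK⟩ : ∃ K, K = n / (p - 1) := ⟨_, rfl⟩
  obtain ⟨P⟩ : Nonempty (Sylow p G) := inferInstance
  obtain ⟨a, ha⟩ : ∃ a, a = (Nat.card G).factorization p := ⟨_, rfl⟩
  have hPcard : Nat.card (P : Subgroup G) = p ^ a := by
    rw [ha]; exact Sylow.card_eq_multiplicity P
  have hp0 : (0 : ℤ) < p := by exact_mod_cast hp.pos
  have hp1 : (1 : ℤ) ≤ p := by exact_mod_cast hp.one_lt.le
  have hzero : ∀ u : (P : Subgroup G), u ≠ 1 →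
      ∏ k ∈ Finset.range K, (χ (u : G) - (((n : ℤ) - p * (k + 1) : ℤ) : ℂ)) = 0 := by
    intro u hu
    have h1 : orderOf (u : G) ∣ p ^ a := by
      rw [← hPcard]
      exact Subgroup.orderOf_dvd_natCard _ u.2
    obtain ⟨i, -, hi⟩ := (Nat.dvd_prime_pow hp).1 h1
    obtain ⟨c, hc, hdvd, hlow⟩ := hint i (u : G) hi
    obtain ⟨k, hk⟩ := hdvd
    have hcn : c ≤ n := by
      have h2 := char_norm_le hχ (u : G)
      rw [hn1, hc, Complex.norm_intCast, Complex.norm_natCast] at h2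
      have h3 : (c : ℝ) ≤ n := (le_abs_self _).trans h2
      exact_mod_cast h3
    have hcne : c ≠ n := by
      intro h
      apply hu
      have h2 : (u : G) = 1 := hfaith _ (by rw [hc, hn1, h]; simp)
      exact Subtype.ext h2
    have hceq : c = n - p * k := by linarith
    have hk1 : 1 ≤ k := by
      by_contra hcon
      have h2 : k ≤ 0 := by omega
      have h3 : c < n := lt_of_le_of_ne hcn hcne
      nlinarith
    have h4 : ((p : ℤ) - 1) * k ≤ n := by
      rw [hceq] at hlow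
      by_contra hcon
      rw [not_le] at hcon
      nlinarith
    obtain ⟨k', rfl⟩ := Int.eq_ofNat_of_zero_le (by omega : 0 ≤ k)
    have hk1' : 1 ≤ k' := by exact_mod_cast hk1
    have hkK : k' ≤ K := by
      have h5 : (p - 1) * k' ≤ n := by
        have h6 : (((p - 1 : ℕ) : ℤ)) = (p : ℤ) - 1 := by
          rw [Nat.cast_sub hp.one_lt.le]; simp
        zify; rw [h6]; exact h4
      rw [hK, Nat.le_div_iff_mul_le (by have := hp.one_lt; omega), mul_comm]
      exact h5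
    apply Finset.prod_eq_zero (i := k' - 1)
    · rw [Finset.mem_range]; omega
    · rw [hc]
      have h5 : (((n : ℤ) - p * (((k' - 1 : ℕ) : ℤ) + 1) : ℤ)) = c := by
        rw [Nat.cast_sub hk1']; push_cast; linarith
      have h6 : ((((n : ℤ) - p * (((k' - 1 : ℕ) : ℤ) + 1) : ℤ)) : ℂ) = (c : ℂ) := by
        rw [h5]
      rw [h6]; simp
  obtain ⟨M, hM⟩ := sb_prod_sum hχ (P : Subgroup G) (fun k => (n : ℤ) - p * (k + 1))
    (Finset.range K) (fun _ => 1) Cfsg.Agent.Helper2.isCharacter_one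
  simp only [one_mul] at hM
  rw [Finset.sum_eq_single (1 : (P : Subgroup G)) (fun u _ hu => hzero u hu)
    (fun h => absurd (Finset.mem_univ _) h)] at hM
  have hval : ∏ k ∈ Finset.range K,
      (χ ((1 : (P : Subgroup G)) : G) - (((n : ℤ) - p * (k + 1) : ℤ) : ℂ))
      = ((p ^ K * K.factorial : ℕ) : ℂ) := by
    rw [OneMemClass.coe_one, hn1]
    have h1 : ∀ k ∈ Finset.range K, ((n : ℂ) - (((n : ℤ) - p * (k + 1) : ℤ) : ℂ))
        = (p : ℂ) * ((k + 1 : ℕ) : ℂ) := by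
      intro k _; push_cast; ring
    rw [Finset.prod_congr rfl h1, Finset.prod_mul_distrib, Finset.prod_const, Finset.card_range,
      ← Nat.cast_prod, Finset.prod_range_add_one_eq_factorial]
    push_cast; ring
  rw [hval, hPcard] at hM
  have hdvd : p ^ a ∣ p ^ K * K.factorial := by
    have h1 : ((p ^ K * K.factorial : ℕ) : ℤ) = ((p ^ a : ℕ) : ℤ) * M := by exact_mod_cast hM
    exact Int.natCast_dvd_natCast.1 ⟨M, h1⟩
  have hne : p ^ K * K.factorial ≠ 0 :=
    mul_ne_zero (pow_ne_zero _ hp.ne_zero) (Nat.factorial_ne_zero K)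
  have hle : a ≤ K + padicValNat p K.factorial := by
    have h1 := (padicValNat_dvd_iff_le hne).1 hdvd
    rw [padicValNat.mul (pow_ne_zero _ hp.ne_zero) (Nat.factorial_ne_zero K),
      padicValNat.prime_pow] at h1
    exact h1
  have hleg : padicValNat p K.factorial = ∑ i ∈ Finset.Ico 1 (n + 1), K / p ^ i := by
    apply padicValNat_factorial
    have h1 : Nat.log p K ≤ K := Nat.log_le_self p K
    have h2 : K ≤ n := by rw [hK]; exact Nat.div_le_self n (p - 1)
    omega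
  have hsum : ∑ i ∈ Finset.range (n + 1), n / ((p - 1) * p ^ i)
      = K + ∑ i ∈ Finset.Ico 1 (n + 1), K / p ^ i := by
    rw [Finset.range_eq_Ico, Finset.sum_eq_sum_Ico_succ_bot (Nat.succ_pos n)]
    simp only [pow_zero, mul_one]
    rw [hK]
    congr 1
    refine Finset.sum_congr rfl (fun i _ => ?_)
    rw [Nat.div_div_eq_div_mul]
  rw [hsum, ← hleg, ← ha]
  exact hle

end Cfsg.Agent.Helper25
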