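import Mathlib
import Cfsg.Prelude.Def_Characters
import Cfsg.Agent.Helper25.CharArith
import Cfsg.Agent.Helper25.CharMore
import Cfsg.Agent.Helper25.CharBasic
import Cfsg.Agent.Helper25.CharKer
import Cfsg.Agent.Helper25.CharClass
import Cfsg.Agent.Helper11.GalConj
import Cfsg.Agent.Helper2.CharExtra
import Cfsg.Agent.Helper2.ChiefFactor
import Cfsg.Agent.Helper1.CharBasic

/-!
# Schur's bound for `p`-groups with a faithful irreducible character over a given field (helper25)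

Lemmas for S4489: if `χ` is a faithful irreducible character of degree `f` of a group of order
`p ^ a` and `[ℚ(χ) : ℚ] = (p - 1) p ^ t`, then `(p - 1) a ≤ (f - 1) + (p - 1) (t + 1) f`.

The proof is by induction along maximal subgroups, measuring the field of values by the
stabilizer of the character in the group of units of `ZMod (p ^ A)` acting through power maps.
-/

set_option autoImplicit false

namespace Cfsg.Agent.Helper25

universe u

open scoped ComplexConjugate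

theorem sf_pow_mul {H : Type u} [Group H] (n : ℕ) (hexp : ∀ g : H, g ^ n = 1)
    (u v : (ZMod n)ˣ) (g : H) :
    g ^ ((u * v : (ZMod n)ˣ) : ZMod n).val = (g ^ (u : ZMod n).val) ^ (v : ZMod n).val := by
  rw [Units.val_mul, ZMod.val_mul, ← pow_mul]
  exact (pow_eq_pow_mod _ (hexp g)).symm

theorem sf_pow_one {H : Type u} [Group H] (n : ℕ) (hexp : ∀ g : H, g ^ n = 1) (g : H) :
    g ^ ((1 : (ZMod n)ˣ) : ZMod n).val = g := by
  rw [Units.val_one, ZMod.val_one_eq_one_mod, ← pow_eq_pow_mod 1 (hexp g), pow_one]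

theorem sf_pow_inv {H : Type u} [Group H] (n : ℕ) (hexp : ∀ g : H, g ^ n = 1)
    (u : (ZMod n)ˣ) (g : H) :
    (g ^ ((u⁻¹ : (ZMod n)ˣ) : ZMod n).val) ^ (u : ZMod n).val = g := by
  rw [← sf_pow_mul n hexp, inv_mul_cancel, sf_pow_one n hexp]

theorem sf_pow_inv' {H : Type u} [Group H] (n : ℕ) (hexp : ∀ g : H, g ^ n = 1)
    (u : (ZMod n)ˣ) (g : H) :
    (g ^ (u : ZMod n).val) ^ ((u⁻¹ : (ZMod n)ˣ) : ZMod n).val = g := by
  rw [← sf_pow_mul n hexp, mul_inv_cancel, sf_pow_one n hexp]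

/-- The stabilizer of a function under the power maps by units of `ZMod n`. -/
def sfStab {H : Type u} [Group H] (n : ℕ) (hexp : ∀ g : H, g ^ n = 1) (ψ : H → ℂ) :
    Subgroup (ZMod n)ˣ where
  carrier := {u | ∀ g : H, ψ (g ^ (u : ZMod n).val) = ψ g}
  mul_mem' := by
    intro u v hu hv g
    rw [sf_pow_mul n hexp u v g, hv, hu]
  one_mem' := by
    intro g
    rw [sf_pow_one n hexp g]
  inv_mem' := by
    intro u hu g
    have h1 := hu (g ^ ((u⁻¹ : (ZMod n)ˣ) : ZMod n).val)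
    rw [sf_pow_inv n hexp u g] at h1
    exact h1.symm

theorem sf_mem_stab {H : Type u} [Group H] (n : ℕ) (hexp : ∀ g : H, g ^ n = 1) (ψ : H → ℂ)
    (u : (ZMod n)ˣ) : u ∈ sfStab n hexp ψ ↔ ∀ g : H, ψ (g ^ (u : ZMod n).val) = ψ g := Iff.rfl

/-- Counting through fibres that are contained in cosets of a subgroup. -/
theorem sf_fiber {U : Type*} [Group U] [Fintype U] {X : Type*} [DecidableEq X]
    (S : Subgroup U) (T : Finset U) (F : U → X)
    (hF : ∀ u ∈ T, ∀ v ∈ T, F v = F u → u⁻¹ * v ∈ S) :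
    T.card ≤ Nat.card S * (T.image F).card := by
  classical
  apply Finset.card_le_mul_card_image T (Nat.card S)
  intro x hx
  obtain ⟨u, hu, rfl⟩ := Finset.mem_image.1 hx
  rw [← Fintype.card_coe, ← Nat.card_eq_fintype_card]
  apply Nat.card_le_card_of_injective
    (fun v : {v // v ∈ T.filter (fun v => F v = F u)} =>
      (⟨u⁻¹ * v.1, hF u hu v.1 (Finset.mem_filter.1 v.2).1 (Finset.mem_filter.1 v.2).2⟩ : S))
  intro v w hvw
  have h1 : u⁻¹ * v.1 = u⁻¹ * w.1 := congrArg Subtype.val hvw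
  exact Subtype.ext (mul_left_cancel h1)

/-- The index of the stabilizer of a character is at most the degree of its field of values. -/
theorem sf_finrank {H : Type u} [Group H] [Finite H] (n : ℕ) (hn : 0 < n)
    (hdvd : Nat.card H ∣ n) (hexp : ∀ g : H, g ^ n = 1) (χ : H → ℂ) (hχ : IsCharacter H χ)
    (hfin : Module.finrank ℚ (IntermediateField.adjoin ℚ (Set.range χ)) ≠ 0) :
    Nat.card (ZMod n)ˣ ≤ Nat.card (sfStab n hexp χ)
      * Module.finrank ℚ (IntermediateField.adjoin ℚ (Set.range χ)) := by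
  classical
  haveI : NeZero n := ⟨hn.ne'⟩
  haveI : FiniteDimensional ℚ (IntermediateField.adjoin ℚ (Set.range χ)) :=
    Module.finite_of_finrank_pos (Nat.pos_of_ne_zero hfin)
  have hτ : ∀ u : (ZMod n)ˣ, ∃ τ : ℂ ≃+* ℂ, ∀ g : H, τ (χ g) = χ (g ^ (u : ZMod n).val) := by
    intro u
    obtain ⟨τ, hτ⟩ := Cfsg.Agent.Helper11.exists_aut_pow n hn (u : ZMod n).val
      (ZMod.val_coe_unit_coprime u)
    refine ⟨τ, fun g => ?_⟩
    obtain ⟨d, ρ, rfl⟩ := hχ
    obtain ⟨b, μ, hμ, -, hb, -, hc, -⟩ := Cfsg.Agent.Helper1.exists_eigenbasis ρ g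
    have hb' : ∀ i, ρ (g ^ (u : ZMod n).val) (b i) = (μ i) ^ (u : ZMod n).val • b i := by
      intro i
      rw [map_pow]
      exact Cfsg.Agent.Helper1.pow_apply_of_apply_eq_smul (ρ g) (b i) (μ i) (hb i) _
    have hc' : ρ.character (g ^ (u : ZMod n).val) = ∑ i, (μ i) ^ (u : ZMod n).val :=
      Cfsg.Agent.Helper1.trace_eq_sum_of_eigenbasis b (ρ (g ^ (u : ZMod n).val))
        (fun i => (μ i) ^ (u : ZMod n).val) hb'
    rw [hc', hc, map_sum]
    refine Finset.sum_congr rfl (fun i _ => hτ (μ i) ?_)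
    obtain ⟨e, he⟩ := hdvd
    rw [he, pow_mul, hμ i, one_pow]
  choose τ hτ using hτ
  let Φ : (ZMod n)ˣ → (IntermediateField.adjoin ℚ (Set.range χ) →ₐ[ℚ] ℂ) :=
    fun u => ((τ u : ℂ →+* ℂ).toRatAlgHom).comp (IntermediateField.adjoin ℚ (Set.range χ)).val
  have hΦ : ∀ (u : (ZMod n)ˣ) (g : H),
      Φ u ⟨χ g, IntermediateField.subset_adjoin ℚ _ (Set.mem_range_self g)⟩
        = χ (g ^ (u : ZMod n).val) := fun u g => hτ u g
  have hcard : Nat.card (IntermediateField.adjoin ℚ (Set.range χ) →ₐ[ℚ] ℂ)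
      = Module.finrank ℚ (IntermediateField.adjoin ℚ (Set.range χ)) :=
    AlgHom.natCard_of_splits ℚ _ ℂ (fun _ => IsAlgClosed.splits _)
  haveI : Finite (IntermediateField.adjoin ℚ (Set.range χ) →ₐ[ℚ] ℂ) :=
    Nat.finite_of_card_ne_zero (by rw [hcard]; exact hfin)
  have := Fintype.ofFinite (IntermediateField.adjoin ℚ (Set.range χ) →ₐ[ℚ] ℂ)
  have h1 := sf_fiber (sfStab n hexp χ) (Finset.univ : Finset (ZMod n)ˣ) Φ (by
    intro u _ v _ huv g
    have h2 := hΦ v (g ^ ((u⁻¹ : (ZMod n)ˣ) : ZMod n).val)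
    rw [huv, hΦ u, sf_pow_inv n hexp u g, ← sf_pow_mul n hexp] at h2
    exact h2.symm)
  rw [Finset.card_univ, ← Nat.card_eq_fintype_card] at h1
  refine h1.trans (Nat.mul_le_mul_left _ ?_)
  rw [← hcard, Nat.card_eq_fintype_card]
  exact Finset.card_le_univ _

/-- Values of a linear character have absolute value one. -/
theorem sf_lin_norm {P : Type u} [Group P] [Finite P] (ξ : IrrCharacter P)
    (h1 : (ξ : P → ℂ) 1 = 1) (g : P) : (ξ : P → ℂ) g * conj ((ξ : P → ℂ) g) = 1 := by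
  have hpow : ∀ k : ℕ, (ξ : P → ℂ) (g ^ k) = (ξ : P → ℂ) g ^ k := by
    intro k
    induction k with
    | zero => rw [pow_zero, pow_zero, h1]
    | succ k ih => rw [pow_succ, pow_succ, irr_linear_mul ξ h1, ih]
  have h2 : (ξ : P → ℂ) g ^ Nat.card P = 1 := by rw [← hpow, pow_card_eq_one', h1]
  have h3 : ‖(ξ : P → ℂ) g‖ = 1 := Complex.norm_eq_one_of_pow_eq_one h2 Nat.card_pos.ne'
  rw [Complex.mul_conj, Complex.normSq_eq_norm_sq, h3]; simp

/-- The product of an irreducible character with a linear character is irreducible. -/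
theorem sf_twist_irr {P : Type u} [Group P] [Finite P] (χ ξ : IrrCharacter P)
    (h1 : (ξ : P → ℂ) 1 = 1) :
    IsIrrCharacter P (fun g => (χ : P → ℂ) g * (ξ : P → ℂ) g) := by
  classical
  have := Fintype.ofFinite P
  have hc : IsCharacter P (fun g => (χ : P → ℂ) g * (ξ : P → ℂ) g) :=
    Cfsg.Agent.Helper2.isCharacter_mul (irr_isCharacter χ) (irr_isCharacter ξ)
  apply Cfsg.Agent.Helper2.isIrrCharacter_of_classInner_self hc
  have h2 := Cfsg.Agent.Helper2.classInner_irr_irr χ χ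
  rw [if_pos rfl] at h2
  rw [← h2]
  unfold classInner
  congr 1
  refine Finset.sum_congr rfl (fun g _ => ?_)
  rw [map_mul]
  have h3 := sf_lin_norm ξ h1 g
  linear_combination ((χ : P → ℂ) g * conj ((χ : P → ℂ) g)) * h3

/-- A nonlinear irreducible character of a `p`-group vanishes off a normal subgroup of
index `p`. -/
theorem sf_exists_max {P : Type u} [Group P] [Finite P] (p a : ℕ) (hp : p.Prime)
    (hP : Nat.card P = p ^ a) (χ : IrrCharacter P) (hf : charDegree (χ : P → ℂ) ≠ 1) :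
    1 ≤ a ∧ ∃ M : Subgroup P, M.Normal ∧ Nat.card M = p ^ (a - 1) ∧
      ∀ g : P, g ∉ M → (χ : P → ℂ) g = 0 := by
  classical
  have := Fintype.ofFinite P
  haveI : Fact p.Prime := ⟨hp⟩
  have hdeg : ∀ ξ : IrrCharacter P, charDegree (ξ : P → ℂ) ≠ 1 →
      p ∣ charDegree (ξ : P → ℂ) := by
    intro ξ hξ
    have h1 := irr_degree_dvd_card ξ
    rw [hP] at h1
    obtain ⟨k, -, hk⟩ := (Nat.dvd_prime_pow hp).1 h1
    rw [hk] at hξ ⊢
    have hk0 : k ≠ 0 := by rintro rfl; exact hξ (pow_zero p)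
    exact dvd_pow_self p hk0
  have hχc : IsCharacter P (χ : P → ℂ) := irr_isCharacter χ
  obtain ⟨ψ, hψ⟩ : ∃ ψ : P → ℂ, ψ = fun g => (χ : P → ℂ) g * conj ((χ : P → ℂ) g) := ⟨_, rfl⟩
  have hψc : IsCharacter P ψ := by
    rw [hψ]
    exact Cfsg.Agent.Helper2.isCharacter_mul hχc (Cfsg.Agent.Helper2.isCharacter_conj hχc)
  have hψcl : IsClassFunction P ψ := Cfsg.Agent.Helper2.isClassFunction_of_isCharacter hψc
  have hex : ∃ lam : IrrCharacter P, (lam : P → ℂ) 1 = 1 ∧ (∃ g, (lam : P → ℂ) g ≠ 1) ∧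
      ∀ g, (χ : P → ℂ) g * (lam : P → ℂ) g = (χ : P → ℂ) g := by
    by_contra hcon
    have hk : ∀ ξ : IrrCharacter P, ∃ k : ℕ,
        classInner ψ (ξ : P → ℂ) * (ξ : P → ℂ) 1 = (k : ℂ) ∧
        ((ξ = trivChar P → k = 1) ∧ (ξ ≠ trivChar P → p ∣ k)) := by
      intro ξ
      obtain ⟨m, hm⟩ := Cfsg.Agent.Helper2.classInner_char_nat hψc (irr_isCharacter ξ)
      by_cases hξ1 : charDegree (ξ : P → ℂ) = 1
      · have hξ1' : (ξ : P → ℂ) 1 = 1 := by rw [irr_one_eq_degree, hξ1]; simp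
        by_cases htriv : ∀ g, (ξ : P → ℂ) g = 1
        · have hξt : ξ = trivChar P := Subtype.ext (funext fun g => by rw [htriv g]; rfl)
          refine ⟨1, ?_, fun _ => rfl, fun h => absurd hξt h⟩
          rw [hξ1', mul_one]
          have h1 := Cfsg.Agent.Helper2.classInner_irr_irr χ χ
          rw [if_pos rfl] at h1
          rw [Nat.cast_one, ← h1]
          unfold classInner
          congr 1
          refine Finset.sum_congr rfl (fun g _ => ?_)
          rw [htriv g, hψ]; simp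
        · rw [not_forall] at htriv
          have hne : ∃ g, (χ : P → ℂ) g * (ξ : P → ℂ) g ≠ (χ : P → ℂ) g := by
            by_contra h
            rw [not_exists] at h
            exact hcon ⟨ξ, hξ1', htriv, fun g => not_not.1 (h g)⟩
          obtain ⟨g₀, hg₀⟩ := hne
          have hne' : χ ≠ (⟨fun g => (χ : P → ℂ) g * (ξ : P → ℂ) g, sf_twist_irr χ ξ hξ1'⟩ :
              IrrCharacter P) := by
            intro h
            have h2 := congrArg (fun η : IrrCharacter P => (η : P → ℂ) g₀) h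
            exact hg₀ h2.symm
          have h1 := Cfsg.Agent.Helper2.classInner_irr_irr χ
            (⟨fun g => (χ : P → ℂ) g * (ξ : P → ℂ) g, sf_twist_irr χ ξ hξ1'⟩ : IrrCharacter P)
          rw [if_neg hne'] at h1
          refine ⟨0, ?_, fun h => ?_, fun _ => dvd_zero p⟩
          · rw [Nat.cast_zero, hξ1', mul_one, ← h1]
            unfold classInner
            congr 1
            refine Finset.sum_congr rfl (fun g _ => ?_)
            rw [hψ]
            show (χ : P → ℂ) g * conj ((χ : P → ℂ) g) * conj ((ξ : P → ℂ) g)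
              = (χ : P → ℂ) g * conj ((χ : P → ℂ) g * (ξ : P → ℂ) g)
            rw [map_mul]; ring
          · exfalso
            obtain ⟨g, hg⟩ := htriv
            apply hg
            rw [h]; rfl
      · refine ⟨m * charDegree (ξ : P → ℂ), ?_, fun h => ?_,
          fun _ => Dvd.dvd.mul_left (hdeg ξ hξ1) m⟩
        · rw [hm, irr_one_eq_degree]; push_cast; ring
        · exfalso
          apply hξ1
          have h2 : ((charDegree (ξ : P → ℂ) : ℕ) : ℂ) = 1 := by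
            rw [← irr_one_eq_degree, h]; rfl
          exact_mod_cast h2
    choose k hk1 hk2 hk3 using hk
    have h1 := congrFun (Cfsg.Agent.Helper2.classFun_eq_sum_classInner hψcl) 1
    rw [Finset.sum_apply] at h1
    simp only [Pi.smul_apply, smul_eq_mul] at h1
    rw [Finset.sum_congr rfl (fun ξ _ => hk1 ξ), hψ] at h1
    simp only [] at h1
    rw [irr_one_eq_degree, Complex.conj_natCast, ← Nat.cast_sum, ← Nat.cast_mul] at h1
    have h2 : charDegree (χ : P → ℂ) * charDegree (χ : P → ℂ) = ∑ ξ : IrrCharacter P, k ξ := by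
      exact_mod_cast h1
    rw [← Finset.add_sum_erase Finset.univ k (Finset.mem_univ (trivChar P)),
      hk2 (trivChar P) rfl] at h2
    have h3 : p ∣ ∑ ξ ∈ Finset.univ.erase (trivChar P), k ξ :=
      Finset.dvd_sum (fun ξ hξ => hk3 ξ (Finset.ne_of_mem_erase hξ))
    have h4 : p ∣ charDegree (χ : P → ℂ) * charDegree (χ : P → ℂ) :=
      Dvd.dvd.mul_left (hdeg χ hf) _
    rw [h2] at h4
    have h5 : p ∣ 1 := (Nat.dvd_add_left h3).1 h4
    exact hp.one_lt.ne' (Nat.dvd_one.1 h5)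
  obtain ⟨lam, hl1, ⟨g₁, hg₁⟩, hlam⟩ := hex
  have hg₁K : g₁ ∉ irrKer lam := by
    intro h
    rw [mem_irrKer, hl1] at h
    exact hg₁ h
  have hKdvd : Nat.card (irrKer lam) ∣ p ^ a := by
    rw [← hP]; exact Subgroup.card_subgroup_dvd_card _
  obtain ⟨k, hka, hk⟩ := (Nat.dvd_prime_pow hp).1 hKdvd
  have hka' : k ≠ a := by
    rintro rfl
    have h1 : irrKer lam = ⊤ := (Subgroup.card_eq_iff_eq_top _).1 (by rw [hk, hP])
    exact hg₁K (by rw [h1]; exact Subgroup.mem_top _)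
  have ha1 : 1 ≤ a := by omega
  refine ⟨ha1, ?_⟩
  obtain ⟨M, hM, hKM⟩ := Sylow.exists_subgroup_card_pow_prime_le p
    (by rw [hP]; exact pow_dvd_pow p (Nat.sub_le a 1)) (irrKer lam) hk (by omega : k ≤ a - 1)
  refine ⟨M, ?_, hM, ?_⟩
  · apply Subgroup.normal_of_index_eq_minFac_card
    rw [hP, Nat.Prime.pow_minFac hp (by omega)]
    have h1 := Subgroup.index_mul_card M
    rw [hM, hP] at h1
    have h2 : p ^ a = p * p ^ (a - 1) := by
      rw [← pow_succ']; congr 1; omega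
    rw [h2] at h1
    exact Nat.eq_of_mul_eq_mul_right (pow_pos hp.pos _) h1
  · intro g hg
    have hgK : g ∉ irrKer lam := fun h => hg (hKM h)
    rw [mem_irrKer, hl1] at hgK
    have h1 := hlam g
    have h2 : (χ : P → ℂ) g * ((lam : P → ℂ) g - 1) = 0 := by linear_combination h1
    rcases mul_eq_zero.1 h2 with h3 | h3
    · exact h3
    · exact absurd (sub_eq_zero.1 h3) hgK

/-- Restriction of an irreducible character vanishing off a normal subgroup `M` of prime index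
`p`: it is the sum of `p` distinct conjugate irreducible characters of `M`. -/
theorem sf_restrict {P : Type u} [Group P] [Fintype P] (p : ℕ) (hp : p.Prime) (M : Subgroup P)
    [hM : M.Normal] [Fintype M] (hidx : M.index = p) (χ : IrrCharacter P)
    (hvan : ∀ g : P, g ∉ M → (χ : P → ℂ) g = 0) :
    ∃ (θ₀ : IrrCharacter M) (O : Finset (IrrCharacter M)), O.card = p ∧ θ₀ ∈ O ∧
      (∀ ξ ∈ O, ∃ k : P, (ξ : M → ℂ) = Cfsg.Agent.Helper2.conjChar M (θ₀ : M → ℂ) k) ∧
      (∀ m : M, (χ : P → ℂ) m = ∑ ξ ∈ O, (ξ : M → ℂ) m) := by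
  classical
  have hχc : IsCharacter P (χ : P → ℂ) := irr_isCharacter χ
  have hres : IsCharacter M (fun m : M => (χ : P → ℂ) m) :=
    Cfsg.Agent.Helper2.isCharacter_restrict M hχc
  have hrescl := Cfsg.Agent.Helper2.isClassFunction_of_isCharacter hres
  have hex : ∃ θ₀ : IrrCharacter M,
      classInner (fun m : M => (χ : P → ℂ) m) (θ₀ : M → ℂ) ≠ 0 := by
    by_contra hcon
    rw [not_exists] at hcon
    have h1 := congrFun (Cfsg.Agent.Helper2.classFun_eq_sum_classInner hrescl) 1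
    rw [Finset.sum_apply] at h1
    have h2 : ∑ ξ : IrrCharacter M,
        (classInner (fun m : M => (χ : P → ℂ) m) (ξ : M → ℂ) • (ξ : M → ℂ)) 1 = 0 := by
      apply Finset.sum_eq_zero
      intro ξ _
      rw [Pi.smul_apply, not_not.1 (hcon ξ), zero_smul]
    rw [h2] at h1
    simp only [OneMemClass.coe_one] at h1
    exact irr_one_ne_zero χ h1
  obtain ⟨θ₀, hθ₀⟩ := hex
  obtain ⟨c, hc0, heq⟩ := Cfsg.Agent.Helper2.clifford_orbit M χ θ₀ hθ₀
  obtain ⟨O, hO⟩ : ∃ O : Finset (IrrCharacter M), O = Finset.univ.filter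
      (fun ξ : IrrCharacter M => ∃ k : P,
        (ξ : M → ℂ) = Cfsg.Agent.Helper2.conjChar M (θ₀ : M → ℂ) k) := ⟨_, rfl⟩
  rw [← hO] at heq
  have hnorm := Cfsg.Agent.Helper2.classInner_restrict_of_vanish M χ hvan
  rw [hidx] at hnorm
  have hcalc : classInner (fun m : M => (χ : P → ℂ) m) (fun m : M => (χ : P → ℂ) m)
      = (c : ℂ) * ((c : ℂ) * (O.card : ℂ)) := by
    rw [heq, Cfsg.Agent.Helper2.classInner_smul_left, Cfsg.Agent.Helper2.classInner_smul_right,
      Cfsg.Agent.Helper2.classInner_sum_left]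
    have h1 : ∀ ξ ∈ O, classInner (ξ : M → ℂ) (∑ ξ' ∈ O, (ξ' : M → ℂ)) = 1 := by
      intro ξ hξ
      rw [Cfsg.Agent.Helper2.classInner_sum_right]
      simp_rw [Cfsg.Agent.Helper2.classInner_irr_irr]
      rw [Finset.sum_ite_eq, if_pos hξ]
    rw [Finset.sum_congr rfl h1, Finset.sum_const, nsmul_eq_mul, mul_one, Complex.conj_natCast]
  rw [hcalc] at hnorm
  have hnat : c * (c * O.card) = p := by exact_mod_cast hnorm
  have hc1 : c = 1 := by
    have h1 : c ∣ p := ⟨c * O.card, hnat.symm⟩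
    rcases (Nat.dvd_prime hp).1 h1 with h | h
    · exact h
    · exfalso
      rw [h] at hnat
      have h2 : p * O.card = 1 := Nat.eq_of_mul_eq_mul_left hp.pos (by rw [hnat, mul_one])
      exact hp.one_lt.ne' (Nat.eq_one_of_mul_eq_one_right h2)
  subst hc1
  have hOcard : O.card = p := by simpa using hnat
  refine ⟨θ₀, O, hOcard, ?_, ?_, ?_⟩
  · rw [hO, Finset.mem_filter]
    exact ⟨Finset.mem_univ _, 1, (Cfsg.Agent.Helper2.conjChar_one M _).symm⟩
  · intro ξ hξ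
    rw [hO, Finset.mem_filter] at hξ
    exact hξ.2
  · intro m
    have h1 := congrFun heq m
    rw [Nat.cast_one, one_smul, Finset.sum_apply] at h1
    exact h1

/-- Invariance under a power map passes to conjugate characters. -/
theorem sf_conj_inv {P : Type u} [Group P] (M : Subgroup P) [hM : M.Normal] (ξ θ₀ : M → ℂ)
    (k : P) (hξ : ξ = Cfsg.Agent.Helper2.conjChar M θ₀ k) (m : ℕ)
    (h : ∀ x : M, θ₀ (x ^ m) = θ₀ x) (x : M) : ξ (x ^ m) = ξ x := by
  have h1 : (⟨k * ((x ^ m : M) : P) * k⁻¹, hM.conj_mem _ (x ^ m).2 k⟩ : M)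
      = (⟨k * (x : P) * k⁻¹, hM.conj_mem _ x.2 k⟩ : M) ^ m := by
    apply Subtype.ext
    show k * ((x ^ m : M) : P) * k⁻¹ = (((⟨k * (x : P) * k⁻¹, hM.conj_mem _ x.2 k⟩ : M) ^ m : M) : P)
    rw [Subgroup.coe_pow, Subgroup.coe_pow]
    exact (conj_pow).symm
  rw [hξ, Cfsg.Agent.Helper2.conjChar_apply, Cfsg.Agent.Helper2.conjChar_apply, h1, h]

/-- Galois conjugates (through power maps by units) of irreducible characters are irreducible. -/
theorem sf_gal_irr {H : Type u} [Group H] [Finite H] (n : ℕ) (hHn : Nat.card H ∣ n)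
    (θ : IrrCharacter H) (u : (ZMod n)ˣ) :
    IsIrrCharacter H (fun x => (θ : H → ℂ) (x ^ (u : ZMod n).val)) :=
  (Cfsg.Agent.Helper11.char_pow_coprime (u : ZMod n).val
    (Nat.Coprime.coprime_dvd_right hHn (ZMod.val_coe_unit_coprime u)) (irr_isCharacter θ)).2 θ.2

/-- Kernel of a Galois conjugate. -/
theorem sf_gal_ker {H : Type u} [Group H] [Finite H] (n : ℕ) (hexp : ∀ g : H, g ^ n = 1)
    (θ ξ : IrrCharacter H) (u : (ZMod n)ˣ)
    (hξ : (ξ : H → ℂ) = fun x => (θ : H → ℂ) (x ^ (u : ZMod n).val)) :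
    irrKer ξ = irrKer θ := by
  ext x
  rw [mem_irrKer, mem_irrKer, hξ]
  show (θ : H → ℂ) (x ^ (u : ZMod n).val) = (θ : H → ℂ) (1 ^ (u : ZMod n).val) ↔ _
  rw [one_pow]
  constructor
  · intro h
    have h1 : x ^ (u : ZMod n).val ∈ irrKer θ := (mem_irrKer θ _).2 h
    have h2 := Subgroup.pow_mem _ h1 ((u⁻¹ : (ZMod n)ˣ) : ZMod n).val
    rw [sf_pow_inv' n hexp u x] at h2
    exact (mem_irrKer θ _).1 h2
  · intro h
    have h1 : x ∈ irrKer θ := (mem_irrKer θ _).2 h
    exact (mem_irrKer θ _).1 (Subgroup.pow_mem _ h1 _)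

/-- Kernels of conjugate characters have the same index. -/
theorem sf_ker_index {P : Type u} [Group P] [Finite P] (M : Subgroup P) [hM : M.Normal]
    (ξ θ₀ : IrrCharacter M) (k : P)
    (hξ : (ξ : M → ℂ) = Cfsg.Agent.Helper2.conjChar M (θ₀ : M → ℂ) k) :
    (irrKer ξ).index = (irrKer θ₀).index := by
  have h0 : irrKer ξ = (irrKer θ₀).comap ((MulAut.conjNormal k : M ≃* M) : M →* M) := by
    ext x
    rw [mem_irrKer, Subgroup.mem_comap, mem_irrKer, hξ, Cfsg.Agent.Helper2.conjChar_apply,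
      Cfsg.Agent.Helper2.conjChar_apply]
    have h1 : (⟨k * ((1 : M) : P) * k⁻¹, hM.conj_mem _ (1 : M).2 k⟩ : M) = 1 :=
      Subtype.ext (by simp)
    have h2 : ((MulAut.conjNormal k : M ≃* M) : M →* M) x
        = ⟨k * (x : P) * k⁻¹, hM.conj_mem _ x.2 k⟩ :=
      Subtype.ext (by simp [MulAut.conjNormal_apply])
    rw [h1, h2]
  rw [h0, Subgroup.index_comap_of_surjective _ (MulEquiv.surjective _)]

/-- The stabilizer of a constituent is contained in the stabilizer of the character. -/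
theorem sf_stab_le {P : Type u} [Group P] [Finite P] (n : ℕ) (hexp : ∀ g : P, g ^ n = 1)
    (M : Subgroup P) [hM : M.Normal] (hexpM : ∀ g : M, g ^ n = 1) (χ : IrrCharacter P)
    (hvan : ∀ g : P, g ∉ M → (χ : P → ℂ) g = 0) (θ₀ : IrrCharacter M)
    (O : Finset (IrrCharacter M))
    (hconj : ∀ ξ ∈ O, ∃ k : P, (ξ : M → ℂ) = Cfsg.Agent.Helper2.conjChar M (θ₀ : M → ℂ) k)
    (hsum : ∀ m : M, (χ : P → ℂ) m = ∑ ξ ∈ O, (ξ : M → ℂ) m) :
    sfStab n hexpM (θ₀ : M → ℂ) ≤ sfStab n hexp (χ : P → ℂ) := by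
  intro u hu g
  by_cases hg : g ∈ M
  · have h1 : (χ : P → ℂ) g = ∑ ξ ∈ O, (ξ : M → ℂ) ⟨g, hg⟩ := hsum ⟨g, hg⟩
    have h2 : (χ : P → ℂ) (g ^ (u : ZMod n).val)
        = ∑ ξ ∈ O, (ξ : M → ℂ) (⟨g, hg⟩ ^ (u : ZMod n).val) := by
      have h := hsum (⟨g, hg⟩ ^ (u : ZMod n).val)
      rw [Subgroup.coe_pow] at h
      exact h
    rw [h2, h1]
    refine Finset.sum_congr rfl (fun ξ hξ => ?_)
    obtain ⟨k, hk⟩ := hconj ξ hξ
    exact sf_conj_inv M (ξ : M → ℂ) (θ₀ : M → ℂ) k hk _ ((sf_mem_stab n hexpM _ u).1 hu) ⟨g, hg⟩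
  · have hgm : g ^ (u : ZMod n).val ∉ M := by
      intro h
      apply hg
      have h1 := Subgroup.pow_mem _ h ((u⁻¹ : (ZMod n)ˣ) : ZMod n).val
      rw [sf_pow_inv' n hexp u g] at h1
      exact h1
    rw [hvan _ hgm, hvan _ hg]

/-- A Galois conjugate of a constituent by an element of the stabilizer of the character is
again a constituent. -/
theorem sf_gal_mem {P : Type u} [Group P] [Fintype P] (n : ℕ) (hexp : ∀ g : P, g ^ n = 1)
    (M : Subgroup P) [hM : M.Normal] [Fintype M] (hMn : Nat.card M ∣ n) (χ : IrrCharacter P)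
    (θ₀ : IrrCharacter M) (O : Finset (IrrCharacter M)) (hθO : θ₀ ∈ O)
    (hsum : ∀ m : M, (χ : P → ℂ) m = ∑ ξ ∈ O, (ξ : M → ℂ) m)
    (u : (ZMod n)ˣ) (hu : u ∈ sfStab n hexp (χ : P → ℂ)) (η : IrrCharacter M)
    (hη : (η : M → ℂ) = fun x => (θ₀ : M → ℂ) (x ^ (u : ZMod n).val)) : η ∈ O := by
  classical
  have hfun : (fun m : M => (χ : P → ℂ) m) = ∑ ξ ∈ O, (ξ : M → ℂ) := by
    funext m; rw [Finset.sum_apply]; exact hsum m
  have hinner : ∀ ζ : IrrCharacter M,
      classInner (fun m : M => (χ : P → ℂ) m) (ζ : M → ℂ) = if ζ ∈ O then 1 else 0 := by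
    intro ζ
    rw [hfun, Cfsg.Agent.Helper2.classInner_sum_left]
    simp_rw [Cfsg.Agent.Helper2.classInner_irr_irr]
    rw [Finset.sum_ite_eq']
  have h1 := hinner η
  have h2 := hinner θ₀
  rw [if_pos hθO] at h2
  have h3 : classInner (fun m : M => (χ : P → ℂ) m) (η : M → ℂ)
      = classInner (fun m : M => (χ : P → ℂ) m) (θ₀ : M → ℂ) := by
    unfold classInner
    congr 1
    have hcop : (Nat.card M).Coprime (u : ZMod n).val :=
      (Nat.Coprime.coprime_dvd_right hMn (ZMod.val_coe_unit_coprime u)).symm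
    rw [← Equiv.sum_comp (powCoprime hcop)
      (fun x : M => (χ : P → ℂ) x * conj ((θ₀ : M → ℂ) x))]
    refine Finset.sum_congr rfl (fun x _ => ?_)
    rw [hη]
    show (χ : P → ℂ) x * conj ((θ₀ : M → ℂ) (x ^ (u : ZMod n).val))
      = (χ : P → ℂ) ((x ^ (u : ZMod n).val : M) : P)
        * conj ((θ₀ : M → ℂ) (x ^ (u : ZMod n).val))
    rw [Subgroup.coe_pow, (sf_mem_stab n hexp _ u).1 hu (x : P)]
  rw [h3, h2] at h1
  by_contra hne
  rw [if_neg hne] at h1
  exact one_ne_zero h1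

/-- Counting the stabilizer of the character through the Galois conjugates of a constituent. -/
theorem sf_stab_count {P : Type u} [Group P] [Fintype P] (n : ℕ) (hn : 0 < n)
    (hexp : ∀ g : P, g ^ n = 1) (M : Subgroup P) [hM : M.Normal] [Fintype M]
    (hexpM : ∀ g : M, g ^ n = 1) (hMn : Nat.card M ∣ n) (χ : IrrCharacter P)
    (θ₀ : IrrCharacter M) (O : Finset (IrrCharacter M)) (hθO : θ₀ ∈ O)
    (hsum : ∀ m : M, (χ : P → ℂ) m = ∑ ξ ∈ O, (ξ : M → ℂ) m) :
    ∃ O' : Finset (IrrCharacter M), O' ⊆ O ∧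
      (∀ ξ ∈ O', ∃ u : (ZMod n)ˣ,
        (ξ : M → ℂ) = fun x => (θ₀ : M → ℂ) (x ^ (u : ZMod n).val)) ∧
      Nat.card (sfStab n hexp (χ : P → ℂ))
        ≤ Nat.card (sfStab n hexpM (θ₀ : M → ℂ)) * O'.card := by
  classical
  haveI : NeZero n := ⟨hn.ne'⟩
  let F : (ZMod n)ˣ → IrrCharacter M :=
    fun u => ⟨fun x => (θ₀ : M → ℂ) (x ^ (u : ZMod n).val), sf_gal_irr n hMn θ₀ u⟩
  refine ⟨(Finset.univ.filter (· ∈ sfStab n hexp (χ : P → ℂ))).image F, ?_, ?_, ?_⟩
  · intro ξ hξ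
    obtain ⟨u, hu, rfl⟩ := Finset.mem_image.1 hξ
    rw [Finset.mem_filter] at hu
    exact sf_gal_mem n hexp M hMn χ θ₀ O hθO hsum u hu.2 (F u) rfl
  · intro ξ hξ
    obtain ⟨u, hu, rfl⟩ := Finset.mem_image.1 hξ
    exact ⟨u, rfl⟩
  · have h1 := sf_fiber (sfStab n hexpM (θ₀ : M → ℂ))
      (Finset.univ.filter (· ∈ sfStab n hexp (χ : P → ℂ))) F (by
        intro u _ v _ huv x
        have h2 := congrFun (congrArg Subtype.val huv)
          (x ^ ((u⁻¹ : (ZMod n)ˣ) : ZMod n).val)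
        have h3 : (θ₀ : M → ℂ)
            ((x ^ ((u⁻¹ : (ZMod n)ˣ) : ZMod n).val) ^ (v : ZMod n).val)
            = (θ₀ : M → ℂ)
              ((x ^ ((u⁻¹ : (ZMod n)ˣ) : ZMod n).val) ^ (u : ZMod n).val) := h2
        rw [sf_pow_inv n hexpM u x, ← sf_pow_mul n hexpM] at h3
        exact h3)
    have h2 : (Finset.univ.filter (· ∈ sfStab n hexp (χ : P → ℂ))).card
        = Nat.card (sfStab n hexp (χ : P → ℂ)) := by
      rw [← Fintype.card_subtype, ← Nat.card_eq_fintype_card]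
    rw [h2] at h1
    exact h1

/-- The order of `M` is bounded by the `p`-th power of the index of the kernel of a
constituent. -/
theorem sf_index_prod {P : Type u} [Group P] [Finite P] (p : ℕ) (M : Subgroup P)
    [hM : M.Normal] (χ : IrrCharacter P)
    (hfaith : ∀ g : P, (χ : P → ℂ) g = (χ : P → ℂ) 1 → g = 1)
    (θ₀ : IrrCharacter M) (O : Finset (IrrCharacter M)) (hOcard : O.card = p)
    (hconj : ∀ ξ ∈ O, ∃ k : P, (ξ : M → ℂ) = Cfsg.Agent.Helper2.conjChar M (θ₀ : M → ℂ) k)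
    (hsum : ∀ m : M, (χ : P → ℂ) m = ∑ ξ ∈ O, (ξ : M → ℂ) m) :
    Nat.card M ≤ (irrKer θ₀).index ^ p := by
  classical
  have hbot : (⨅ ξ : {ξ // ξ ∈ O}, irrKer (ξ : IrrCharacter M)) = ⊥ := by
    rw [eq_bot_iff]
    intro x hx
    rw [Subgroup.mem_iInf] at hx
    rw [Subgroup.mem_bot]
    have h1 : (χ : P → ℂ) (x : P) = (χ : P → ℂ) 1 := by
      have h2 := hsum x
      have h3 := hsum 1
      rw [OneMemClass.coe_one] at h3
      rw [h2, h3]
      refine Finset.sum_congr rfl (fun ξ hξ => ?_)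
      exact (mem_irrKer ξ x).1 (hx ⟨ξ, hξ⟩)
    exact Subtype.ext (hfaith _ h1)
  have h2 := Subgroup.index_iInf_le (fun ξ : {ξ // ξ ∈ O} => irrKer (ξ : IrrCharacter M))
  rw [hbot, Subgroup.index_bot] at h2
  have h3 : ∀ ξ : {ξ // ξ ∈ O}, (irrKer (ξ : IrrCharacter M)).index = (irrKer θ₀).index := by
    intro ξ
    obtain ⟨k, hk⟩ := hconj ξ.1 ξ.2
    exact sf_ker_index M ξ.1 θ₀ k hk
  rw [Finset.prod_congr rfl (fun ξ _ => h3 ξ), Finset.prod_const, Finset.card_univ,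
    Fintype.card_coe, hOcard] at h2
  exact h2

/-- Deflation to the quotient by the kernel: faithful, same degree, same stabilizer. -/
theorem sf_deflate {H : Type u} [Group H] [Finite H] (θ : IrrCharacter H) :
    ∃ ψ : IrrCharacter (H ⧸ irrKer θ),
      (∀ x : H ⧸ irrKer θ, (ψ : H ⧸ irrKer θ → ℂ) x = (ψ : H ⧸ irrKer θ → ℂ) 1 → x = 1) ∧
      charDegree (ψ : H ⧸ irrKer θ → ℂ) = charDegree (θ : H → ℂ) ∧
      ∀ (n : ℕ) (hexp : ∀ g : H, g ^ n = 1) (hexp' : ∀ x : H ⧸ irrKer θ, x ^ n = 1),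
        sfStab n hexp' (ψ : H ⧸ irrKer θ → ℂ) = sfStab n hexp (θ : H → ℂ) := by
  obtain ⟨ψ, hψ⟩ := exists_deflate θ (irrKer θ) le_rfl
  have hψ1 : (ψ : H ⧸ irrKer θ → ℂ) 1 = (θ : H → ℂ) 1 := hψ 1
  refine ⟨ψ, ?_, ?_, ?_⟩
  · intro x hx
    obtain ⟨g, rfl⟩ := QuotientGroup.mk_surjective x
    rw [hψ g, hψ1] at hx
    exact (QuotientGroup.eq_one_iff g).2 ((mem_irrKer θ g).2 hx)
  · have h1 : ((charDegree (ψ : H ⧸ irrKer θ → ℂ) : ℕ) : ℂ) = (charDegree (θ : H → ℂ) : ℕ) := by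
      rw [← irr_one_eq_degree, ← irr_one_eq_degree, hψ1]
    exact_mod_cast h1
  · intro n hexp hexp'
    ext u
    rw [sf_mem_stab, sf_mem_stab]
    constructor
    · intro h g
      have h1 := h (QuotientGroup.mk g)
      rw [← QuotientGroup.mk_pow, hψ, hψ] at h1
      exact h1
    · intro h x
      obtain ⟨g, rfl⟩ := QuotientGroup.mk_surjective x
      rw [← QuotientGroup.mk_pow, hψ, hψ]
      exact h g

/-- Base case: a faithful linear character of a group of order `p ^ a`. -/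
theorem sf_base {H : Type u} [Group H] [Finite H] (p : ℕ) (hp : p.Prime) (A a : ℕ)
    (ha1 : 1 ≤ a) (haA : a ≤ A) (hcard : Nat.card H = p ^ a)
    (hexp : ∀ g : H, g ^ (p ^ A) = 1) (χ : IrrCharacter H)
    (hfaith : ∀ g : H, (χ : H → ℂ) g = (χ : H → ℂ) 1 → g = 1) (h1 : (χ : H → ℂ) 1 = 1)
    (e : ℕ) (he : p ^ e ∣ Nat.card (sfStab (p ^ A) hexp (χ : H → ℂ))) : a + e ≤ A := by
  classical
  haveI : NeZero (p ^ A) := ⟨pow_ne_zero _ hp.ne_zero⟩
  haveI : NeZero (p ^ a) := ⟨pow_ne_zero _ hp.ne_zero⟩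
  let φ : H →* ℂ :=
    { toFun := (χ : H → ℂ), map_one' := h1, map_mul' := irr_linear_mul χ h1 }
  have hinj : Function.Injective φ := by
    intro g h hgh
    have hgh' : (χ : H → ℂ) g = (χ : H → ℂ) h := hgh
    have h2 : (χ : H → ℂ) (g * h⁻¹) = (χ : H → ℂ) 1 := by
      rw [irr_linear_mul χ h1, hgh', ← irr_linear_mul χ h1, mul_inv_cancel]
    exact mul_inv_eq_one.1 (hfaith _ h2)
  haveI : IsCyclic H := isCyclic_of_injective_ringHom φ hinj
  obtain ⟨g₀, hg₀⟩ := IsCyclic.exists_generator (α := H)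
  have hord : orderOf g₀ = p ^ a := by
    rw [orderOf_eq_card_of_forall_mem_zpowers hg₀, hcard]
  have hdvd : p ^ a ∣ p ^ A := pow_dvd_pow p haA
  have hle : sfStab (p ^ A) hexp (χ : H → ℂ) ≤ (ZMod.unitsMap hdvd).ker := by
    intro u hu
    rw [MonoidHom.mem_ker]
    have h2 : g₀ ^ (u : ZMod (p ^ A)).val = g₀ ^ 1 := by
      rw [pow_one]; exact hinj ((sf_mem_stab _ hexp _ u).1 hu g₀)
    have h3 : (u : ZMod (p ^ A)).val ≡ 1 [MOD p ^ a] := by
      rw [← hord]; exact pow_eq_pow_iff_modEq.1 h2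
    apply Units.ext
    rw [ZMod.unitsMap_val, Units.val_one]
    have h4 : ((u : ZMod (p ^ A)).cast : ZMod (p ^ a))
        = (((u : ZMod (p ^ A)).val : ℕ) : ZMod (p ^ a)) := by
      rw [ZMod.natCast_val]
    rw [h4, (ZMod.natCast_eq_natCast_iff _ _ _).2 h3, Nat.cast_one]
  have hsurj := ZMod.unitsMap_surjective hdvd
  have hcA : Nat.card (ZMod (p ^ A))ˣ = p ^ (A - 1) * (p - 1) := by
    rw [Nat.card_eq_fintype_card, ZMod.card_units_eq_totient,
      Nat.totient_prime_pow hp (by omega)]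
  have hca : Nat.card (ZMod (p ^ a))ˣ = p ^ (a - 1) * (p - 1) := by
    rw [Nat.card_eq_fintype_card, ZMod.card_units_eq_totient,
      Nat.totient_prime_pow hp (by omega)]
  have hker : Nat.card (ZMod.unitsMap hdvd).ker * (p ^ (a - 1) * (p - 1))
      = p ^ (A - 1) * (p - 1) := by
    have h2 := Subgroup.card_mul_index (ZMod.unitsMap hdvd).ker
    rw [Subgroup.index_ker, MonoidHom.range_eq_top.2 hsurj, Subgroup.card_top, hca, hcA] at h2
    exact h2
  have hker' : Nat.card (ZMod.unitsMap hdvd).ker = p ^ (A - a) := by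
    have h2 : p ^ (A - 1) = p ^ (A - a) * p ^ (a - 1) := by
      rw [← pow_add]; congr 1; omega
    have h3 : Nat.card (ZMod.unitsMap hdvd).ker * (p ^ (a - 1) * (p - 1))
        = p ^ (A - a) * (p ^ (a - 1) * (p - 1)) := by
      rw [hker, h2]; ring
    have h4 : 0 < p ^ (a - 1) * (p - 1) :=
      Nat.mul_pos (pow_pos hp.pos _) (by have := hp.one_lt; omega)
    exact Nat.eq_of_mul_eq_mul_right h4 h3
  have h5 : p ^ e ∣ p ^ (A - a) := by
    rw [← hker']; exact he.trans (Subgroup.card_dvd_of_le hle)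
  have h6 := (Nat.pow_dvd_pow_iff_le_right hp.one_lt).1 h5
  omega

theorem sf_arith1 (p w f' a a' : ℕ) (hp : 1 ≤ p) (hf : 1 ≤ f')
    (h1 : (p - 1) * a' ≤ (f' - 1) + (p - 1) * w * f') (h2 : a ≤ a' * p + 1) :
    (p - 1) * a ≤ (p * f' - 1) + (p - 1) * w * (p * f') := by
  obtain ⟨q, rfl⟩ : ∃ q, p = q + 1 := ⟨p - 1, by omega⟩
  obtain ⟨F, rfl⟩ : ∃ F, f' = F + 1 := ⟨f' - 1, by omega⟩
  simp only [Nat.add_sub_cancel] at h1 ⊢
  have h3 : (q + 1) * (F + 1) - 1 = q * F + q + F := by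
    have h4 : (q + 1) * (F + 1) = q * F + q + F + 1 := by ring
    omega
  rw [h3]
  calc q * a ≤ q * (a' * (q + 1) + 1) := Nat.mul_le_mul_left q h2
    _ = (q + 1) * (q * a') + q := by ring
    _ ≤ (q + 1) * (F + q * w * (F + 1)) + q :=
        Nat.add_le_add_right (Nat.mul_le_mul_left (q + 1) h1) q
    _ = (q * F + q + F) + q * w * ((q + 1) * (F + 1)) := by ring

theorem sf_arith2 (p w f' a : ℕ) (hp : 2 ≤ p) (hf : 1 ≤ f') (hw : 1 ≤ w) (ha : 1 ≤ a)
    (h1 : (p - 1) * (a - 1) ≤ (f' - 1) + (p - 1) * (w + 1) * f') :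
    (p - 1) * a ≤ (p * f' - 1) + (p - 1) * w * (p * f') := by
  obtain ⟨r, rfl⟩ : ∃ r, p = r + 1 + 1 := ⟨p - 2, by omega⟩
  obtain ⟨F, rfl⟩ : ∃ F, f' = F + 1 := ⟨f' - 1, by omega⟩
  obtain ⟨b, rfl⟩ : ∃ b, a = b + 1 := ⟨a - 1, by omega⟩
  obtain ⟨v, rfl⟩ : ∃ v, w = v + 1 := ⟨w - 1, by omega⟩
  simp only [Nat.add_sub_cancel] at h1 ⊢
  have h3 : (r + 1 + 1) * (F + 1) - 1 = (r + 1) * F + (r + 1) + F := by
    have h4 : (r + 1 + 1) * (F + 1) = (r + 1) * F + (r + 1) + F + 1 := by ring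
    omega
  rw [h3]
  calc (r + 1) * (b + 1) = (r + 1) * b + (r + 1) := by ring
    _ ≤ (F + (r + 1) * (v + 1 + 1) * (F + 1)) + (r + 1) := Nat.add_le_add_right h1 (r + 1)
    _ ≤ (F + (r + 1) * (v + 1 + 1) * (F + 1)) + (r + 1)
          + ((r + 1) * F + (r + 1) * (F + 1) * (v * r + v + r)) := Nat.le_add_right _ _
    _ = ((r + 1) * F + (r + 1) + F) + (r + 1) * (v + 1) * ((r + 1 + 1) * (F + 1)) := by ring

/-- The main induction: the order of a `p`-group with a faithful irreducible character is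
bounded in terms of the degree and the `p`-part of the stabilizer of the character under the
power maps by units of `ZMod (p ^ A)`. -/
theorem sf_bound (p : ℕ) (hp : p.Prime) (A : ℕ) :
    ∀ (a : ℕ) (H : Type u) [Group H] [Finite H] (hexp : ∀ g : H, g ^ (p ^ A) = 1),
      Nat.card H = p ^ a → a ≤ A →
      ∀ (χ : IrrCharacter H), (∀ g : H, (χ : H → ℂ) g = (χ : H → ℂ) 1 → g = 1) →
      ∀ e : ℕ, p ^ e ∣ Nat.card (sfStab (p ^ A) hexp (χ : H → ℂ)) →
        (p - 1) * a ≤ (charDegree (χ : H → ℂ) - 1)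
          + (p - 1) * (A - e) * charDegree (χ : H → ℂ) := by
  intro a
  induction a using Nat.strong_induction_on with
  | _ a ih =>
  intro H _ _ hexp hcard haA χ hfaith e he
  classical
  have := Fintype.ofFinite H
  rcases Nat.eq_zero_or_pos a with ha0 | ha0
  · subst ha0; simp
  have hA1 : 1 ≤ A := by omega
  haveI : NeZero (p ^ A) := ⟨pow_ne_zero _ hp.ne_zero⟩
  have hp2 : 2 ≤ p := hp.two_le
  have heA : e + 1 ≤ A := by
    have h1 : Nat.card (sfStab (p ^ A) hexp (χ : H → ℂ)) ∣ Nat.card (ZMod (p ^ A))ˣ :=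
      Subgroup.card_subgroup_dvd_card _
    rw [Nat.card_eq_fintype_card (α := (ZMod (p ^ A))ˣ), ZMod.card_units_eq_totient,
      Nat.totient_prime_pow hp (by omega)] at h1
    have h2 : p ^ e ∣ p ^ (A - 1) * (p - 1) := he.trans h1
    have h3 : Nat.Coprime (p ^ e) (p - 1) := by
      apply Nat.Coprime.pow_left
      rw [Nat.Prime.coprime_iff_not_dvd hp]
      exact Nat.not_dvd_of_pos_of_lt (by omega) (by omega)
    have h4 : p ^ e ∣ p ^ (A - 1) := h3.dvd_of_dvd_mul_right h2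
    have h5 := (Nat.pow_dvd_pow_iff_le_right hp.one_lt).1 h4
    omega
  have hfpos := irr_degree_pos χ
  by_cases hf : charDegree (χ : H → ℂ) = 1
  · have h1 : (χ : H → ℂ) 1 = 1 := by rw [irr_one_eq_degree, hf]; simp
    have h2 := sf_base p hp A a ha0 haA hcard hexp χ hfaith h1 e he
    rw [hf]
    have h3 : a ≤ A - e := by omega
    calc (p - 1) * a ≤ (p - 1) * (A - e) := Nat.mul_le_mul_left _ h3
      _ ≤ (1 - 1) + (p - 1) * (A - e) * 1 := by simp
  obtain ⟨-, M, hMn, hMcard, hvan⟩ := sf_exists_max p a hp hcard χ hf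
  haveI := hMn
  have hidx : M.index = p := by
    have h1 := Subgroup.index_mul_card M
    rw [hMcard, hcard] at h1
    have h2 : p ^ a = p * p ^ (a - 1) := by rw [← pow_succ']; congr 1; omega
    rw [h2] at h1
    exact Nat.eq_of_mul_eq_mul_right (pow_pos hp.pos _) h1
  obtain ⟨θ₀, O, hOcard, hθO, hconj, hsum⟩ := sf_restrict p hp M hidx χ hvan
  have hexpM : ∀ g : M, g ^ (p ^ A) = 1 :=
    fun g => Subtype.ext (by rw [Subgroup.coe_pow, hexp]; rfl)
  have hMdvd : Nat.card M ∣ p ^ A := by rw [hMcard]; exact pow_dvd_pow p (by omega)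
  have hdeg : charDegree (χ : H → ℂ) = p * charDegree (θ₀ : M → ℂ) := by
    have h1 := hsum 1
    rw [OneMemClass.coe_one, irr_one_eq_degree] at h1
    have h2 : ∀ ξ ∈ O, (ξ : M → ℂ) 1 = (charDegree (θ₀ : M → ℂ) : ℂ) := by
      intro ξ hξ
      obtain ⟨k, hk⟩ := hconj ξ hξ
      rw [hk, Cfsg.Agent.Helper2.conjChar_apply]
      have h3 : (⟨k * ((1 : M) : H) * k⁻¹, hMn.conj_mem _ (1 : M).2 k⟩ : M) = 1 :=
        Subtype.ext (by simp)
      rw [h3, irr_one_eq_degree]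
    rw [Finset.sum_congr rfl h2, Finset.sum_const, hOcard, nsmul_eq_mul] at h1
    exact_mod_cast h1
  have hf'pos := irr_degree_pos θ₀
  have hSle := sf_stab_le (p ^ A) hexp M hexpM χ hvan θ₀ O hconj hsum
  obtain ⟨O', hO'sub, hO'gal, hcount⟩ := sf_stab_count (p ^ A) (pow_pos hp.pos A) hexp M hexpM
    hMdvd χ θ₀ O hθO hsum
  have hSdvd : Nat.card (sfStab (p ^ A) hexpM (θ₀ : M → ℂ))
      ∣ Nat.card (sfStab (p ^ A) hexp (χ : H → ℂ)) := Subgroup.card_dvd_of_le hSle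
  have hSpos : 0 < Nat.card (sfStab (p ^ A) hexpM (θ₀ : M → ℂ)) := Nat.card_pos
  have hSχpos : 0 < Nat.card (sfStab (p ^ A) hexp (χ : H → ℂ)) := Nat.card_pos
  by_cases hcase : p ^ e ∣ Nat.card (sfStab (p ^ A) hexpM (θ₀ : M → ℂ))
  · obtain ⟨ψ, hψfaith, hψdeg, hψstab⟩ := sf_deflate θ₀
    have hKidx : (irrKer θ₀).index ∣ p ^ (a - 1) := by
      rw [← hMcard]; exact Subgroup.index_dvd_card _
    obtain ⟨a', ha', hQ⟩ := (Nat.dvd_prime_pow hp).1 hKidx
    have hQcard : Nat.card (M ⧸ irrKer θ₀) = p ^ a' := by rw [← hQ]; rfl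
    have hexpQ : ∀ x : M ⧸ irrKer θ₀, x ^ (p ^ A) = 1 := by
      intro x
      obtain ⟨g, rfl⟩ := QuotientGroup.mk_surjective x
      rw [← QuotientGroup.mk_pow, hexpM g]; rfl
    have hih := ih a' (by omega) (M ⧸ irrKer θ₀) hexpQ hQcard (by omega) ψ hψfaith e
      (by rw [hψstab (p ^ A) hexpM hexpQ]; exact hcase)
    rw [hψdeg] at hih
    have hprod := sf_index_prod p M χ hfaith θ₀ O hOcard hconj hsum
    rw [hMcard, hQ, ← pow_mul] at hprod
    have h1 : a - 1 ≤ a' * p := (Nat.pow_le_pow_iff_right hp.one_lt).1 hprod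
    rw [hdeg]
    exact sf_arith1 p (A - e) _ a a' hp.pos hf'pos hih (by omega)
  · obtain ⟨o, ho⟩ := hSdvd
    have ho1 : 1 ≤ o := by
      rcases Nat.eq_zero_or_pos o with h | h
      · rw [h, mul_zero] at ho; omega
      · exact h
    have hoO : o ≤ O'.card := by
      rw [ho] at hcount
      exact Nat.le_of_mul_le_mul_left hcount hSpos
    have hO'le : O'.card ≤ p := by rw [← hOcard]; exact Finset.card_le_card hO'sub
    have hop : o = p := by
      by_contra hne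
      have hlt : o < p := by omega
      have hcop : Nat.Coprime (p ^ e) o := by
        apply Nat.Coprime.pow_left
        rw [Nat.Prime.coprime_iff_not_dvd hp]
        exact Nat.not_dvd_of_pos_of_lt ho1 hlt
      rw [ho] at he
      exact hcase (hcop.dvd_of_dvd_mul_right he)
    have hO'eq : O' = O := by
      apply Finset.eq_of_subset_of_card_le hO'sub
      rw [hOcard]; omega
    have he1 : 1 ≤ e := by
      rcases Nat.eq_zero_or_pos e with h | h
      · exfalso; apply hcase; rw [h, pow_zero]; exact one_dvd _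
      · exact h
    have hdiv' : p ^ (e - 1) ∣ Nat.card (sfStab (p ^ A) hexpM (θ₀ : M → ℂ)) := by
      rw [ho, hop] at he
      have h1 : p ^ e = p ^ (e - 1) * p := by rw [← pow_succ]; congr 1; omega
      rw [h1] at he
      exact Nat.dvd_of_mul_dvd_mul_right hp.pos he
    have hθfaith : ∀ x : M, (θ₀ : M → ℂ) x = (θ₀ : M → ℂ) 1 → x = 1 := by
      intro x hx
      have hxK : x ∈ irrKer θ₀ := (mem_irrKer θ₀ x).2 hx
      have h1 : (χ : H → ℂ) (x : H) = (χ : H → ℂ) 1 := by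
        have h2 := hsum x
        have h3 := hsum 1
        rw [OneMemClass.coe_one] at h3
        rw [h2, h3]
        refine Finset.sum_congr rfl (fun ξ hξ => ?_)
        rw [← hO'eq] at hξ
        obtain ⟨u, hu⟩ := hO'gal ξ hξ
        have h4 := sf_gal_ker (p ^ A) hexpM θ₀ ξ u hu
        rw [← h4] at hxK
        exact (mem_irrKer ξ x).1 hxK
      exact Subtype.ext (hfaith _ h1)
    have hih := ih (a - 1) (by omega) M hexpM hMcard (by omega) θ₀ hθfaith (e - 1) hdiv'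
    have h5 : A - (e - 1) = (A - e) + 1 := by omega
    rw [h5] at hih
    rw [hdeg]
    exact sf_arith2 p (A - e) _ a hp2 hf'pos (by omega) ha0 hih

/-- Schur's bound for a faithful irreducible character of a `p`-group in terms of the degree
of its field of values. -/
theorem sf_main {P : Type u} [Group P] [Finite P] (p a : ℕ) (hp : p.Prime) (ha : 0 < a)
    (hP : Nat.card P = p ^ a) (χ : IrrCharacter P)
    (hfaith : ∀ g : P, (χ : P → ℂ) g = (χ : P → ℂ) 1 → g = 1) (f t : ℕ)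
    (hf : charDegree (χ : P → ℂ) = f)
    (hfield : Module.finrank ℚ (IntermediateField.adjoin ℚ (Set.range (χ : P → ℂ)))
      = (p - 1) * p ^ t) :
    (p - 1) * a ≤ (f - 1) + (p - 1) * (t + 1) * f := by
  classical
  haveI : NeZero (p ^ a) := ⟨pow_ne_zero _ hp.ne_zero⟩
  have hp2 : 2 ≤ p := hp.two_le
  have hexp : ∀ g : P, g ^ (p ^ a) = 1 := by
    intro g; rw [← hP]; exact pow_card_eq_one'
  have hq : 0 < p - 1 := by omega
  have hfin : Module.finrank ℚ (IntermediateField.adjoin ℚ (Set.range (χ : P → ℂ))) ≠ 0 := by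
    rw [hfield]
    exact (Nat.mul_pos hq (pow_pos hp.pos t)).ne'
  have h1 := sf_finrank (p ^ a) (pow_pos hp.pos a) (by rw [hP]) hexp (χ : P → ℂ)
    (irr_isCharacter χ) hfin
  have hcU : Nat.card (ZMod (p ^ a))ˣ = p ^ (a - 1) * (p - 1) := by
    rw [Nat.card_eq_fintype_card, ZMod.card_units_eq_totient, Nat.totient_prime_pow hp ha]
  rw [hcU, hfield] at h1
  have hSdvd : Nat.card (sfStab (p ^ a) hexp (χ : P → ℂ)) ∣ p ^ (a - 1) * (p - 1) := by
    rw [← hcU]; exact Subgroup.card_subgroup_dvd_card _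
  obtain ⟨d₁, d₂, hd₁, hd₂, hd⟩ := (Nat.dvd_mul).1 hSdvd
  obtain ⟨j, -, hj⟩ := (Nat.dvd_prime_pow hp).1 hd₁
  have hd₂le : d₂ ≤ p - 1 := Nat.le_of_dvd hq hd₂
  have hlt : p ^ (a - 1) < p ^ (j + 1 + t) := by
    have h2 : p ^ (a - 1) * (p - 1) ≤ (p ^ j * d₂) * ((p - 1) * p ^ t) := by
      rw [← hj, hd]; exact h1
    have h3 : p ^ (a - 1) * (p - 1) ≤ (p ^ j * d₂ * p ^ t) * (p - 1) := by
      calc p ^ (a - 1) * (p - 1) ≤ (p ^ j * d₂) * ((p - 1) * p ^ t) := h2
        _ = (p ^ j * d₂ * p ^ t) * (p - 1) := by ring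
    have h4 : p ^ (a - 1) ≤ p ^ j * d₂ * p ^ t := Nat.le_of_mul_le_mul_right h3 hq
    calc p ^ (a - 1) ≤ p ^ j * d₂ * p ^ t := h4
      _ < p ^ j * p * p ^ t := by
          apply Nat.mul_lt_mul_of_pos_right _ (pow_pos hp.pos t)
          exact Nat.mul_lt_mul_of_pos_left (by omega) (pow_pos hp.pos j)
      _ = p ^ (j + 1 + t) := by ring
  have hjt : a - 1 < j + 1 + t := (Nat.pow_lt_pow_iff_right hp.one_lt).1 hlt
  have hdiv : p ^ (a - 1 - t) ∣ Nat.card (sfStab (p ^ a) hexp (χ : P → ℂ)) := by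
    rw [← hd, hj]
    exact Dvd.dvd.mul_right (pow_dvd_pow p (by omega)) d₂
  have h5 := sf_bound p hp a a P hexp hP le_rfl χ hfaith (a - 1 - t) hdiv
  rw [hf] at h5
  have h6 : a - (a - 1 - t) ≤ t + 1 := by omega
  calc (p - 1) * a ≤ (f - 1) + (p - 1) * (a - (a - 1 - t)) * f := h5
    _ ≤ (f - 1) + (p - 1) * (t + 1) * f :=
        Nat.add_le_add_left (Nat.mul_le_mul_right f (Nat.mul_le_mul_left (p - 1) h6)) _

end Cfsg.Agent.Helper25
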