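import Mathlib

/-!
# An abstract coherence argument (helper25)

The combinatorial core of the Brauer–Leonard analysis of groups with a trivial-intersection
abelian Sylow subgroup: integer-valued "multiplicity" functions `B i a`, whose differences have
prescribed inner products, cannot contain a "mixed" row.
-/

set_option autoImplicit false

namespace Cfsg.Agent.Helper25

/-- An integer function of square-norm two, positive at `χ` and orthogonal to a positive degree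
function, is `δ_χ - δ_χ'`. -/
theorem tic_norm2 {I : Type*} [Fintype I] [DecidableEq I] (f : I → ℤ) (deg : I → ℤ)
    (hdeg : ∀ i, 1 ≤ deg i) (χ : I) (hχ : 1 ≤ f χ)
    (hnorm : ∑ i, f i ^ 2 = 2) (hd : ∑ i, f i * deg i = 0) :
    ∃ χ' : I, χ' ≠ χ ∧ f χ = 1 ∧ f χ' = -1 ∧ ∀ i, i ≠ χ → i ≠ χ' → f i = 0 := by
  have h1 : f χ ^ 2 + ∑ i ∈ Finset.univ.erase χ, f i ^ 2 = 2 := by
    have h := Finset.add_sum_erase Finset.univ (fun i => f i ^ 2) (Finset.mem_univ χ)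
    rw [h]; exact hnorm
  have hnn : 0 ≤ ∑ i ∈ Finset.univ.erase χ, f i ^ 2 :=
    Finset.sum_nonneg (fun i _ => sq_nonneg _)
  have hfχ : f χ = 1 := by nlinarith
  rw [hfχ] at h1
  have h2 : ∑ i ∈ Finset.univ.erase χ, f i ^ 2 = 1 := by linarith
  obtain ⟨χ', hχ'mem, hχ'ne⟩ : ∃ χ' ∈ Finset.univ.erase χ, f χ' ≠ 0 := by
    by_contra hcon
    push_neg at hcon
    rw [Finset.sum_eq_zero (fun i hi => by rw [hcon i hi]; ring)] at h2
    norm_num at h2
  have h3 : f χ' ^ 2 + ∑ i ∈ (Finset.univ.erase χ).erase χ', f i ^ 2 = 1 := by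
    have h := Finset.add_sum_erase (Finset.univ.erase χ) (fun i => f i ^ 2) hχ'mem
    rw [h]; exact h2
  have hnn2 : 0 ≤ ∑ i ∈ (Finset.univ.erase χ).erase χ', f i ^ 2 :=
    Finset.sum_nonneg (fun i _ => sq_nonneg _)
  have hsq1 : 1 ≤ f χ' ^ 2 := by
    rcases lt_or_gt_of_ne hχ'ne with h | h
    · nlinarith
    · nlinarith
  have hsq : f χ' ^ 2 = 1 := by linarith
  have hrest : ∑ i ∈ (Finset.univ.erase χ).erase χ', f i ^ 2 = 0 := by linarith
  have hzero : ∀ i, i ≠ χ → i ≠ χ' → f i = 0 := by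
    intro i h1' h2'
    have h4 := (Finset.sum_eq_zero_iff_of_nonneg (fun j _ => sq_nonneg (f j))).mp hrest i
      (by simp [h1', h2'])
    exact pow_eq_zero_iff (by norm_num) |>.mp h4
  have hχ'χ : χ' ≠ χ := Finset.ne_of_mem_erase hχ'mem
  have hd2 : f χ * deg χ + f χ' * deg χ' = 0 := by
    have ha := Finset.add_sum_erase Finset.univ (fun i => f i * deg i) (Finset.mem_univ χ)
    have hb := Finset.add_sum_erase (Finset.univ.erase χ) (fun i => f i * deg i) hχ'mem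
    rw [← hd, ← ha, ← hb]
    rw [Finset.sum_eq_zero (fun i hi => by
      have hi1 : i ≠ χ' := Finset.ne_of_mem_erase hi
      have hi2 : i ≠ χ := Finset.ne_of_mem_erase (Finset.mem_of_mem_erase hi)
      rw [hzero i hi2 hi1, zero_mul])]
    ring
  have hval : f χ' = 1 ∨ f χ' = -1 := by
    have h5 : (f χ' - 1) * (f χ' + 1) = 0 := by ring_nf; linarith
    rcases mul_eq_zero.mp h5 with h | h
    · left; linarith
    · right; linarith
  refine ⟨χ', hχ'χ, hfχ, ?_, hzero⟩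
  rcases hval with h | h
  · exfalso
    rw [hfχ, h] at hd2
    have h6 := hdeg χ
    have h7 := hdeg χ'
    linarith
  · exact h

/-- Sum of a function of the shape `δ_χ - δ_χ'` against another function. -/
theorem tic_sum_delta {I : Type*} [Fintype I] [DecidableEq I] (f g : I → ℤ) (χ χ' : I)
    (hne : χ' ≠ χ) (h1 : f χ = 1) (h2 : f χ' = -1) (h0 : ∀ i, i ≠ χ → i ≠ χ' → f i = 0) :
    ∑ i, g i * f i = g χ - g χ' := by
  have ha := Finset.add_sum_erase Finset.univ (fun i => g i * f i) (Finset.mem_univ χ)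
  have hb := Finset.add_sum_erase (Finset.univ.erase χ) (fun i => g i * f i)
    (Finset.mem_erase.mpr ⟨hne, Finset.mem_univ χ'⟩)
  rw [← ha, ← hb]
  rw [Finset.sum_eq_zero (fun i hi => by
    have hi1 : i ≠ χ' := Finset.ne_of_mem_erase hi
    have hi2 : i ≠ χ := Finset.ne_of_mem_erase (Finset.mem_of_mem_erase hi)
    rw [h0 i hi2 hi1, mul_zero])]
  rw [h1, h2]; ring

/-- The abstract coherence argument: a row `χ` of the multiplicity table cannot contain both the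
trivial column and a column of the family `O`. -/
theorem tic_core {I J : Type*} [Fintype I] [DecidableEq I] [DecidableEq J]
    (B : I → J → ℤ) (deg : I → ℤ) (M : J → J → ℤ) (κ e : ℕ) (O : Finset J) (triv nu0 : J)
    (one χ : I) (θ₁ θ₀ θ₀' : J)
    (hκ : 0 < κ) (hdeg : ∀ i, 1 ≤ deg i)
    (hMsymm : ∀ a c, M a c = M c a)
    (hP1 : ∀ a ∈ O, ∀ b ∈ O, ∀ c ∈ O, ∀ d ∈ O,
      (κ : ℤ) * ∑ i, (B i a - B i b) * (B i c - B i d) = M a c - M a d - M b c + M b d)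
    (hP1' : ∀ c ∈ O, ∀ d ∈ O,
      (κ : ℤ) * ∑ i, (B i triv - B i nu0) * (B i c - B i d)
        = M triv c - M triv d - M nu0 c + M nu0 d)
    (hP1'' : (κ : ℤ) * ∑ i, (B i triv - B i nu0) * (B i triv - B i nu0)
      = M triv triv - M triv nu0 - M nu0 triv + M nu0 nu0)
    (hP2 : ∀ a ∈ O, ∀ b ∈ O, ∑ i, (B i a - B i b) * deg i = 0)
    (hP2' : ∑ i, (B i triv - B i nu0) * deg i = 0)
    (hMself : ∀ a ∈ O, M a a = κ)
    (hMtt : M triv triv = e * κ) (hMnn : M nu0 nu0 = κ) (hMtn : M triv nu0 = 0)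
    (hMt : ∀ a ∈ O, M triv a = 0)
    (hinv : ∀ a ∈ O, ∀ c ∈ O, M a c ≠ 0 → B χ a = B χ c)
    (hinv' : ∀ c ∈ O, M nu0 c ≠ 0 → B χ nu0 = B χ c)
    (hclass : ∀ a ∈ O, (O.filter (fun c => M a c ≠ 0)).card ≤ e)
    (hclass' : (O.filter (fun c => M nu0 c ≠ 0)).card ≤ e)
    (hcard : e * e < O.card)
    (hone : B one triv = 1) (hone0 : B one nu0 = 0) (honeO : ∀ a ∈ O, B one a = 0)
    (hBnn : ∀ i a, 0 ≤ B i a)
    (hχ1 : 1 ≤ B χ triv) (hχ0 : B χ nu0 = 0)
    (hθ₁ : θ₁ ∈ O) (hθ₁B : 1 ≤ B χ θ₁)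
    (hθ₀ : θ₀ ∈ O) (hθ₀' : θ₀' ∈ O) (hz : B χ θ₀ = 0) (hz' : B χ θ₀' = 0)
    (hnc : M θ₀ θ₀' = 0) : False := by
  classical
  have hκZ : (0 : ℤ) < κ := by exact_mod_cast hκ
  have hχone : χ ≠ one := by
    intro h; rw [h, honeO θ₁ hθ₁] at hθ₁B; norm_num at hθ₁B
  have hM10 : M θ₁ θ₀ = 0 := by
    by_contra h
    have h' := hinv θ₁ hθ₁ θ₀ hθ₀ h
    rw [hz] at h'; linarith
  have hM10' : M θ₁ θ₀' = 0 := by
    by_contra h
    have h' := hinv θ₁ hθ₁ θ₀' hθ₀' h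
    rw [hz'] at h'; linarith
  have hMn1 : M nu0 θ₁ = 0 := by
    by_contra h
    have h' := hinv' θ₁ hθ₁ h
    rw [hχ0] at h'; linarith
  have key : ∀ a ∈ O, ∀ b ∈ O, M a b = 0 → 1 ≤ B χ a → B χ b = 0 →
      ∃ χ' : I, χ' ≠ χ ∧ (B χ a - B χ b) = 1 ∧ (B χ' a - B χ' b) = -1 ∧
        ∀ i, i ≠ χ → i ≠ χ' → B i a - B i b = 0 := by
    intro a ha b hb hab h1 h0
    apply tic_norm2 (fun i => B i a - B i b) deg hdeg χ (by rw [h0]; simpa using h1)
    · have h := hP1 a ha b hb a ha b hb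
      rw [hMself a ha, hMself b hb, hab, hMsymm b a, hab] at h
      have h2 : (κ : ℤ) * ∑ i, (B i a - B i b) ^ 2 = (κ : ℤ) * 2 := by
        have h3 : ∑ i, (B i a - B i b) ^ 2 = ∑ i, (B i a - B i b) * (B i a - B i b) :=
          Finset.sum_congr rfl (fun i _ => by ring)
        rw [h3, h]; ring
      exact mul_left_cancel₀ hκZ.ne' h2
    · exact hP2 a ha b hb
  have stepI : ∀ θ₂ ∈ O, M θ₁ θ₂ = 0 → B χ θ₂ = 0 := by
    intro θ₂ hθ₂ h12
    by_contra hne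
    have hpos : 1 ≤ B χ θ₂ := by
      have h := hBnn χ θ₂; omega
    have hM20' : M θ₂ θ₀' = 0 := by
      by_contra h
      have h' := hinv θ₂ hθ₂ θ₀' hθ₀' h
      rw [hz'] at h'; omega
    have hM02 : M θ₀ θ₂ = 0 := by
      rw [hMsymm]
      by_contra h
      have h' := hinv θ₂ hθ₂ θ₀ hθ₀ h
      rw [hz] at h'; omega
    obtain ⟨χ', hχ', hf1, hf2, hf0⟩ := key θ₁ hθ₁ θ₀ hθ₀ hM10 hθ₁B hz
    obtain ⟨χ'', hχ'', hg1, hg2, hg0⟩ := key θ₂ hθ₂ θ₀' hθ₀' hM20' hpos hz'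
    have h := hP1 θ₁ hθ₁ θ₀ hθ₀ θ₂ hθ₂ θ₀' hθ₀'
    rw [h12, hM10', hM02, hnc] at h
    have hsum : ∑ i, (B i θ₁ - B i θ₀) * (B i θ₂ - B i θ₀') = 0 := by
      have h4 : (κ : ℤ) * ∑ i, (B i θ₁ - B i θ₀) * (B i θ₂ - B i θ₀') = (κ : ℤ) * 0 := by
        rw [h]; ring
      exact mul_left_cancel₀ hκZ.ne' h4
    have hs := tic_sum_delta (fun i => B i θ₂ - B i θ₀') (fun i => B i θ₁ - B i θ₀) χ χ''
      hχ'' hg1 hg2 hg0
    beta_reduce at hs
    rw [hs] at hsum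
    have hval : B χ'' θ₁ - B χ'' θ₀ = 0 ∨ B χ'' θ₁ - B χ'' θ₀ = -1 := by
      by_cases hc : χ'' = χ'
      · right; rw [hc]; exact hf2
      · left; exact hf0 χ'' hχ'' hc
    rcases hval with hv | hv <;> omega
  set T := O.filter (fun θ => M θ₁ θ = 0 ∧ M nu0 θ = 0) with hT
  have hTmem : ∀ θ ∈ T, θ ∈ O ∧ M θ₁ θ = 0 ∧ M nu0 θ = 0 := by
    intro θ hθ; rw [hT, Finset.mem_filter] at hθ; exact hθ
  have hfam : ∀ θ ∈ T, ∃ χ' : I, χ' ≠ χ ∧ (B χ θ₁ - B χ θ) = 1 ∧ (B χ' θ₁ - B χ' θ) = -1 ∧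
        ∀ i, i ≠ χ → i ≠ χ' → B i θ₁ - B i θ = 0 := by
    intro θ hθ
    obtain ⟨hθO, h1, h2⟩ := hTmem θ hθ
    exact key θ₁ hθ₁ θ hθO h1 hθ₁B (stepI θ hθO h1)
  haveI : Inhabited I := ⟨χ⟩
  choose! Φ hΦne hΦ1 hΦ2 hΦ0 using hfam
  have hG1 : ∑ i, (B i triv - B i nu0) * (B i triv - B i nu0) = (e : ℤ) + 1 := by
    have h := hP1''
    rw [hMtt, hMnn, hMtn, hMsymm nu0 triv, hMtn] at h
    have h4 : (κ : ℤ) * ∑ i, (B i triv - B i nu0) * (B i triv - B i nu0)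
        = (κ : ℤ) * ((e : ℤ) + 1) := by rw [h]; ring
    exact mul_left_cancel₀ hκZ.ne' h4
  have hGΦ : ∀ θ ∈ T, B (Φ θ) triv - B (Φ θ) nu0 = B χ triv - B χ nu0 := by
    intro θ hθ
    obtain ⟨hθO, h1, h2⟩ := hTmem θ hθ
    have h := hP1' θ₁ hθ₁ θ hθO
    rw [hMt θ₁ hθ₁, hMt θ hθO, hMn1, h2] at h
    have hsum : ∑ i, (B i triv - B i nu0) * (B i θ₁ - B i θ) = 0 := by
      have h4 : (κ : ℤ) * ∑ i, (B i triv - B i nu0) * (B i θ₁ - B i θ) = (κ : ℤ) * 0 := by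
        rw [h]; ring
      exact mul_left_cancel₀ hκZ.ne' h4
    have hs := tic_sum_delta (fun i => B i θ₁ - B i θ) (fun i => B i triv - B i nu0) χ (Φ θ)
      (hΦne θ hθ) (hΦ1 θ hθ) (hΦ2 θ hθ) (hΦ0 θ hθ)
    beta_reduce at hs
    rw [hs] at hsum
    linarith
  have hΦone : ∀ θ ∈ T, Φ θ ≠ one := by
    intro θ hθ h
    obtain ⟨hθO, h1, h2⟩ := hTmem θ hθ
    have h3 := hΦ2 θ hθ
    rw [h, honeO θ₁ hθ₁, honeO θ hθO] at h3
    norm_num at h3
  have hfib : ∀ i ∈ T.image Φ, (T.filter (fun θ => Φ θ = i)).card ≤ e := by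
    intro i hi
    obtain ⟨θ, hθ, rfl⟩ := Finset.mem_image.mp hi
    obtain ⟨hθO, h1, h2⟩ := hTmem θ hθ
    refine le_trans (Finset.card_le_card ?_) (hclass θ hθO)
    intro θ' hθ'
    rw [Finset.mem_filter] at hθ' ⊢
    obtain ⟨hθ'T, hΦeq⟩ := hθ'
    obtain ⟨hθ'O, h1', h2'⟩ := hTmem θ' hθ'T
    refine ⟨hθ'O, ?_⟩
    intro hM
    have h := hP1 θ₁ hθ₁ θ hθO θ₁ hθ₁ θ' hθ'O
    rw [hMself θ₁ hθ₁, h1', hMsymm θ θ₁, h1, hM] at h
    have hsum : ∑ i, (B i θ₁ - B i θ) * (B i θ₁ - B i θ') = 1 := by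
      have h4 : (κ : ℤ) * ∑ i, (B i θ₁ - B i θ) * (B i θ₁ - B i θ') = (κ : ℤ) * 1 := by
        rw [h]; ring
      exact mul_left_cancel₀ hκZ.ne' h4
    have hs := tic_sum_delta (fun i => B i θ₁ - B i θ') (fun i => B i θ₁ - B i θ) χ (Φ θ')
      (hΦne θ' hθ'T) (hΦ1 θ' hθ'T) (hΦ2 θ' hθ'T) (hΦ0 θ' hθ'T)
    beta_reduce at hs
    rw [hs, hΦeq] at hsum
    have h5 := hΦ1 θ hθ
    have h6 := hΦ2 θ hθ
    omega
  have hcardT : O.card ≤ T.card + e + e := by
    have hsub : O ⊆ T ∪ (O.filter (fun c => M θ₁ c ≠ 0)) ∪ (O.filter (fun c => M nu0 c ≠ 0)) := by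
      intro θ hθ
      by_cases h1 : M θ₁ θ = 0
      · by_cases h2 : M nu0 θ = 0
        · exact Finset.mem_union_left _ (Finset.mem_union_left _
            (by rw [hT, Finset.mem_filter]; exact ⟨hθ, h1, h2⟩))
        · exact Finset.mem_union_right _ (by rw [Finset.mem_filter]; exact ⟨hθ, h2⟩)
      · exact Finset.mem_union_left _ (Finset.mem_union_right _
          (by rw [Finset.mem_filter]; exact ⟨hθ, h1⟩))
    have h1 := Finset.card_le_card hsub
    have h2 := Finset.card_union_le (T ∪ (O.filter (fun c => M θ₁ c ≠ 0)))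
      (O.filter (fun c => M nu0 c ≠ 0))
    have h3 := Finset.card_union_le T (O.filter (fun c => M θ₁ c ≠ 0))
    have h4 := hclass θ₁ hθ₁
    omega
  have himg : T.card ≤ e * (T.image Φ).card := Finset.card_le_mul_card_image T e hfib
  have himg2 : e ≤ (T.image Φ).card + 1 := by
    by_contra hcon
    push_neg at hcon
    obtain ⟨k, hk⟩ : ∃ k, e = k + 2 := ⟨e - 2, by omega⟩
    have h7 : (T.image Φ).card ≤ k := by omega
    have h8 : T.card ≤ e * k := le_trans himg (Nat.mul_le_mul_left e h7)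
    rw [hk] at h8 hcard hcardT
    nlinarith
  set X := insert one (insert χ (T.image Φ)) with hX
  have hχnot : χ ∉ T.image Φ := by
    intro h
    obtain ⟨θ, hθ, h'⟩ := Finset.mem_image.mp h
    exact hΦne θ hθ h'
  have honenot : one ∉ insert χ (T.image Φ) := by
    intro h
    rcases Finset.mem_insert.mp h with h | h
    · exact hχone h.symm
    · obtain ⟨θ, hθ, h'⟩ := Finset.mem_image.mp h
      exact hΦone θ hθ h'
  have hXcard : X.card = (T.image Φ).card + 2 := by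
    rw [hX, Finset.card_insert_of_notMem honenot, Finset.card_insert_of_notMem hχnot]
  have hXval : ∀ i ∈ X, 1 ≤ B i triv - B i nu0 := by
    intro i hi
    rw [hX] at hi
    rcases Finset.mem_insert.mp hi with h | h
    · rw [h, hone, hone0]; norm_num
    · rcases Finset.mem_insert.mp h with h | h
      · rw [h, hχ0]; linarith
      · obtain ⟨θ, hθ, rfl⟩ := Finset.mem_image.mp h
        rw [hGΦ θ hθ, hχ0]; linarith
  have hsq : (X.card : ℤ) ≤ ∑ i ∈ X, (B i triv - B i nu0) * (B i triv - B i nu0) := by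
    have h9 : ∑ i ∈ X, (1 : ℤ) ≤ ∑ i ∈ X, (B i triv - B i nu0) * (B i triv - B i nu0) :=
      Finset.sum_le_sum (fun i hi => by have h := hXval i hi; nlinarith)
    simpa using h9
  have hsplit := Finset.sum_add_sum_compl X
    (fun i => (B i triv - B i nu0) * (B i triv - B i nu0))
  beta_reduce at hsplit
  have hcompl_nonneg : 0 ≤ ∑ i ∈ Xᶜ, (B i triv - B i nu0) * (B i triv - B i nu0) :=
    Finset.sum_nonneg (fun i _ => mul_self_nonneg _)
  have hXe1 : (e : ℤ) + 1 ≤ X.card := by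
    rw [hXcard]; push_cast; omega
  have hXe : ∑ i ∈ Xᶜ, (B i triv - B i nu0) * (B i triv - B i nu0) = 0 := by linarith
  have hzero : ∀ i ∈ Xᶜ, B i triv - B i nu0 = 0 := by
    intro i hi
    have h := (Finset.sum_eq_zero_iff_of_nonneg
      (fun j _ => mul_self_nonneg (B j triv - B j nu0))).mp hXe i hi
    exact mul_self_eq_zero.mp h
  have hsplit2 := Finset.sum_add_sum_compl X (fun i => (B i triv - B i nu0) * deg i)
  beta_reduce at hsplit2
  have hcz : ∑ i ∈ Xᶜ, (B i triv - B i nu0) * deg i = 0 :=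
    Finset.sum_eq_zero (fun i hi => by rw [hzero i hi, zero_mul])
  have hpos : 0 < ∑ i ∈ X, (B i triv - B i nu0) * deg i := by
    apply Finset.sum_pos
    · intro i hi
      have h := hXval i hi
      have h' := hdeg i
      exact mul_pos (by linarith) (by linarith)
    · exact ⟨one, by rw [hX]; exact Finset.mem_insert_self _ _⟩
  linarith

end Cfsg.Agent.Helper25
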