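import Mathlib
import Cfsg.Prelude.Def_Characters
import Cfsg.Agent.Helper25.CharBasic
import Cfsg.Agent.Helper25.CharMore
import Cfsg.Agent.Helper25.CharOrth
import Cfsg.Agent.Helper25.CharClass
import Cfsg.Agent.Helper25.CharKer
import Cfsg.Agent.Helper25.GalConj
import Cfsg.Agent.Helper25.TICore
import Cfsg.Agent.Helper2.CharExtra
import Cfsg.Agent.Helper2.Ind
import Cfsg.Agent.Helper2.IndExtra
import Cfsg.Agent.Helper7.DetChar

/-!
# Groups with a trivial-intersection abelian Sylow subgroup (helper25)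

Character theory for S4486 (Brauer–Leonard): inner products of the generalized characters
induced from differences of irreducible characters of the centralizer `C` of the Sylow subgroup.
-/

set_option autoImplicit false

namespace Cfsg.Agent.Helper25

open Classical

universe u

variable {G : Type u} [Group G] [Fintype G]

/-- The conjugate of a function on `C` by `x` (zero where the conjugate leaves `C`). -/
noncomputable def tiCj (C : Subgroup G) (x : G) (θ : C → ℂ) : C → ℂ :=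
  fun c => Cfsg.extendByZero C θ (x⁻¹ * (c : G) * x)

theorem tiCj_apply (C : Subgroup G) (x : G) (θ : C → ℂ) (c : C) (h : x⁻¹ * (c : G) * x ∈ C) :
    tiCj C x θ c = θ ⟨x⁻¹ * (c : G) * x, h⟩ := Helper2.extendByZero_of_mem C θ h

/-- The trivial-intersection data: `Nn` normalizes `C`, and only `p`-regular elements of `C` are
conjugated into `C` by elements outside `Nn`. -/
structure TIData (C Nn : Subgroup G) (p : ℕ) : Prop where
  le : C ≤ Nn
  norm : ∀ x ∈ Nn, ∀ c ∈ C, x⁻¹ * c * x ∈ C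
  ti : ∀ x : G, x ∉ Nn → ∀ c ∈ C, x⁻¹ * c * x ∈ C → ¬ p ∣ orderOf c

theorem tiCj_irr {C Nn : Subgroup G} {p : ℕ} (h : TIData C Nn p) (x : G) (hx : x ∈ Nn)
    (θ : Cfsg.IrrCharacter C) : Cfsg.IsIrrCharacter C (tiCj C x (θ : C → ℂ)) := by
  let φ : C →* C :=
    { toFun := fun c => ⟨x⁻¹ * (c : G) * x, h.norm x hx c c.2⟩
      map_one' := by apply Subtype.ext; simp
      map_mul' := by
        intro a b
        apply Subtype.ext
        show x⁻¹ * ((a : G) * (b : G)) * x = (x⁻¹ * (a : G) * x) * (x⁻¹ * (b : G) * x)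
        group }
  have hsurj : Function.Surjective φ := by
    intro c
    refine ⟨⟨x * (c : G) * x⁻¹, ?_⟩, ?_⟩
    · have h1 := h.norm x⁻¹ (inv_mem hx) c c.2
      simpa using h1
    · apply Subtype.ext
      show x⁻¹ * (x * (c : G) * x⁻¹) * x = c
      group
  have h2 := Helper2.isIrrCharacter_comp_of_surjective φ hsurj θ.2
  have heq : tiCj C x (θ : C → ℂ) = fun c => (θ : C → ℂ) (φ c) := by
    funext c
    exact tiCj_apply C x _ c (h.norm x hx c c.2)
  rw [heq]; exact h2

/-- The induction formula on `C` for class functions vanishing on `p`-regular elements. -/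
theorem ti_ind_formula {C Nn : Subgroup G} {p : ℕ} (h : TIData C Nn p) (g : C → ℂ)
    (hg : ∀ c : C, ¬ p ∣ orderOf (c : G) → g c = 0) (c₀ : C) :
    Cfsg.indFun C g (c₀ : G)
      = (Nat.card C : ℂ)⁻¹ * ∑ x : G, if x ∈ Nn then tiCj C x g c₀ else 0 := by
  classical
  rw [Helper2.indFun_apply]
  congr 1
  apply Finset.sum_congr rfl
  intro x _
  by_cases hx : x ∈ Nn
  · rw [if_pos hx]; rfl
  · rw [if_neg hx]
    by_cases hmem : x⁻¹ * (c₀ : G) * x ∈ C
    · rw [Helper2.extendByZero_of_mem C g hmem]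
      apply hg
      have h1 := h.ti x hx c₀ c₀.2 hmem
      have h2 : orderOf (x⁻¹ * (c₀ : G) * x) = orderOf (c₀ : G) := by
        have h3 := MulEquiv.orderOf_eq (MulAut.conj x⁻¹) (c₀ : G)
        simpa [MulAut.conj_apply] using h3
      show ¬ p ∣ orderOf (x⁻¹ * (c₀ : G) * x)
      rw [h2]; exact h1
    · exact Helper2.extendByZero_of_not_mem C g hmem

/-- The multiplicity of `a` in the restriction of `i` to `C`. -/
noncomputable def tiB (C : Subgroup G) [Fintype C] (i : Cfsg.IrrCharacter G)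
    (a : Cfsg.IrrCharacter C) : ℂ :=
  Cfsg.classInner (a : C → ℂ) (fun c : C => (i : G → ℂ) c)

/-- The number of elements of `Nn` conjugating `c` to `a`. -/
noncomputable def tiM (C Nn : Subgroup G) (a c : Cfsg.IrrCharacter C) : ℕ :=
  Nat.card {x : G // x ∈ Nn ∧ tiCj C x (c : C → ℂ) = (a : C → ℂ)}

theorem ti_card_sum (q : G → Prop) [DecidablePred q] :
    (Nat.card {x : G // q x} : ℂ) = ∑ x : G, if q x then (1 : ℂ) else 0 := by
  rw [Nat.card_eq_fintype_card, Fintype.card_subtype, Finset.card_filter]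
  push_cast
  rfl

theorem tiB_nat (C : Subgroup G) [Fintype C] (i : Cfsg.IrrCharacter G)
    (a : Cfsg.IrrCharacter C) : ∃ m : ℕ, tiB C i a = (m : ℂ) :=
  Helper2.classInner_char_nat (irr_isCharacter a)
    (Helper2.isCharacter_restrict C (irr_isCharacter i))

theorem ti_P1 {C Nn : Subgroup G} [Fintype C] {p : ℕ} (h : TIData C Nn p)
    (a b c d : Cfsg.IrrCharacter C)
    (hcd : ∀ y : C, ¬ p ∣ orderOf (y : G) → (c : C → ℂ) y = (d : C → ℂ) y) :
    (Nat.card C : ℂ) * ∑ i : Cfsg.IrrCharacter G,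
        (tiB C i a - tiB C i b) * (tiB C i c - tiB C i d)
      = (tiM C Nn a c : ℂ) - tiM C Nn a d - tiM C Nn b c + tiM C Nn b d := by
  classical
  set f : C → ℂ := (a : C → ℂ) - (b : C → ℂ) with hf
  set g : C → ℂ := (c : C → ℂ) - (d : C → ℂ) with hg
  have hgz : ∀ y : C, ¬ p ∣ orderOf (y : G) → g y = 0 := by
    intro y hy; rw [hg, Pi.sub_apply, hcd y hy, sub_self]
  have hfrob : ∀ (θ : C → ℂ) (i : Cfsg.IrrCharacter G),
      Cfsg.classInner (Cfsg.indFun C θ) (i : G → ℂ)
        = Cfsg.classInner θ (fun y : C => (i : G → ℂ) y) :=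
    fun θ i => Helper2.frobenius_reciprocity C θ (i : G → ℂ)
      (Helper2.isClassFunction_of_isCharacter (irr_isCharacter i))
  have hsubl : ∀ (θ₁ θ₂ ψ : C → ℂ), Cfsg.classInner (θ₁ - θ₂) ψ
      = Cfsg.classInner θ₁ ψ - Cfsg.classInner θ₂ ψ := by
    intro θ₁ θ₂ ψ
    simp only [Cfsg.classInner, Pi.sub_apply, sub_mul, Finset.sum_sub_distrib, mul_sub]
  have hsubr : ∀ (φ ψ₁ ψ₂ : C → ℂ), Cfsg.classInner φ (ψ₁ - ψ₂)
      = Cfsg.classInner φ ψ₁ - Cfsg.classInner φ ψ₂ := by
    intro φ ψ₁ ψ₂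
    simp only [Cfsg.classInner, Pi.sub_apply, map_sub, mul_sub, Finset.sum_sub_distrib]
  have hF : ∀ i : Cfsg.IrrCharacter G, Cfsg.classInner (Cfsg.indFun C f) (i : G → ℂ) = tiB C i a - tiB C i b := by
    intro i; rw [hfrob, hf, hsubl]; rfl
  have hG : ∀ i : Cfsg.IrrCharacter G, Cfsg.classInner (Cfsg.indFun C g) (i : G → ℂ) = tiB C i c - tiB C i d := by
    intro i; rw [hfrob, hg, hsubl]; rfl
  have hreal : ∀ (i : Cfsg.IrrCharacter G) (θ : Cfsg.IrrCharacter C), (starRingEnd ℂ) (tiB C i θ) = tiB C i θ := by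
    intro i θ
    obtain ⟨m, hm⟩ := tiB_nat C i θ
    rw [hm]; simp
  have hpars := Helper2.classInner_eq_sum_mul (Helper2.indFun_isClassFunction C f)
    (Cfsg.indFun C g)
  have hsum : ∑ i : Cfsg.IrrCharacter G, (tiB C i a - tiB C i b) * (tiB C i c - tiB C i d)
      = Cfsg.classInner (Cfsg.indFun C f) (Cfsg.indFun C g) := by
    rw [hpars]
    apply Finset.sum_congr rfl
    intro i _
    rw [hF, hG, map_sub, hreal, hreal]
  rw [hsum, Helper2.frobenius_reciprocity C f (Cfsg.indFun C g)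
    (Helper2.indFun_isClassFunction C g)]
  have hres : (fun y : C => Cfsg.indFun C g (y : G))
      = (Nat.card C : ℂ)⁻¹ • ∑ x : G, (if x ∈ Nn then tiCj C x g else 0) := by
    funext y
    rw [ti_ind_formula h g hgz y, Pi.smul_apply, Finset.sum_apply, smul_eq_mul]
    congr 1
    apply Finset.sum_congr rfl
    intro x _
    split_ifs <;> rfl
  rw [hres, Helper2.classInner_smul_right, Helper2.classInner_sum_right]
  have hterm : ∀ x : G, Cfsg.classInner f (if x ∈ Nn then tiCj C x g else 0)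
      = (if (x ∈ Nn ∧ tiCj C x (c : C → ℂ) = (a : C → ℂ)) then (1 : ℂ) else 0)
        - (if (x ∈ Nn ∧ tiCj C x (d : C → ℂ) = (a : C → ℂ)) then (1 : ℂ) else 0)
        - (if (x ∈ Nn ∧ tiCj C x (c : C → ℂ) = (b : C → ℂ)) then (1 : ℂ) else 0)
        + (if (x ∈ Nn ∧ tiCj C x (d : C → ℂ) = (b : C → ℂ)) then (1 : ℂ) else 0) := by
    intro x
    by_cases hx : x ∈ Nn
    · rw [if_pos hx]
      have hgx : tiCj C x g = tiCj C x (c : C → ℂ) - tiCj C x (d : C → ℂ) := by
        funext y
        simp only [tiCj, hg, Pi.sub_apply, Helper2.extendByZero_sub]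
      have hirr : ∀ (θ θ' : Cfsg.IrrCharacter C), Cfsg.classInner (θ : C → ℂ) (tiCj C x (θ' : C → ℂ))
          = if (x ∈ Nn ∧ tiCj C x (θ' : C → ℂ) = (θ : C → ℂ)) then (1 : ℂ) else 0 := by
        intro θ θ'
        have h1 := Helper2.classInner_irr_irr θ ⟨_, tiCj_irr h x hx θ'⟩
        rw [h1]
        by_cases he : tiCj C x (θ' : C → ℂ) = (θ : C → ℂ)
        · rw [if_pos (Subtype.ext he.symm), if_pos ⟨hx, he⟩]
        · rw [if_neg (fun h' => he (congrArg Subtype.val h').symm), if_neg (fun h' => he h'.2)]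
      rw [hgx, hsubr, hf, hsubl, hsubl, hirr, hirr, hirr, hirr]
      ring
    · rw [if_neg hx]
      have h0 : Cfsg.classInner f (0 : C → ℂ) = 0 := by
        simp [Cfsg.classInner]
      rw [h0, if_neg (fun h' => hx h'.1), if_neg (fun h' => hx h'.1), if_neg (fun h' => hx h'.1),
        if_neg (fun h' => hx h'.1)]
      ring
  have hM : ∀ a' c' : Cfsg.IrrCharacter C, (tiM C Nn a' c' : ℂ)
      = ∑ x : G, if (x ∈ Nn ∧ tiCj C x (c' : C → ℂ) = (a' : C → ℂ)) then (1 : ℂ) else 0 :=
    fun a' c' => ti_card_sum _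
  rw [hM a c, hM a d, hM b c, hM b d]
  rw [Finset.sum_congr rfl (fun x _ => hterm x)]
  simp only [Finset.sum_add_distrib, Finset.sum_sub_distrib]
  have hκ : (Nat.card C : ℂ) ≠ 0 := by
    have h1 : 0 < Nat.card C := Nat.card_pos
    exact_mod_cast h1.ne'
  rw [map_inv₀, Complex.conj_natCast, ← mul_assoc, mul_inv_cancel₀ hκ, one_mul]

theorem ti_P2 (C : Subgroup G) [Fintype C] (a : Cfsg.IrrCharacter C) :
    ∑ i : Cfsg.IrrCharacter G, tiB C i a * (i : G → ℂ) 1 = (C.index : ℂ) * (a : C → ℂ) 1 := by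
  have h := congrFun (Helper2.classFun_eq_sum_classInner
    (Helper2.indFun_isClassFunction C (a : C → ℂ))) 1
  rw [Helper2.indFun_one_apply, Finset.sum_apply] at h
  rw [h]
  apply Finset.sum_congr rfl
  intro i _
  rw [Pi.smul_apply, smul_eq_mul, Helper2.frobenius_reciprocity C _ _
    (Helper2.isClassFunction_of_isCharacter (irr_isCharacter i))]
  rfl

end Cfsg.Agent.Helper25
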