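import Mathlib
import Cfsg.Prelude.Def_Characters
import Cfsg.Agent.Helper25.TISylow

/-!
# Conjugation of irreducible characters of `C` by its normalizer (helper25)

Counting lemmas for the conjugation action used in S4486.
-/

set_option autoImplicit false

namespace Cfsg.Agent.Helper25

open Classical

universe u

variable {G : Type u} [Group G] [Fintype G]

theorem tiCj_one (C : Subgroup G) (θ : C → ℂ) : tiCj C 1 θ = θ := by
  funext c
  have h : (1 : G)⁻¹ * (c : G) * 1 ∈ C := by simp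
  rw [tiCj_apply C 1 θ c h]
  congr 1
  apply Subtype.ext
  simp

theorem tiCj_mul {C Nn : Subgroup G} {p : ℕ} (h : TIData C Nn p) (x y : G) (hx : x ∈ Nn)
    (hy : y ∈ Nn) (θ : C → ℂ) : tiCj C (x * y) θ = tiCj C x (tiCj C y θ) := by
  funext c
  have h1 : x⁻¹ * (c : G) * x ∈ C := h.norm x hx c c.2
  have h2 : y⁻¹ * (x⁻¹ * (c : G) * x) * y ∈ C := h.norm y hy _ h1
  have h3 : (x * y)⁻¹ * (c : G) * (x * y) ∈ C := by
    have : (x * y)⁻¹ * (c : G) * (x * y) = y⁻¹ * (x⁻¹ * (c : G) * x) * y := by group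
    rw [this]; exact h2
  rw [tiCj_apply C (x * y) θ c h3, tiCj_apply C x _ c h1, tiCj_apply C y θ ⟨_, h1⟩ h2]
  congr 1
  apply Subtype.ext
  show (x * y)⁻¹ * (c : G) * (x * y) = y⁻¹ * (x⁻¹ * (c : G) * x) * y
  group

theorem tiCj_of_mem (C : Subgroup G) (x : G) (hx : x ∈ C)
    (θ : Cfsg.IrrCharacter C) : tiCj C x (θ : C → ℂ) = (θ : C → ℂ) := by
  funext c
  have h1 : x⁻¹ * (c : G) * x ∈ C := C.mul_mem (C.mul_mem (C.inv_mem hx) c.2) hx
  rw [tiCj_apply C x _ c h1]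
  have h2 := irr_conj θ c (⟨x, hx⟩ : C)⁻¹
  rw [← h2]
  exact congrArg (θ : C → ℂ) (Subtype.ext (by simp))

theorem tiCj_inv {C Nn : Subgroup G} {p : ℕ} (h : TIData C Nn p) (x : G) (hx : x ∈ Nn)
    (θ θ' : C → ℂ) (hθ : tiCj C x θ = θ') : tiCj C x⁻¹ θ' = θ := by
  rw [← hθ, ← tiCj_mul h _ _ (Nn.inv_mem hx) hx, inv_mul_cancel, tiCj_one]

theorem tiM_symm {C Nn : Subgroup G} {p : ℕ} (h : TIData C Nn p) (a c : Cfsg.IrrCharacter C) :
    tiM C Nn a c = tiM C Nn c a := by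
  unfold tiM
  apply Nat.card_congr
  refine ⟨fun x => ⟨x.1⁻¹, Nn.inv_mem x.2.1, tiCj_inv h x.1 x.2.1 _ _ x.2.2⟩,
    fun x => ⟨x.1⁻¹, Nn.inv_mem x.2.1, tiCj_inv h x.1 x.2.1 _ _ x.2.2⟩, ?_, ?_⟩
  · intro x; apply Subtype.ext; simp
  · intro x; apply Subtype.ext; simp

theorem tiB_conj {C Nn : Subgroup G} [Fintype C] {p : ℕ} (h : TIData C Nn p)
    (i : Cfsg.IrrCharacter G) (a c : Cfsg.IrrCharacter C) (x : G) (hx : x ∈ Nn)
    (hac : tiCj C x (c : C → ℂ) = (a : C → ℂ)) : tiB C i a = tiB C i c := by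
  simp only [tiB, Cfsg.classInner]
  congr 1
  let φ : C ≃ C :=
    { toFun := fun y => ⟨x⁻¹ * (y : G) * x, h.norm x hx y y.2⟩
      invFun := fun y => ⟨x * (y : G) * x⁻¹, by
        have := h.norm x⁻¹ (Nn.inv_mem hx) y y.2; simpa using this⟩
      left_inv := by
        intro y; apply Subtype.ext
        show x * (x⁻¹ * (y : G) * x) * x⁻¹ = y
        group
      right_inv := by
        intro y; apply Subtype.ext
        show x⁻¹ * (x * (y : G) * x⁻¹) * x = y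
        group }
  rw [← Equiv.sum_comp φ (fun y => (c : C → ℂ) y * (starRingEnd ℂ) ((i : G → ℂ) y))]
  apply Finset.sum_congr rfl
  intro y _
  have h1 : (a : C → ℂ) y = (c : C → ℂ) (φ y) := by
    rw [← hac]; exact tiCj_apply C x _ y (h.norm x hx y y.2)
  have h2 : (i : G → ℂ) ((φ y : C) : G) = (i : G → ℂ) y := by
    show (i : G → ℂ) (x⁻¹ * (y : G) * x) = _
    have := irr_conj i (y : G) x⁻¹
    simpa using this
  rw [h1, h2]

/-- Good characters: their stabilizer in `Nn` is `C`. -/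
def TIGood (C Nn : Subgroup G) (θ : Cfsg.IrrCharacter C) : Prop :=
  ∀ x ∈ Nn, tiCj C x (θ : C → ℂ) = (θ : C → ℂ) → x ∈ C

theorem tiM_self {C Nn : Subgroup G} {p : ℕ} (h : TIData C Nn p)
    (θ : Cfsg.IrrCharacter C) (hθ : TIGood C Nn θ) : tiM C Nn θ θ = Nat.card C := by
  unfold tiM
  apply Nat.card_congr
  refine ⟨fun x => ⟨x.1, hθ x.1 x.2.1 x.2.2⟩,
    fun y => ⟨y.1, h.le y.2, tiCj_of_mem C y.1 y.2 θ⟩, ?_, ?_⟩
  · intro x; rfl
  · intro y; rfl

theorem tiM_eq_of_ne_zero {C Nn : Subgroup G} {p : ℕ} (h : TIData C Nn p)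
    (a c : Cfsg.IrrCharacter C) (hne : tiM C Nn a c ≠ 0) : tiM C Nn a c = tiM C Nn c c := by
  have hne' : Nonempty {x : G // x ∈ Nn ∧ tiCj C x (c : C → ℂ) = (a : C → ℂ)} := by
    by_contra hemp
    rw [not_nonempty_iff] at hemp
    exact hne (by unfold tiM; exact Nat.card_of_isEmpty)
  obtain ⟨x₀, hx₀, hx₀a⟩ := hne'
  have hinv : tiCj C x₀⁻¹ (a : C → ℂ) = (c : C → ℂ) := tiCj_inv h x₀ hx₀ _ _ hx₀a
  unfold tiM
  apply Nat.card_congr
  refine ⟨fun x => ⟨x₀⁻¹ * x.1, Nn.mul_mem (Nn.inv_mem hx₀) x.2.1, ?_⟩,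
    fun y => ⟨x₀ * y.1, Nn.mul_mem hx₀ y.2.1, ?_⟩, ?_, ?_⟩
  · rw [tiCj_mul h _ _ (Nn.inv_mem hx₀) x.2.1, x.2.2, hinv]
  · rw [tiCj_mul h _ _ hx₀ y.2.1, y.2.2, hx₀a]
  · intro x; apply Subtype.ext; simp
  · intro y; apply Subtype.ext; simp

theorem tiM_exists {C Nn : Subgroup G} (a c : Cfsg.IrrCharacter C)
    (hne : tiM C Nn a c ≠ 0) : ∃ x ∈ Nn, tiCj C x (c : C → ℂ) = (a : C → ℂ) := by
  have hne' : Nonempty {x : G // x ∈ Nn ∧ tiCj C x (c : C → ℂ) = (a : C → ℂ)} := by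
    by_contra hemp
    rw [not_nonempty_iff] at hemp
    exact hne (by unfold tiM; exact Nat.card_of_isEmpty)
  obtain ⟨x₀, hx₀, hx₀a⟩ := hne'
  exact ⟨x₀, hx₀, hx₀a⟩

theorem tiM_eq_zero {C Nn : Subgroup G} (a c : Cfsg.IrrCharacter C)
    (hne : ∀ x ∈ Nn, tiCj C x (c : C → ℂ) ≠ (a : C → ℂ)) : tiM C Nn a c = 0 := by
  by_contra h0
  obtain ⟨x, hx, hxa⟩ := tiM_exists a c h0
  exact hne x hx hxa

theorem tiM_sum {C Nn : Subgroup G} {p : ℕ} (h : TIData C Nn p) (c : Cfsg.IrrCharacter C) :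
    ∑ a : Cfsg.IrrCharacter C, tiM C Nn a c = Nat.card Nn := by
  let F : G → Cfsg.IrrCharacter C := fun x =>
    if hx : x ∈ Nn then ⟨tiCj C x (c : C → ℂ), tiCj_irr h x hx c⟩ else c
  have h1 : ∀ a : Cfsg.IrrCharacter C, tiM C Nn a c
      = ((Finset.univ.filter (fun x : G => x ∈ Nn)).filter (fun x => F x = a)).card := by
    intro a
    unfold tiM
    rw [Nat.card_eq_fintype_card, Fintype.card_subtype]
    congr 1
    ext x
    simp only [Finset.mem_filter, Finset.mem_univ, true_and]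
    constructor
    · rintro ⟨hx, hxa⟩
      refine ⟨hx, ?_⟩
      simp only [F, dif_pos hx]
      exact Subtype.ext hxa
    · rintro ⟨hx, hxa⟩
      refine ⟨hx, ?_⟩
      simp only [F, dif_pos hx] at hxa
      exact congrArg Subtype.val hxa
  rw [Finset.sum_congr rfl (fun a _ => h1 a)]
  rw [← Finset.card_eq_sum_card_fiberwise (fun x _ => Finset.mem_univ _)]
  show _ = Nat.card {x : G // x ∈ Nn}
  rw [Nat.card_eq_fintype_card, Fintype.card_subtype]

theorem ti_class_card {C Nn : Subgroup G} {p : ℕ} (h : TIData C Nn p) (e : ℕ)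
    (he : Nat.card Nn = e * Nat.card C) (a : Cfsg.IrrCharacter C)
    (ha : tiM C Nn a a = Nat.card C) (O : Finset (Cfsg.IrrCharacter C)) :
    (O.filter (fun c => tiM C Nn a c ≠ 0)).card ≤ e := by
  have hκ : 0 < Nat.card C := Nat.card_pos
  have h1 : ∀ c ∈ O.filter (fun c => tiM C Nn a c ≠ 0), tiM C Nn c a = Nat.card C := by
    intro c hc
    rw [Finset.mem_filter] at hc
    have h2 : tiM C Nn c a ≠ 0 := by rw [tiM_symm h]; exact hc.2
    rw [tiM_eq_of_ne_zero h c a h2, ha]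
  have h3 : ∑ c ∈ O.filter (fun c => tiM C Nn a c ≠ 0), tiM C Nn c a
      ≤ ∑ c : Cfsg.IrrCharacter C, tiM C Nn c a :=
    Finset.sum_le_sum_of_subset (Finset.subset_univ _)
  rw [Finset.sum_congr rfl h1, tiM_sum h a, Finset.sum_const, smul_eq_mul, he] at h3
  exact Nat.le_of_mul_le_mul_right h3 hκ

theorem ti_class_card_ge {C Nn : Subgroup G} {p : ℕ} (h : TIData C Nn p) (e : ℕ)
    (he : Nat.card Nn = e * Nat.card C) (a : Cfsg.IrrCharacter C)
    (ha : tiM C Nn a a = Nat.card C) :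
    e ≤ (Finset.univ.filter (fun c : Cfsg.IrrCharacter C => tiM C Nn c a ≠ 0)).card := by
  have hκ : 0 < Nat.card C := Nat.card_pos
  have h1 : ∀ c ∈ Finset.univ.filter (fun c : Cfsg.IrrCharacter C => tiM C Nn c a ≠ 0),
      tiM C Nn c a = Nat.card C := by
    intro c hc
    rw [Finset.mem_filter] at hc
    rw [tiM_eq_of_ne_zero h c a hc.2, ha]
  have h3 : ∑ c ∈ Finset.univ.filter (fun c : Cfsg.IrrCharacter C => tiM C Nn c a ≠ 0),
      tiM C Nn c a = ∑ c : Cfsg.IrrCharacter C, tiM C Nn c a :=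
    Finset.sum_filter_ne_zero Finset.univ
  rw [Finset.sum_congr rfl h1, tiM_sum h a, Finset.sum_const, smul_eq_mul, he] at h3
  exact le_of_eq (Nat.eq_of_mul_eq_mul_right hκ h3).symm

end Cfsg.Agent.Helper25
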