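import Mathlib
import Cfsg.Prelude.Def_Characters
import Cfsg.Agent.Helper25.TISylow
import Cfsg.Agent.Helper25.TIConj

/-!
# Group theory of a Sylow subgroup whose nonidentity elements have the same centralizer (helper25)

Used for S4486.
-/

set_option autoImplicit false

namespace Cfsg.Agent.Helper25

open Classical

universe u

variable {G : Type u} [Group G] [Fintype G]

/-- The centralizer of the Sylow subgroup. -/
abbrev tiC {p : ℕ} (P : Sylow p G) : Subgroup G :=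
  Subgroup.centralizer ((P : Subgroup G) : Set G)

/-- The normalizer of the centralizer of the Sylow subgroup. -/
abbrev tiN {p : ℕ} (P : Sylow p G) : Subgroup G :=
  Subgroup.normalizer ((tiC P : Subgroup G) : Set G)

/-- The hypothesis of S4486 on the Sylow subgroup. -/
def TIHyp {p : ℕ} (P : Sylow p G) : Prop :=
  ∀ x ∈ (P : Subgroup G), x ≠ 1 → Subgroup.centralizer ({x} : Set G) = tiC P

variable (p : ℕ) [Fact p.Prime] (P : Sylow p G)

theorem tig_le (hpG : p ∣ Nat.card G) (hstar : TIHyp P) : (P : Subgroup G) ≤ tiC P := by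
  have hne : (P : Subgroup G) ≠ ⊥ := P.ne_bot_of_dvd_card hpG
  haveI : Nontrivial (P : Subgroup G) := (Subgroup.nontrivial_iff_ne_bot _).mpr hne
  haveI := IsPGroup.center_nontrivial P.2
  obtain ⟨⟨z, hz⟩, hz1⟩ := exists_ne (1 : Subgroup.center (P : Subgroup G))
  have hzG : (z : G) ≠ 1 := by
    intro h; apply hz1; apply Subtype.ext; apply Subtype.ext; exact h
  have hc := hstar (z : G) z.2 hzG
  intro u hu
  rw [← hc, Subgroup.mem_centralizer_iff]
  intro y hy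
  rw [Set.mem_singleton_iff] at hy
  rw [hy]
  have h1 := Subgroup.mem_center_iff.mp hz ⟨u, hu⟩
  exact (congrArg Subtype.val h1).symm

theorem tig_mem_of_pow (hPC : (P : Subgroup G) ≤ tiC P) (c : G) (hc : c ∈ tiC P) (k : ℕ)
    (hk : c ^ p ^ k = 1) : c ∈ (P : Subgroup G) := by
  have h1 : IsPGroup p (Subgroup.zpowers c) := by
    have hdvd : orderOf c ∣ p ^ k := orderOf_dvd_of_pow_eq_one hk
    obtain ⟨j, _, hj⟩ := (Nat.dvd_prime_pow (Fact.out : p.Prime)).mp hdvd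
    exact IsPGroup.of_card (n := j) (by rw [Nat.card_zpowers, hj])
  have h2 : Subgroup.zpowers c ≤ Subgroup.normalizer ((P : Subgroup G) : Set G) := by
    rw [Subgroup.zpowers_le, Subgroup.mem_normalizer_iff]
    intro g
    constructor
    · intro hg
      have h3 : g * c = c * g := Subgroup.mem_centralizer_iff.mp hc g hg
      have h4 : c * g * c⁻¹ = g := by rw [← h3]; group
      rw [h4]; exact hg
    · intro hg
      have h3 : (c * g * c⁻¹) * c = c * (c * g * c⁻¹) :=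
        Subgroup.mem_centralizer_iff.mp hc _ hg
      have h4 : g = c * g * c⁻¹ := by
        calc g = c⁻¹ * ((c * g * c⁻¹) * c) := by group
          _ = c⁻¹ * (c * (c * g * c⁻¹)) := by rw [h3]
          _ = c * g * c⁻¹ := by group
      rw [h4]; exact hg
  have h5 := IsPGroup.to_sup_of_normal_right' h1 P.2 h2
  have h6 := P.is_maximal' h5 le_sup_right
  exact (sup_eq_right.mp h6) (Subgroup.mem_zpowers c)

omit [Fintype G] [Fact p.Prime] in
theorem tig_conj_pow (x u : G) (k : ℕ) (hk : u ^ p ^ k = 1) : (x⁻¹ * u * x) ^ p ^ k = 1 := by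
  have h1 : (x⁻¹ * u * x) ^ p ^ k = x⁻¹ * u ^ p ^ k * x := by
    have h := conj_pow (a := x⁻¹) (b := u) (i := p ^ k)
    simpa using h
  rw [h1, hk]; group

theorem tig_conj_mem (hPC : (P : Subgroup G) ≤ tiC P) (x u : G) (hx : x ∈ tiN P)
    (hu : u ∈ (P : Subgroup G)) : x⁻¹ * u * x ∈ (P : Subgroup G) := by
  obtain ⟨k, hk⟩ := P.2 ⟨u, hu⟩
  have hk' : u ^ p ^ k = 1 := by simpa using congrArg Subtype.val hk
  have h1 : x⁻¹ * u * x ∈ tiC P := (Subgroup.mem_normalizer_iff''.mp hx u).mp (hPC hu)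
  exact tig_mem_of_pow p P hPC _ h1 k (tig_conj_pow p x u k hk')

omit [Fintype G] [Fact p.Prime] in
theorem tig_mem_normalizer (hstar : TIHyp P) (x w : G) (hw : w ∈ (P : Subgroup G))
    (hw1 : w ≠ 1) (hw' : x⁻¹ * w * x ∈ (P : Subgroup G)) : x ∈ tiN P := by
  have hw1' : x⁻¹ * w * x ≠ 1 := by
    intro h; apply hw1
    have h2 : w = x * (x⁻¹ * w * x) * x⁻¹ := by group
    rw [h2, h]; group
  have e1 : ∀ g, g ∈ tiC P ↔ g * (x⁻¹ * w * x) = (x⁻¹ * w * x) * g := by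
    intro g
    rw [← hstar _ hw' hw1', Subgroup.mem_centralizer_iff]
    constructor
    · intro h; exact (h _ (Set.mem_singleton _)).symm
    · intro h y hy; rw [Set.mem_singleton_iff] at hy; rw [hy]; exact h.symm
  have e2 : ∀ g, g ∈ tiC P ↔ g * w = w * g := by
    intro g
    rw [← hstar _ hw hw1, Subgroup.mem_centralizer_iff]
    constructor
    · intro h; exact (h _ (Set.mem_singleton _)).symm
    · intro h y hy; rw [Set.mem_singleton_iff] at hy; rw [hy]; exact h.symm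
  show x ∈ Subgroup.normalizer ((tiC P : Subgroup G) : Set G)
  rw [Subgroup.mem_normalizer_iff]
  intro g
  rw [e1 g, e2 (x * g * x⁻¹)]
  constructor
  · intro h1
    have h2 : x * g * x⁻¹ * w = x * (g * (x⁻¹ * w * x)) * x⁻¹ := by group
    rw [h2, h1]; group
  · intro h1
    have h2 : g * (x⁻¹ * w * x) = x⁻¹ * (x * g * x⁻¹ * w) * x := by group
    rw [h2, h1]; group

theorem tig_data (hPC : (P : Subgroup G) ≤ tiC P) (hstar : TIHyp P) :
    TIData (tiC P) (tiN P) p := by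
  refine ⟨Subgroup.le_normalizer, ?_, ?_⟩
  · intro x hx c hc
    exact (Subgroup.mem_normalizer_iff''.mp hx c).mp hc
  · intro x hx c hc hxc hdvd
    apply hx
    have ho : orderOf (c ^ (orderOf c / p)) = p :=
      orderOf_pow_orderOf_div (orderOf_pos c).ne' hdvd
    have hwp : (c ^ (orderOf c / p)) ^ p ^ 1 = 1 := by
      rw [pow_one]
      have h3 := pow_orderOf_eq_one (c ^ (orderOf c / p))
      rwa [ho] at h3
    have hw1 : c ^ (orderOf c / p) ≠ 1 := by
      intro h1; rw [h1, orderOf_one] at ho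
      exact (Fact.out : p.Prime).one_lt.ne ho
    have hwC : c ^ (orderOf c / p) ∈ tiC P := Subgroup.pow_mem _ hc _
    have hwP : c ^ (orderOf c / p) ∈ (P : Subgroup G) :=
      tig_mem_of_pow p P hPC _ hwC 1 hwp
    have hxw : x⁻¹ * c ^ (orderOf c / p) * x = (x⁻¹ * c * x) ^ (orderOf c / p) := by
      have h := conj_pow (a := x⁻¹) (b := c) (i := orderOf c / p)
      simpa using h.symm
    have hxwC : x⁻¹ * c ^ (orderOf c / p) * x ∈ tiC P := by
      rw [hxw]; exact Subgroup.pow_mem _ hxc _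
    have hxwP : x⁻¹ * c ^ (orderOf c / p) * x ∈ (P : Subgroup G) :=
      tig_mem_of_pow p P hPC _ hxwC 1 (tig_conj_pow p x _ 1 hwp)
    exact tig_mem_normalizer p P hstar x _ hwP hw1 hxwP

theorem tig_free (hPC : (P : Subgroup G) ≤ tiC P) (hstar : TIHyp P) (x : G)
    (hx : x ∈ tiN P) (hxC : x ∉ tiC P) (v : G) (hv : v ∈ (P : Subgroup G)) :
    ∃ u ∈ (P : Subgroup G), x⁻¹ * u * x * u⁻¹ = v := by
  let f : ↥(P : Subgroup G) → ↥(P : Subgroup G) := fun u =>
    ⟨x⁻¹ * (u : G) * x * (u : G)⁻¹,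
      Subgroup.mul_mem _ (tig_conj_mem p P hPC x u hx u.2) (Subgroup.inv_mem _ u.2)⟩
  have hinj : Function.Injective f := by
    intro u v' huv
    have h1 : x⁻¹ * (u : G) * x * (u : G)⁻¹ = x⁻¹ * (v' : G) * x * (v' : G)⁻¹ :=
      congrArg Subtype.val huv
    by_contra hne
    have hw1 : (v' : G)⁻¹ * (u : G) ≠ 1 := by
      intro h; apply hne; apply Subtype.ext
      have h2 : (u : G) = (v' : G) * ((v' : G)⁻¹ * (u : G)) := by group
      rw [h2, h, mul_one]
    have hwP : (v' : G)⁻¹ * (u : G) ∈ (P : Subgroup G) :=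
      Subgroup.mul_mem _ (Subgroup.inv_mem _ v'.2) u.2
    have hcomm : x⁻¹ * ((v' : G)⁻¹ * (u : G)) * x = (v' : G)⁻¹ * (u : G) := by
      calc x⁻¹ * ((v' : G)⁻¹ * (u : G)) * x
          = (x⁻¹ * (v' : G) * x)⁻¹ * ((x⁻¹ * (u : G) * x * (u : G)⁻¹) * (u : G)) := by group
        _ = (x⁻¹ * (v' : G) * x)⁻¹ * ((x⁻¹ * (v' : G) * x * (v' : G)⁻¹) * (u : G)) := by
            rw [h1]
        _ = (v' : G)⁻¹ * (u : G) := by group
    apply hxC
    rw [← hstar _ hwP hw1, Subgroup.mem_centralizer_iff]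
    intro y hy
    rw [Set.mem_singleton_iff] at hy
    rw [hy]
    calc ((v' : G)⁻¹ * (u : G)) * x = x * (x⁻¹ * ((v' : G)⁻¹ * (u : G)) * x) := by group
      _ = x * ((v' : G)⁻¹ * (u : G)) := by rw [hcomm]
  have hsurj := Finite.surjective_of_injective hinj
  obtain ⟨u, hu⟩ := hsurj ⟨v, hv⟩
  exact ⟨u, u.2, congrArg Subtype.val hu⟩

theorem tig_center (z : G) (hz : z ∈ (P : Subgroup G)) (hzC : z ∈ tiC P) :
    (⟨z, hzC⟩ : tiC P) ∈ Subgroup.center (tiC P) := by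
  rw [Subgroup.mem_center_iff]
  intro g
  apply Subtype.ext
  exact (Subgroup.mem_centralizer_iff.mp g.2 z hz).symm

theorem tig_good (hPC : (P : Subgroup G) ≤ tiC P) (hstar : TIHyp P)
    (θ : Cfsg.IrrCharacter (tiC P)) (u : G) (hu : u ∈ (P : Subgroup G))
    (hθ : (θ : tiC P → ℂ) ⟨u, hPC hu⟩ ≠ (θ : tiC P → ℂ) 1) : TIGood (tiC P) (tiN P) θ := by
  intro x hx hxθ
  by_contra hxC
  apply hθ
  obtain ⟨u', hu', hu'eq⟩ := tig_free p P hPC hstar x hx hxC u hu
  have hz1P : x⁻¹ * u' * x ∈ (P : Subgroup G) := tig_conj_mem p P hPC x u' hx hu'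
  obtain ⟨c1, -, hc1⟩ := gq_central_mul θ ⟨x⁻¹ * u' * x, hPC hz1P⟩ (tig_center p P _ hz1P _)
  obtain ⟨c2, -, hc2⟩ := gq_central_mul θ ⟨u', hPC hu'⟩ (tig_center p P _ hu' _)
  have h1 : (θ : tiC P → ℂ) ⟨x⁻¹ * u' * x, hPC hz1P⟩ = (θ : tiC P → ℂ) ⟨u', hPC hu'⟩ := by
    have h2 := congrFun hxθ ⟨u', hPC hu'⟩
    rw [tiCj_apply (tiC P) x _ ⟨u', hPC hu'⟩ (hPC hz1P)] at h2
    exact h2
  have hdeg : (θ : tiC P → ℂ) 1 ≠ 0 := by
    rw [irr_one_eq_degree]
    have h3 := irr_degree_pos θ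
    exact_mod_cast h3.ne'
  have e1 := hc1 1
  have e2 := hc2 1
  rw [mul_one] at e1 e2
  have hc12 : c1 = c2 := by
    have h4 : c1 * (θ : tiC P → ℂ) 1 = c2 * (θ : tiC P → ℂ) 1 := by rw [← e1, ← e2, h1]
    exact mul_right_cancel₀ hdeg h4
  have e3 := hc1 ⟨u'⁻¹, hPC (Subgroup.inv_mem _ hu')⟩
  have e4 := hc2 ⟨u'⁻¹, hPC (Subgroup.inv_mem _ hu')⟩
  have hmul1 : (⟨x⁻¹ * u' * x, hPC hz1P⟩ : tiC P) * ⟨u'⁻¹, hPC (Subgroup.inv_mem _ hu')⟩
      = ⟨u, hPC hu⟩ := Subtype.ext hu'eq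
  have hmul2 : (⟨u', hPC hu'⟩ : tiC P) * ⟨u'⁻¹, hPC (Subgroup.inv_mem _ hu')⟩ = 1 :=
    Subtype.ext (mul_inv_cancel u')
  rw [hmul1] at e3
  rw [hmul2] at e4
  rw [e3, e4, hc12]

theorem tig_normalizer_le (hPC : (P : Subgroup G) ≤ tiC P) (hstar : TIHyp P)
    (hex : ∃ v ∈ (P : Subgroup G), ¬ (∃ a b : G, v = a⁻¹ * b * a * b⁻¹)) :
    Subgroup.normalizer ((P : Subgroup G) : Set G)
      ≤ Subgroup.centralizer ((P : Subgroup G) : Set G) := by
  obtain ⟨v, hv, hvn⟩ := hex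
  have hv1 : v ≠ 1 := by
    intro h; apply hvn; exact ⟨1, 1, by rw [h]; group⟩
  intro x hx
  have hxN : x ∈ tiN P :=
    tig_mem_normalizer p P hstar x v hv hv1 ((Subgroup.mem_normalizer_iff''.mp hx v).mp hv)
  by_contra hxC
  obtain ⟨u, -, hu⟩ := tig_free p P hPC hstar x hxN hxC v hv
  exact hvn ⟨x, u, hu.symm⟩

theorem tig_complement (hPC : (P : Subgroup G) ≤ tiC P) (hstar : TIHyp P)
    (hex : ∃ v ∈ (P : Subgroup G), ¬ (∃ a b : G, v = a⁻¹ * b * a * b⁻¹))
    (n : ℕ) (hn : Nat.card P = p ^ n) : ∃ N : Subgroup G, N.Normal ∧ N.index = p ^ n := by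
  have hP := tig_normalizer_le p P hPC hstar hex
  refine ⟨(MonoidHom.transferSylow P hP).ker, MonoidHom.normal_ker _, ?_⟩
  exact ((MonoidHom.ker_transferSylow_isComplement' P hP).symm.index_eq_card).trans hn

end Cfsg.Agent.Helper25
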