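import Mathlib
import Cfsg.Prelude.Def_Characters
import Cfsg.Agent.Helper25.TISylow
import Cfsg.Agent.Helper25.TIConj
import Cfsg.Agent.Helper25.TIGroup

/-!
# Auxiliary lemmas for S4486 (helper25)

Linear characters of the centralizer of the Sylow subgroup, integer multiplicities, counting.
-/

set_option autoImplicit false

namespace Cfsg.Agent.Helper25

open Classical

universe u

variable {G : Type u} [Group G] [Fintype G]

theorem ti_card_hom_of_comm (A : Type*) [Group A] [Finite A]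
    (hcomm : ∀ a b : A, a * b = b * a) : Nat.card (A →* ℂˣ) = Nat.card A := by
  letI : CommGroup A := { (inferInstance : Group A) with mul_comm := hcomm }
  exact CommGroup.card_monoidHom_of_hasEnoughRootsOfUnity A ℂ

theorem ti_lambda_exists (p : ℕ) [Fact p.Prime] (P : Sylow p G)
    (hPC : (P : Subgroup G) ≤ tiC P) (n : ℕ) (hn : Nat.card P = p ^ n) :
    ∃ L : Finset (↥(tiC P) →* ℂˣ), L.card = p ^ n ∧ (1 : ↥(tiC P) →* ℂˣ) ∈ L ∧
      (∀ β ∈ L, ∀ y : ↥(tiC P), ¬ p ∣ orderOf (y : G) → β y = 1) ∧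
      (∀ β ∈ L, ∀ β' ∈ L,
        (∀ y : ↥(tiC P), (y : G) ∈ (P : Subgroup G) → β y = β' y) → β = β') := by
  obtain ⟨P', hP'def⟩ : ∃ P' : Sylow p ↥(tiC P),
      (P' : Subgroup ↥(tiC P)) = (P : Subgroup G).subgroupOf (tiC P) :=
    ⟨P.subtype hPC, Sylow.coe_subtype P hPC⟩
  have hP'mem : ∀ y : ↥(tiC P), y ∈ (P' : Subgroup ↥(tiC P)) ↔ (y : G) ∈ (P : Subgroup G) := by
    intro y
    rw [hP'def]
    exact Subgroup.mem_subgroupOf
  have hP' : Subgroup.normalizer ((P' : Subgroup ↥(tiC P)) : Set ↥(tiC P))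
      ≤ Subgroup.centralizer ((P' : Subgroup ↥(tiC P)) : Set ↥(tiC P)) := by
    intro y _
    rw [Subgroup.mem_centralizer_iff]
    intro h hh
    apply Subtype.ext
    have hh' : (h : G) ∈ (P : Subgroup G) := (hP'mem h).mp hh
    exact Subgroup.mem_centralizer_iff.mp y.2 (h : G) hh'
  have key : ∃ τ : ↥(tiC P) →* ↥(P' : Subgroup ↥(tiC P)),
      ∀ z, ∃ y : ↥(tiC P), (y : G) ∈ (P : Subgroup G) ∧ τ y = z := by
    refine ⟨MonoidHom.transferSylow P' hP', fun z => ?_⟩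
    have hbij : Function.Bijective
        ((MonoidHom.transferSylow P' hP').domRestrict (P' : Subgroup ↥(tiC P))) := by
      rw [MonoidHom.transferSylow_domRestrict_eq_pow P' hP']
      exact (P'.2.powEquiv' P'.not_dvd_index).bijective
    obtain ⟨y, hy⟩ := hbij.2 z
    exact ⟨(y : ↥(tiC P)), (hP'mem _).mp y.2, hy⟩
  obtain ⟨τ, hsurjP⟩ := key
  have hsurj : Function.Surjective τ := fun z => by
    obtain ⟨y, -, hy⟩ := hsurjP z
    exact ⟨y, hy⟩
  have hcomm : ∀ a b : ↥(P' : Subgroup ↥(tiC P)), a * b = b * a := by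
    intro a b
    apply Subtype.ext
    apply Subtype.ext
    show ((a : ↥(tiC P)) : G) * ((b : ↥(tiC P)) : G) = ((b : ↥(tiC P)) : G) * ((a : ↥(tiC P)) : G)
    exact (Subgroup.mem_centralizer_iff.mp (hPC ((hP'mem _).mp b.2)) _ ((hP'mem _).mp a.2))
  have hcardP' : Nat.card ↥(P' : Subgroup ↥(tiC P)) = p ^ n := by
    rw [hP'def]
    have h1 : Nat.card ↥((P : Subgroup G).subgroupOf (tiC P)) = Nat.card ↥(P : Subgroup G) :=
      Nat.card_congr (Subgroup.subgroupOfEquivOfLe hPC).toEquiv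
    exact h1.trans hn
  have hcardhom : Nat.card (↥(P' : Subgroup ↥(tiC P)) →* ℂˣ) = p ^ n := by
    rw [ti_card_hom_of_comm _ hcomm, hcardP']
  haveI : Finite (↥(P' : Subgroup ↥(tiC P)) →* ℂˣ) :=
    Nat.finite_of_card_ne_zero (by
      rw [hcardhom]; exact pow_ne_zero _ (Fact.out : p.Prime).ne_zero)
  letI : Fintype (↥(P' : Subgroup ↥(tiC P)) →* ℂˣ) := Fintype.ofFinite _
  refine ⟨Finset.univ.image (fun β : ↥(P' : Subgroup ↥(tiC P)) →* ℂˣ => β.comp τ),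
    ?_, ?_, ?_, ?_⟩
  · rw [Finset.card_image_of_injective _
      (fun β β' h => (MonoidHom.cancel_right hsurj).mp h), Finset.card_univ,
      ← Nat.card_eq_fintype_card, hcardhom]
  · rw [Finset.mem_image]
    exact ⟨1, Finset.mem_univ _, MonoidHom.one_comp τ⟩
  · intro β hβ y hy
    rw [Finset.mem_image] at hβ
    obtain ⟨β₀, -, rfl⟩ := hβ
    obtain ⟨k, hk⟩ := P'.2 (τ y)
    have hcop : Nat.Coprime (p ^ k) (orderOf (y : G)) :=
      Nat.Coprime.pow_left k ((Nat.Prime.coprime_iff_not_dvd Fact.out).mpr hy)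
    have hd1 : orderOf (τ y) ∣ p ^ k := orderOf_dvd_of_pow_eq_one hk
    have hd2 : orderOf (τ y) ∣ orderOf (y : G) := by
      rw [Subgroup.orderOf_coe]
      exact orderOf_map_dvd τ y
    have hd3 := Nat.dvd_gcd hd1 hd2
    rw [hcop.gcd_eq_one, Nat.dvd_one, orderOf_eq_one_iff] at hd3
    rw [MonoidHom.comp_apply, hd3, map_one]
  · intro β hβ β' hβ' hag
    rw [Finset.mem_image] at hβ hβ'
    obtain ⟨β₀, -, rfl⟩ := hβ
    obtain ⟨β₀', -, rfl⟩ := hβ'
    congr 1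
    apply MonoidHom.ext
    intro z
    obtain ⟨y, hyP, rfl⟩ := hsurjP z
    exact hag y hyP

theorem ti_classInner_symm {H : Type u} [Group H] [Fintype H] (φ ψ : H → ℂ) :
    Cfsg.classInner φ ψ = (starRingEnd ℂ) (Cfsg.classInner ψ φ) := by
  simp only [Cfsg.classInner, map_mul, map_sum, map_inv₀, Complex.conj_natCast,
    Complex.conj_conj]
  congr 1
  apply Finset.sum_congr rfl
  intro g _
  ring

/-- The multiplicity of `a` in the restriction of `i` to `C`, as a natural number. -/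
noncomputable def tiBn (C : Subgroup G) [Fintype C] (i : Cfsg.IrrCharacter G)
    (a : Cfsg.IrrCharacter C) : ℕ :=
  Classical.choose (tiB_nat C i a)

theorem tiBn_spec (C : Subgroup G) [Fintype C] (i : Cfsg.IrrCharacter G)
    (a : Cfsg.IrrCharacter C) : tiB C i a = (tiBn C i a : ℂ) :=
  Classical.choose_spec (tiB_nat C i a)

theorem ti_restrict (C : Subgroup G) [Fintype C] (i : Cfsg.IrrCharacter G) (c : C) :
    (i : G → ℂ) c = ∑ θ : Cfsg.IrrCharacter C, (tiBn C i θ : ℂ) * (θ : C → ℂ) c := by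
  have hr : Cfsg.IsCharacter C (fun y : C => (i : G → ℂ) y) :=
    Helper2.isCharacter_restrict C (irr_isCharacter i)
  have h : (i : G → ℂ) (c : G) = (∑ θ : Cfsg.IrrCharacter C,
      Cfsg.classInner (fun y : C => (i : G → ℂ) y) (θ : C → ℂ) • (θ : C → ℂ)) c :=
    congrFun (Helper2.classFun_eq_sum_classInner (Helper2.isClassFunction_of_isCharacter hr)) c
  rw [Finset.sum_apply] at h
  rw [h]
  apply Finset.sum_congr rfl
  intro θ _
  rw [Pi.smul_apply, smul_eq_mul, ti_classInner_symm]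
  have h2 : Cfsg.classInner (θ : C → ℂ) (fun y : C => (i : G → ℂ) y) = (tiBn C i θ : ℂ) :=
    tiBn_spec C i θ
  rw [h2, Complex.conj_natCast]

theorem ti_degree (C : Subgroup G) [Fintype C] (i : Cfsg.IrrCharacter G) :
    Cfsg.charDegree (i : G → ℂ)
      = ∑ θ : Cfsg.IrrCharacter C, tiBn C i θ * Cfsg.charDegree (θ : C → ℂ) := by
  have h := ti_restrict C i 1
  have h1 : (i : G → ℂ) ((1 : C) : G) = (Cfsg.charDegree (i : G → ℂ) : ℂ) :=
    irr_one_eq_degree i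
  rw [h1] at h
  have h2 : ∀ θ : Cfsg.IrrCharacter C, (tiBn C i θ : ℂ) * (θ : C → ℂ) 1
      = ((tiBn C i θ * Cfsg.charDegree (θ : C → ℂ) : ℕ) : ℂ) := by
    intro θ; rw [irr_one_eq_degree]; push_cast; ring
  rw [Finset.sum_congr rfl (fun θ _ => h2 θ)] at h
  exact_mod_cast h

theorem ti_parseval (C : Subgroup G) [Fintype C] (i : Cfsg.IrrCharacter G) :
    Cfsg.classInner (fun y : C => (i : G → ℂ) y) (fun y : C => (i : G → ℂ) y)
      = ∑ θ : Cfsg.IrrCharacter C, ((tiBn C i θ : ℂ)) ^ 2 := by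
  have hr : Cfsg.IsCharacter C (fun y : C => (i : G → ℂ) y) :=
    Helper2.isCharacter_restrict C (irr_isCharacter i)
  rw [Helper2.classInner_eq_sum_mul (Helper2.isClassFunction_of_isCharacter hr)]
  apply Finset.sum_congr rfl
  intro θ _
  have h2 : Cfsg.classInner (fun y : C => (i : G → ℂ) y) (θ : C → ℂ) = (tiBn C i θ : ℂ) := by
    rw [ti_classInner_symm]
    have h3 : Cfsg.classInner (θ : C → ℂ) (fun y : C => (i : G → ℂ) y) = (tiBn C i θ : ℂ) :=
      tiBn_spec C i θ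
    rw [h3, Complex.conj_natCast]
  rw [h2, Complex.conj_natCast]; ring

theorem ti_P1_int {C Nn : Subgroup G} [Fintype C] {p : ℕ} (h : TIData C Nn p)
    (a b c d : Cfsg.IrrCharacter C)
    (hcd : ∀ y : C, ¬ p ∣ orderOf (y : G) → (c : C → ℂ) y = (d : C → ℂ) y) :
    ((Nat.card C : ℕ) : ℤ) * ∑ i : Cfsg.IrrCharacter G,
        ((tiBn C i a : ℤ) - tiBn C i b) * ((tiBn C i c : ℤ) - tiBn C i d)
      = (tiM C Nn a c : ℤ) - tiM C Nn a d - tiM C Nn b c + tiM C Nn b d := by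
  have h1 := ti_P1 h a b c d hcd
  simp only [tiBn_spec] at h1
  exact_mod_cast h1

theorem ti_P2_int (C : Subgroup G) [Fintype C] (a b : Cfsg.IrrCharacter C)
    (hab : (a : C → ℂ) 1 = (b : C → ℂ) 1) :
    ∑ i : Cfsg.IrrCharacter G,
      ((tiBn C i a : ℤ) - tiBn C i b) * (Cfsg.charDegree (i : G → ℂ) : ℤ) = 0 := by
  have ha := ti_P2 C a
  have hb := ti_P2 C b
  have h : ∑ i : Cfsg.IrrCharacter G,
      ((tiBn C i a : ℂ) - tiBn C i b) * (Cfsg.charDegree (i : G → ℂ) : ℂ) = 0 := by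
    have h1 : ∀ i : Cfsg.IrrCharacter G,
        ((tiBn C i a : ℂ) - tiBn C i b) * (Cfsg.charDegree (i : G → ℂ) : ℂ)
          = tiB C i a * (i : G → ℂ) 1 - tiB C i b * (i : G → ℂ) 1 := by
      intro i; rw [tiBn_spec C i a, tiBn_spec C i b, irr_one_eq_degree]; ring
    rw [Finset.sum_congr rfl (fun i _ => h1 i), Finset.sum_sub_distrib, ha, hb, hab, sub_self]
  exact_mod_cast h

theorem ti_triv_conj {C Nn : Subgroup G} {p : ℕ} (h : TIData C Nn p) (x : G) (hx : x ∈ Nn) :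
    tiCj C x (trivChar C : C → ℂ) = (trivChar C : C → ℂ) := by
  funext c
  rw [tiCj_apply C x _ c (h.norm x hx c c.2)]
  rfl

theorem tiM_triv_triv {C Nn : Subgroup G} {p : ℕ} (h : TIData C Nn p) :
    tiM C Nn (trivChar C) (trivChar C) = Nat.card Nn := by
  unfold tiM
  apply Nat.card_congr
  exact ⟨fun x => ⟨x.1, x.2.1⟩, fun y => ⟨y.1, y.2, ti_triv_conj h y.1 y.2⟩,
    fun x => rfl, fun y => rfl⟩

theorem tiM_triv_zero {C Nn : Subgroup G} {p : ℕ} (h : TIData C Nn p)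
    (a : Cfsg.IrrCharacter C) (ha : a ≠ trivChar C) : tiM C Nn (trivChar C) a = 0 := by
  apply tiM_eq_zero
  intro x hx hxa
  apply ha
  apply Subtype.ext
  have h1 := tiCj_inv h x hx _ _ hxa
  rw [ti_triv_conj h x⁻¹ (Nn.inv_mem hx)] at h1
  exact h1.symm

theorem tiBn_conj {C Nn : Subgroup G} [Fintype C] {p : ℕ} (h : TIData C Nn p)
    (i : Cfsg.IrrCharacter G) (a c : Cfsg.IrrCharacter C) (hne : tiM C Nn a c ≠ 0) :
    tiBn C i a = tiBn C i c := by
  obtain ⟨x, hx, hxa⟩ := tiM_exists a c hne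
  have h1 := tiB_conj h i a c x hx hxa
  rw [tiBn_spec, tiBn_spec] at h1
  exact_mod_cast h1

theorem tiBn_triv (C : Subgroup G) [Fintype C] (a : Cfsg.IrrCharacter C) :
    tiBn C (trivChar G) a = if a = trivChar C then 1 else 0 := by
  have h1 : tiB C (trivChar G) a = if a = trivChar C then 1 else 0 :=
    Helper2.classInner_irr_irr a (trivChar C)
  rw [tiBn_spec] at h1
  split_ifs at h1 ⊢ with h2
  · exact_mod_cast h1
  · exact_mod_cast h1

theorem ti_count (C : Subgroup G) [Fintype C] (i : Cfsg.IrrCharacter G)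
    (Q : Finset (Cfsg.IrrCharacter C)) (hQ : trivChar C ∉ Q) :
    (Q.filter (fun θ => tiBn C i θ ≠ 0)).card + tiBn C i (trivChar C)
      ≤ Cfsg.charDegree (i : G → ℂ) := by
  rw [ti_degree C i]
  have hpos : ∀ θ : Cfsg.IrrCharacter C, Cfsg.charDegree (θ : C → ℂ) ≠ 0 :=
    fun θ => (irr_degree_pos θ).ne'
  have hnot : trivChar C ∉ Q.filter (fun θ => tiBn C i θ ≠ 0) :=
    fun h => hQ (Finset.mem_of_mem_filter _ h)
  calc (Q.filter (fun θ => tiBn C i θ ≠ 0)).card + tiBn C i (trivChar C)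
      = ∑ θ ∈ Q.filter (fun θ => tiBn C i θ ≠ 0), 1 + tiBn C i (trivChar C) := by simp
    _ ≤ ∑ θ ∈ Q.filter (fun θ => tiBn C i θ ≠ 0), tiBn C i θ * Cfsg.charDegree (θ : C → ℂ)
          + tiBn C i (trivChar C)
            * Cfsg.charDegree ((trivChar C : Cfsg.IrrCharacter C) : C → ℂ) := by
        apply Nat.add_le_add
        · apply Finset.sum_le_sum
          intro θ hθ
          rw [Finset.mem_filter] at hθ
          exact Nat.pos_of_ne_zero (Nat.mul_ne_zero hθ.2 (hpos θ))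
        · exact Nat.le_mul_of_pos_right _ (Nat.pos_of_ne_zero (hpos _))
    _ = ∑ θ ∈ insert (trivChar C) (Q.filter (fun θ => tiBn C i θ ≠ 0)),
          tiBn C i θ * Cfsg.charDegree (θ : C → ℂ) := by
        rw [Finset.sum_insert hnot, add_comm]
    _ ≤ ∑ θ : Cfsg.IrrCharacter C, tiBn C i θ * Cfsg.charDegree (θ : C → ℂ) :=
        Finset.sum_le_sum_of_subset (Finset.subset_univ _)

theorem ti_family {A J : Type*} (L : Finset A) (F : A → J) (PN : J → Prop)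
    (hinj : ∀ β ∈ L, ∀ β' ∈ L, F β = F β' → β = β')
    (hPN1 : ∀ β ∈ L, ∀ β' ∈ L, ¬ PN (F β) → ¬ PN (F β') → β = β') :
    L.card ≤ ((L.image F).filter PN).card + 1 := by
  have h1 : (L.image F).card = L.card :=
    Finset.card_image_of_injOn (fun β hβ β' hβ' h => hinj β hβ β' hβ' h)
  have h2 := Finset.card_filter_add_card_filter_not (s := L.image F) PN
  have h3 : ((L.image F).filter (fun a => ¬ PN a)).card ≤ 1 := by
    rw [Finset.card_le_one]
    intro a ha b hb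
    rw [Finset.mem_filter, Finset.mem_image] at ha hb
    obtain ⟨⟨β, hβ, rfl⟩, hna⟩ := ha
    obtain ⟨⟨β', hβ', rfl⟩, hnb⟩ := hb
    rw [hPN1 β hβ β' hβ' hna hnb]
  omega

theorem ti_card_le_sum {J : Type*} [Fintype J] (T : Finset J) (f : J → ℕ)
    (h : ∀ a ∈ T, 1 ≤ f a) : T.card ≤ ∑ a, f a := by
  calc T.card = ∑ a ∈ T, 1 := by simp
    _ ≤ ∑ a ∈ T, f a := Finset.sum_le_sum h
    _ ≤ ∑ a, f a := Finset.sum_le_sum_of_subset (Finset.subset_univ T)

theorem ti_exists_constituent (p : ℕ) (P : Sylow p G) (hPC : (P : Subgroup G) ≤ tiC P)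
    (i : Cfsg.IrrCharacter G) (u : G) (hu : u ∈ (P : Subgroup G))
    (hne : (i : G → ℂ) u ≠ (i : G → ℂ) 1) :
    ∃ θ : Cfsg.IrrCharacter (tiC P), tiBn (tiC P) i θ ≠ 0 ∧
      (θ : tiC P → ℂ) ⟨u, hPC hu⟩ ≠ (θ : tiC P → ℂ) 1 := by
  by_contra hcon
  push_neg at hcon
  apply hne
  have h1 := ti_restrict (tiC P) i ⟨u, hPC hu⟩
  have h2 := ti_restrict (tiC P) i 1
  have h3 : (i : G → ℂ) u = (i : G → ℂ) ((⟨u, hPC hu⟩ : tiC P) : G) := rfl
  have h4 : (i : G → ℂ) 1 = (i : G → ℂ) ((1 : tiC P) : G) := rfl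
  rw [h3, h4, h1, h2]
  apply Finset.sum_congr rfl
  intro θ _
  by_cases h0 : tiBn (tiC P) i θ = 0
  · rw [h0]; simp
  · rw [hcon θ h0]

theorem ti_triangle (Y : G → ℂ) (nY : Cfsg.IrrCharacter G → ℕ)
    (hYdec : ∀ g, Y g = ∑ ϑ : Cfsg.IrrCharacter G, (nY ϑ : ℂ) * (ϑ : G → ℂ) g) (u : G)
    (hu : Y u = Y 1) (ϑ₁ : Cfsg.IrrCharacter G) (h1 : nY ϑ₁ ≠ 0) :
    (ϑ₁ : G → ℂ) u = (ϑ₁ : G → ℂ) 1 := by
  have hsum : ∑ ϑ : Cfsg.IrrCharacter G, (nY ϑ : ℝ)
      * ((Cfsg.charDegree (ϑ : G → ℂ) : ℝ) - ((ϑ : G → ℂ) u).re) = 0 := by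
    have h2 := hYdec u
    have h3 := hYdec 1
    rw [hu, h3] at h2
    have h4 := congrArg Complex.re h2
    rw [Complex.re_sum, Complex.re_sum] at h4
    have h5 : ∀ ϑ : Cfsg.IrrCharacter G, ((nY ϑ : ℂ) * (ϑ : G → ℂ) 1).re
        = (nY ϑ : ℝ) * (Cfsg.charDegree (ϑ : G → ℂ) : ℝ) := by
      intro ϑ; rw [irr_one_eq_degree]; simp
    have h6 : ∀ ϑ : Cfsg.IrrCharacter G, ((nY ϑ : ℂ) * (ϑ : G → ℂ) u).re
        = (nY ϑ : ℝ) * ((ϑ : G → ℂ) u).re := by
      intro ϑ; simp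
    rw [Finset.sum_congr rfl (fun ϑ _ => h5 ϑ), Finset.sum_congr rfl (fun ϑ _ => h6 ϑ)] at h4
    rw [← sub_eq_zero, ← Finset.sum_sub_distrib] at h4
    exact (Finset.sum_congr rfl (fun ϑ _ => by ring)).trans h4
  have hnn : ∀ ϑ ∈ (Finset.univ : Finset (Cfsg.IrrCharacter G)), 0 ≤ (nY ϑ : ℝ)
      * ((Cfsg.charDegree (ϑ : G → ℂ) : ℝ) - ((ϑ : G → ℂ) u).re) := by
    intro ϑ _
    apply mul_nonneg (Nat.cast_nonneg _)
    have h7 := irr_norm_le ϑ u
    rw [irr_one_eq_degree, Complex.norm_natCast] at h7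
    have h8 := Complex.re_le_norm ((ϑ : G → ℂ) u)
    linarith
  have hz := (Finset.sum_eq_zero_iff_of_nonneg hnn).mp hsum ϑ₁ (Finset.mem_univ _)
  have hre : ((ϑ₁ : G → ℂ) u).re = (Cfsg.charDegree (ϑ₁ : G → ℂ) : ℝ) := by
    have h9 : (nY ϑ₁ : ℝ) ≠ 0 := by exact_mod_cast h1
    have h10 := (mul_eq_zero.mp hz).resolve_left h9
    linarith
  have hnorm := irr_norm_le ϑ₁ u
  rw [irr_one_eq_degree, Complex.norm_natCast] at hnorm
  have him : ((ϑ₁ : G → ℂ) u).im = 0 := by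
    have h10 := Complex.sq_norm_sub_sq_re ((ϑ₁ : G → ℂ) u)
    rw [hre] at h10
    have h11 : ‖(ϑ₁ : G → ℂ) u‖ ^ 2 ≤ (Cfsg.charDegree (ϑ₁ : G → ℂ) : ℝ) ^ 2 :=
      pow_le_pow_left₀ (norm_nonneg _) hnorm 2
    have h12 : ((ϑ₁ : G → ℂ) u).im ^ 2 = 0 :=
      le_antisymm (by linarith) (sq_nonneg _)
    exact pow_eq_zero_iff (two_ne_zero) |>.mp h12
  rw [irr_one_eq_degree]
  apply Complex.ext
  · rw [hre]; simp
  · rw [him]; simp

end Cfsg.Agent.Helper25
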