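import Mathlib
import Cfsg.Prelude.Def_Characters
import Cfsg.Agent.Helper25.TISylow
import Cfsg.Agent.Helper25.TIConj
import Cfsg.Agent.Helper25.TIGroup
import Cfsg.Agent.Helper25.TIAux

/-!
# The Brauer–Leonard argument for S4486 (helper25)
-/

set_option autoImplicit false
set_option maxHeartbeats 400000

namespace Cfsg.Agent.Helper25

open Classical

universe u

variable {G : Type u} [Group G] [Fintype G]

/-- Characters of the centralizer that are nontrivial on the Sylow subgroup. -/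
def tiPN {p : ℕ} (P : Sylow p G) (hPC : (P : Subgroup G) ≤ tiC P)
    (θ : Cfsg.IrrCharacter (tiC P)) : Prop :=
  ∃ u, ∃ hu : u ∈ (P : Subgroup G), (θ : tiC P → ℂ) ⟨u, hPC hu⟩ ≠ (θ : tiC P → ℂ) 1

theorem tiPN_good (p : ℕ) [Fact p.Prime] (P : Sylow p G) (hPC : (P : Subgroup G) ≤ tiC P)
    (hstar : TIHyp P) (θ : Cfsg.IrrCharacter (tiC P)) (h : tiPN P hPC θ) :
    TIGood (tiC P) (tiN P) θ := by
  obtain ⟨u, hu, hne⟩ := h
  exact tig_good p P hPC hstar θ u hu hne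

theorem tiPN_ne_triv {p : ℕ} (P : Sylow p G) (hPC : (P : Subgroup G) ≤ tiC P)
    (θ : Cfsg.IrrCharacter (tiC P)) (h : tiPN P hPC θ) : θ ≠ trivChar (tiC P) := by
  rintro rfl
  obtain ⟨u, hu, hne⟩ := h
  exact hne rfl

/-- The twist of an irreducible character by a linear character. -/
noncomputable def tiMk (C : Subgroup G) (θ₁ : Cfsg.IrrCharacter C) (β : ↥C →* ℂˣ) :
    Cfsg.IrrCharacter C :=
  ⟨fun g => ((β g : ℂˣ) : ℂ) * (θ₁ : C → ℂ) g,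
    Helper7.isIrrCharacter_hom_mul β (θ₁ : C → ℂ) θ₁.2⟩

theorem tiMk_apply (C : Subgroup G) (θ₁ : Cfsg.IrrCharacter C) (β : ↥C →* ℂˣ) (g : C) :
    (tiMk C θ₁ β : C → ℂ) g = ((β g : ℂˣ) : ℂ) * (θ₁ : C → ℂ) g := rfl

theorem tiMk_one (C : Subgroup G) (θ₁ : Cfsg.IrrCharacter C) : tiMk C θ₁ 1 = θ₁ := by
  apply Subtype.ext
  funext g
  rw [tiMk_apply, MonoidHom.one_apply, Units.val_one, one_mul]

theorem ti_family' {A J : Type*} [DecidableEq J] (L : Finset A) (F : A → J) (PN : J → Prop)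
    [DecidablePred PN]
    (hinj : ∀ β ∈ L, ∀ β' ∈ L, F β = F β' → β = β')
    (hPN1 : ∀ β ∈ L, ∀ β' ∈ L, ¬ PN (F β) → ¬ PN (F β') → β = β') :
    L.card ≤ ((L.image F).filter PN).card + 1 := by
  have h1 : (L.image F).card = L.card :=
    Finset.card_image_of_injOn (fun β hβ β' hβ' h => hinj β hβ β' hβ' h)
  have h2 := Finset.card_filter_add_card_filter_not (s := L.image F) PN
  have h3 : ((L.image F).filter (fun a => ¬ PN a)).card ≤ 1 := by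
    rw [Finset.card_le_one]
    intro a ha b hb
    rw [Finset.mem_filter, Finset.mem_image] at ha hb
    obtain ⟨⟨β, hβ, rfl⟩, hna⟩ := ha
    obtain ⟨⟨β', hβ', rfl⟩, hnb⟩ := hb
    rw [hPN1 β hβ β' hβ' hna hnb]
  omega

theorem ti_family_card (p : ℕ) [Fact p.Prime] (P : Sylow p G) (hPC : (P : Subgroup G) ≤ tiC P)
    (θb : Cfsg.IrrCharacter (tiC P)) (L : Finset (↥(tiC P) →* ℂˣ))
    (hLsep : ∀ β ∈ L, ∀ β' ∈ L,
      (∀ y : ↥(tiC P), (y : G) ∈ (P : Subgroup G) → β y = β' y) → β = β') :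
    L.card ≤ ((L.image (tiMk (tiC P) θb)).filter (tiPN P hPC)).card + 1 := by
  have hnz : ∀ y : ↥(tiC P), (y : G) ∈ (P : Subgroup G) → (θb : tiC P → ℂ) y ≠ 0 := by
    intro y hy
    obtain ⟨c, hc, hcm⟩ := gq_central_mul θb y (tig_center p P (y : G) hy y.2)
    have e1 := hcm 1
    rw [mul_one] at e1
    rw [e1]
    apply mul_ne_zero
    · intro h0; rw [h0, norm_zero] at hc; exact zero_ne_one hc
    · rw [irr_one_eq_degree]; exact_mod_cast (irr_degree_pos θb).ne'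
  have hkey : ∀ β ∈ L, ∀ β' ∈ L, (∀ y : ↥(tiC P), (y : G) ∈ (P : Subgroup G) →
      (tiMk (tiC P) θb β : tiC P → ℂ) y = (tiMk (tiC P) θb β' : tiC P → ℂ) y) → β = β' := by
    intro β hβ β' hβ' h
    apply hLsep β hβ β' hβ'
    intro y hy
    have h2 := h y hy
    rw [tiMk_apply, tiMk_apply] at h2
    exact Units.ext (mul_right_cancel₀ (hnz y hy) h2)
  refine ti_family' L (tiMk (tiC P) θb) (tiPN P hPC) ?_ ?_
  · intro β hβ β' hβ' h
    exact hkey β hβ β' hβ' (fun y _ => by rw [h])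
  · intro β hβ β' hβ' hn1 hn2
    apply hkey β hβ β' hβ'
    intro y hy
    have a1 : (tiMk (tiC P) θb β : tiC P → ℂ) ⟨(y : G), hPC hy⟩
        = (tiMk (tiC P) θb β : tiC P → ℂ) 1 := by
      by_contra hne
      exact hn1 ⟨(y : G), hy, hne⟩
    have a2 : (tiMk (tiC P) θb β' : tiC P → ℂ) ⟨(y : G), hPC hy⟩
        = (tiMk (tiC P) θb β' : tiC P → ℂ) 1 := by
      by_contra hne
      exact hn2 ⟨(y : G), hy, hne⟩
    have a3 : (⟨(y : G), hPC hy⟩ : tiC P) = y := Subtype.ext rfl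
    rw [a3] at a1 a2
    rw [a1, a2, tiMk_apply, tiMk_apply, map_one, map_one]

theorem ti_sq_one (p : ℕ) [Fact p.Prime] (P : Sylow p G) (hPC : (P : Subgroup G) ≤ tiC P)
    (ψ : Cfsg.IrrCharacter G)
    (hE : ∑ θ : Cfsg.IrrCharacter (tiC P), tiBn (tiC P) ψ θ ^ 2 = 1) (u : G)
    (hu : u ∈ (P : Subgroup G)) :
    (ψ : G → ℂ) u * (starRingEnd ℂ) ((ψ : G → ℂ) u)
      = (ψ : G → ℂ) 1 * (starRingEnd ℂ) ((ψ : G → ℂ) 1) := by
  have hne : ∑ θ : Cfsg.IrrCharacter (tiC P), tiBn (tiC P) ψ θ ^ 2 ≠ 0 := by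
    rw [hE]; exact one_ne_zero
  obtain ⟨θ₀, -, hθ₀⟩ := Finset.exists_ne_zero_of_sum_ne_zero hne
  have hθ₀' : tiBn (tiC P) ψ θ₀ ≠ 0 := fun h => hθ₀ (by rw [h]; norm_num)
  have hother : ∀ θ : Cfsg.IrrCharacter (tiC P), θ ≠ θ₀ → tiBn (tiC P) ψ θ = 0 := by
    intro θ hθ
    by_contra h0
    have h1 : ∑ x ∈ ({θ, θ₀} : Finset (Cfsg.IrrCharacter (tiC P))), tiBn (tiC P) ψ x ^ 2
        ≤ ∑ x : Cfsg.IrrCharacter (tiC P), tiBn (tiC P) ψ x ^ 2 :=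
      Finset.sum_le_sum_of_subset (Finset.subset_univ _)
    rw [Finset.sum_pair hθ, hE] at h1
    have h2 : 1 ≤ tiBn (tiC P) ψ θ ^ 2 := Nat.one_le_pow _ _ (Nat.pos_of_ne_zero h0)
    have h3 : 1 ≤ tiBn (tiC P) ψ θ₀ ^ 2 := Nat.one_le_pow _ _ (Nat.pos_of_ne_zero hθ₀')
    omega
  have hone : tiBn (tiC P) ψ θ₀ = 1 := by
    have h1 : tiBn (tiC P) ψ θ₀ ^ 2 ≤ ∑ x : Cfsg.IrrCharacter (tiC P), tiBn (tiC P) ψ x ^ 2 :=
      Finset.single_le_sum (f := fun x => tiBn (tiC P) ψ x ^ 2) (fun _ _ => Nat.zero_le _)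
        (Finset.mem_univ θ₀)
    rw [hE] at h1
    have h2 : 0 < tiBn (tiC P) ψ θ₀ := Nat.pos_of_ne_zero hθ₀'
    have h3 : tiBn (tiC P) ψ θ₀ < 2 := by
      by_contra h4
      push Not at h4
      have h5 : 2 ^ 2 ≤ tiBn (tiC P) ψ θ₀ ^ 2 := Nat.pow_le_pow_left h4 2
      omega
    omega
  have hval : ∀ c : tiC P, (ψ : G → ℂ) c = (θ₀ : tiC P → ℂ) c := by
    intro c
    rw [ti_restrict (tiC P) ψ c, Finset.sum_eq_single θ₀]
    · rw [hone]; simp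
    · intro θ _ hθ; rw [hother θ hθ]; simp
    · intro h; exact absurd (Finset.mem_univ _) h
  obtain ⟨c, hc, hcmul⟩ := gq_central_mul θ₀ ⟨u, hPC hu⟩ (tig_center p P u hu _)
  have e1 := hcmul 1
  rw [mul_one] at e1
  have h5 : (ψ : G → ℂ) u = c * (ψ : G → ℂ) 1 := by
    have h6 := hval ⟨u, hPC hu⟩
    have h7 := hval 1
    have h8 : (ψ : G → ℂ) ((1 : tiC P) : G) = (ψ : G → ℂ) 1 := rfl
    rw [h8] at h7
    rw [h7]
    exact h6.trans e1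
  rw [h5, map_mul]
  have h9 : c * (starRingEnd ℂ) c = 1 := by
    rw [Complex.mul_conj, Complex.normSq_eq_norm_sq, hc]; simp
  calc c * (ψ : G → ℂ) 1 * ((starRingEnd ℂ) c * (starRingEnd ℂ) ((ψ : G → ℂ) 1))
      = (c * (starRingEnd ℂ) c) * ((ψ : G → ℂ) 1 * (starRingEnd ℂ) ((ψ : G → ℂ) 1)) := by ring
    _ = _ := by rw [h9, one_mul]

theorem ti_main_aux (p : ℕ) [Fact p.Prime] (P : Sylow p G) (hstar : TIHyp P)
    (n : ℕ) (hn : Nat.card P = p ^ n) (ψ : Cfsg.IrrCharacter G)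
    (hdeg : Cfsg.charDegree (ψ : G → ℂ) ^ 2 + 1 < p ^ n)
    (hPC : (P : Subgroup G) ≤ tiC P) (hT : TIData (tiC P) (tiN P) p)
    (hF1 : ∀ ϑ : Cfsg.IrrCharacter G, ϑ ≠ trivChar G →
      ∃ u, ∃ _ : u ∈ (P : Subgroup G), (ϑ : G → ℂ) u ≠ (ϑ : G → ℂ) 1)
    (hψtriv : ψ ≠ trivChar G) (hd : Cfsg.charDegree (ψ : G → ℂ) ≠ 1) : False := by
  have hd2 : 2 ≤ Cfsg.charDegree (ψ : G → ℂ) := by
    have h0 := irr_degree_pos ψ; omega
  have hκ : 0 < Nat.card (tiC P) := Nat.card_pos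
  obtain ⟨e, he⟩ : ∃ e, Nat.card (tiN P) = e * Nat.card (tiC P) := by
    obtain ⟨k, hk⟩ := Subgroup.card_dvd_of_le hT.le
    exact ⟨k, by rw [hk, mul_comm]⟩
  have he0 : 0 < e := by
    by_contra h0
    have h00 : e = 0 := by omega
    rw [h00, zero_mul] at he
    exact (Nat.card_pos (α := tiN P)).ne' he
  -- the constituent of ψ
  obtain ⟨uψ, huψ, huψne⟩ := hF1 ψ hψtriv
  obtain ⟨θψ, hθψB, hθψne⟩ := ti_exists_constituent p P hPC ψ uψ huψ huψne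
  have hθψg := tig_good p P hPC hstar θψ uψ huψ hθψne
  have hMψ := tiM_self hT θψ hθψg
  have hTcard := ti_class_card_ge hT e he θψ hMψ
  have hTB : ∀ a ∈ Finset.univ.filter (fun c : Cfsg.IrrCharacter (tiC P) =>
      tiM (tiC P) (tiN P) c θψ ≠ 0), tiBn (tiC P) ψ a ≠ 0 := by
    intro a ha
    rw [Finset.mem_filter] at ha
    rw [tiBn_conj hT ψ a θψ ha.2]; exact hθψB
  have hed : e ≤ Cfsg.charDegree (ψ : G → ℂ) := by
    rw [ti_degree (tiC P) ψ]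
    refine le_trans hTcard (ti_card_le_sum _ _ ?_)
    intro a ha
    exact Nat.pos_of_ne_zero (Nat.mul_ne_zero (hTB a ha) (irr_degree_pos a).ne')
  have heE : e ≤ ∑ θ : Cfsg.IrrCharacter (tiC P), tiBn (tiC P) ψ θ ^ 2 := by
    refine le_trans hTcard (ti_card_le_sum _ _ ?_)
    intro a ha
    exact Nat.one_le_pow _ _ (Nat.pos_of_ne_zero (hTB a ha))
  -- the character ψ ψ̄
  obtain ⟨Y, hYdef⟩ : ∃ Y : G → ℂ,
      Y = (ψ : G → ℂ) * fun g => (starRingEnd ℂ) ((ψ : G → ℂ) g) := ⟨_, rfl⟩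
  have hYval : ∀ g, Y g = (ψ : G → ℂ) g * (starRingEnd ℂ) ((ψ : G → ℂ) g) := by
    intro g; rw [hYdef]; rfl
  have hY : Cfsg.IsCharacter G Y := by
    rw [hYdef]
    exact Helper2.isCharacter_mul (irr_isCharacter ψ)
      (Helper2.isCharacter_conj (irr_isCharacter ψ))
  have hnY : ∀ ϑ : Cfsg.IrrCharacter G, ∃ m : ℕ, Cfsg.classInner Y (ϑ : G → ℂ) = (m : ℂ) :=
    fun ϑ => Helper2.classInner_char_nat hY (irr_isCharacter ϑ)
  choose nY hnYs using hnY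
  have hYdec : ∀ g : G, Y g = ∑ ϑ : Cfsg.IrrCharacter G, (nY ϑ : ℂ) * (ϑ : G → ℂ) g := by
    intro g
    have h : Y g = (∑ ϑ : Cfsg.IrrCharacter G,
        Cfsg.classInner Y (ϑ : G → ℂ) • (ϑ : G → ℂ)) g :=
      congrFun (Helper2.classFun_eq_sum_classInner
        (Helper2.isClassFunction_of_isCharacter hY)) g
    rw [Finset.sum_apply] at h
    rw [h]
    apply Finset.sum_congr rfl
    intro ϑ _
    rw [Pi.smul_apply, smul_eq_mul, hnYs]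
  have hS1 : Cfsg.charDegree (ψ : G → ℂ) ^ 2
      = ∑ ϑ : Cfsg.IrrCharacter G, nY ϑ * Cfsg.charDegree (ϑ : G → ℂ) := by
    have h := hYdec 1
    have hY1 : Y 1 = ((Cfsg.charDegree (ψ : G → ℂ) ^ 2 : ℕ) : ℂ) := by
      rw [hYval, irr_one_eq_degree, Complex.conj_natCast]; push_cast; ring
    rw [hY1] at h
    have h2 : ∀ ϑ : Cfsg.IrrCharacter G, (nY ϑ : ℂ) * (ϑ : G → ℂ) 1
        = ((nY ϑ * Cfsg.charDegree (ϑ : G → ℂ) : ℕ) : ℂ) := by
      intro ϑ; rw [irr_one_eq_degree]; push_cast; ring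
    rw [Finset.sum_congr rfl (fun ϑ _ => h2 ϑ)] at h
    exact_mod_cast h
  have hS2 : nY (trivChar G) = 1 := by
    have h := hnYs (trivChar G)
    have h2 : Cfsg.classInner Y ((trivChar G : Cfsg.IrrCharacter G) : G → ℂ)
        = Cfsg.classInner (ψ : G → ℂ) (ψ : G → ℂ) := by
      simp only [Cfsg.classInner, hYval, trivChar_apply, map_one, mul_one]
    rw [h2, Helper2.classInner_irr_irr, if_pos rfl] at h
    exact_mod_cast h.symm
  have hS3 : ∑ ϑ : Cfsg.IrrCharacter G, nY ϑ * tiBn (tiC P) ϑ (trivChar (tiC P))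
      = ∑ θ : Cfsg.IrrCharacter (tiC P), tiBn (tiC P) ψ θ ^ 2 := by
    have hpar := ti_parseval (tiC P) ψ
    have h2 : Cfsg.classInner (fun y : tiC P => (ψ : G → ℂ) y) (fun y : tiC P => (ψ : G → ℂ) y)
        = ∑ ϑ : Cfsg.IrrCharacter G,
            (nY ϑ : ℂ) * (tiBn (tiC P) ϑ (trivChar (tiC P)) : ℂ) := by
      have h3 : Cfsg.classInner (fun y : tiC P => (ψ : G → ℂ) y)
          (fun y : tiC P => (ψ : G → ℂ) y)
          = Cfsg.classInner (fun y : tiC P => Y y)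
            ((trivChar (tiC P) : Cfsg.IrrCharacter (tiC P)) : tiC P → ℂ) := by
        simp only [Cfsg.classInner, hYval, trivChar_apply, map_one, mul_one]
      have h4 : (fun y : tiC P => Y y)
          = ∑ ϑ : Cfsg.IrrCharacter G, (nY ϑ : ℂ) • (fun y : tiC P => (ϑ : G → ℂ) y) := by
        funext y
        rw [hYdec, Finset.sum_apply]
        rfl
      rw [h3, h4, Helper2.classInner_sum_left]
      apply Finset.sum_congr rfl
      intro ϑ _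
      rw [Helper2.classInner_smul_left, ti_classInner_symm]
      have h5 : Cfsg.classInner ((trivChar (tiC P) : Cfsg.IrrCharacter (tiC P)) : tiC P → ℂ)
          (fun y : tiC P => (ϑ : G → ℂ) y) = (tiBn (tiC P) ϑ (trivChar (tiC P)) : ℂ) :=
        tiBn_spec (tiC P) ϑ _
      rw [h5, Complex.conj_natCast]
    rw [h2] at hpar
    exact_mod_cast hpar
  have htt : tiBn (tiC P) (trivChar G) (trivChar (tiC P)) = 1 := by
    rw [tiBn_triv, if_pos rfl]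
  by_cases hcase : ∃ ϑ : Cfsg.IrrCharacter G, ϑ ≠ trivChar G ∧ nY ϑ ≠ 0 ∧
      tiBn (tiC P) ϑ (trivChar (tiC P)) ≠ 0
  swap
  · -- the restriction of ψ to the centralizer is irreducible
    push Not at hcase
    have hE1 : ∑ θ : Cfsg.IrrCharacter (tiC P), tiBn (tiC P) ψ θ ^ 2 = 1 := by
      rw [← hS3, Finset.sum_eq_single (trivChar G)]
      · rw [hS2, htt]
      · intro ϑ _ hϑ
        by_cases h0 : nY ϑ = 0
        · rw [h0, zero_mul]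
        · rw [hcase ϑ hϑ h0, mul_zero]
      · intro h; exact absurd (Finset.mem_univ _) h
    have hex : ∃ ϑ₁ : Cfsg.IrrCharacter G, ϑ₁ ≠ trivChar G ∧ nY ϑ₁ ≠ 0 := by
      by_contra hno
      push Not at hno
      have h3 : ∑ ϑ : Cfsg.IrrCharacter G, nY ϑ * Cfsg.charDegree (ϑ : G → ℂ) = 1 := by
        rw [Finset.sum_eq_single (trivChar G)]
        · rw [hS2, charDegree_trivChar]
        · intro ϑ _ hϑ; rw [hno ϑ hϑ, zero_mul]
        · intro h; exact absurd (Finset.mem_univ _) h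
      rw [← hS1] at h3
      have h4 : 2 ^ 2 ≤ Cfsg.charDegree (ψ : G → ℂ) ^ 2 := Nat.pow_le_pow_left hd2 2
      omega
    obtain ⟨ϑ₁, hϑ₁, hnϑ₁⟩ := hex
    obtain ⟨u, hu, hune⟩ := hF1 ϑ₁ hϑ₁
    apply hune
    apply ti_triangle Y nY hYdec u _ ϑ₁ hnϑ₁
    rw [hYval, hYval]
    exact ti_sq_one p P hPC ψ hE1 u hu
  · obtain ⟨ϑ, hϑ, hnϑ, haϑ⟩ := hcase
    have hle : ∀ ϑ' : Cfsg.IrrCharacter G,
        tiBn (tiC P) ϑ' (trivChar (tiC P)) ≤ Cfsg.charDegree (ϑ' : G → ℂ) := by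
      intro ϑ'
      have h0 := ti_count (tiC P) ϑ' ∅ (Finset.notMem_empty _)
      omega
    have hwN : Cfsg.charDegree (ϑ : G → ℂ)
        + ∑ θ : Cfsg.IrrCharacter (tiC P), tiBn (tiC P) ψ θ ^ 2
        ≤ Cfsg.charDegree (ψ : G → ℂ) ^ 2 + tiBn (tiC P) ϑ (trivChar (tiC P)) := by
      have hsum : ∑ ϑ' : Cfsg.IrrCharacter G, (nY ϑ' : ℤ)
          * ((Cfsg.charDegree (ϑ' : G → ℂ) : ℤ) - tiBn (tiC P) ϑ' (trivChar (tiC P)))
          = ((Cfsg.charDegree (ψ : G → ℂ) ^ 2 : ℕ) : ℤ)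
            - ((∑ θ : Cfsg.IrrCharacter (tiC P), tiBn (tiC P) ψ θ ^ 2 : ℕ) : ℤ) := by
        rw [hS1, ← hS3]
        push_cast
        rw [← Finset.sum_sub_distrib]
        apply Finset.sum_congr rfl
        intro ϑ' _; ring
      have hterm : (nY ϑ : ℤ)
          * ((Cfsg.charDegree (ϑ : G → ℂ) : ℤ) - tiBn (tiC P) ϑ (trivChar (tiC P)))
          ≤ ∑ ϑ' : Cfsg.IrrCharacter G, (nY ϑ' : ℤ)
            * ((Cfsg.charDegree (ϑ' : G → ℂ) : ℤ) - tiBn (tiC P) ϑ' (trivChar (tiC P))) := by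
        apply Finset.single_le_sum (f := fun ϑ' : Cfsg.IrrCharacter G => (nY ϑ' : ℤ)
          * ((Cfsg.charDegree (ϑ' : G → ℂ) : ℤ) - tiBn (tiC P) ϑ' (trivChar (tiC P)))) _
          (Finset.mem_univ ϑ)
        intro ϑ' _
        apply mul_nonneg (Int.natCast_nonneg _)
        have h0 := hle ϑ'
        omega
      have hn1 : (1 : ℤ) ≤ nY ϑ := by exact_mod_cast Nat.pos_of_ne_zero hnϑ
      have hwn : (0 : ℤ) ≤ (Cfsg.charDegree (ϑ : G → ℂ) : ℤ)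
          - tiBn (tiC P) ϑ (trivChar (tiC P)) := by
        have h0 := hle ϑ; omega
      have h5 := le_mul_of_one_le_left hwn hn1
      have h6 : (Cfsg.charDegree (ϑ : G → ℂ) : ℤ)
          + ((∑ θ : Cfsg.IrrCharacter (tiC P), tiBn (tiC P) ψ θ ^ 2 : ℕ) : ℤ)
          ≤ ((Cfsg.charDegree (ψ : G → ℂ) ^ 2 : ℕ) : ℤ)
            + (tiBn (tiC P) ϑ (trivChar (tiC P)) : ℤ) := by linarith
      exact_mod_cast h6
    -- the constituent of ϑ and the families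
    obtain ⟨u₁, hu₁, hu₁ne⟩ := hF1 ϑ hϑ
    obtain ⟨θ₁, hθ₁B, hθ₁ne⟩ := ti_exists_constituent p P hPC ϑ u₁ hu₁ hu₁ne
    obtain ⟨L, hLcard, hL1, hLreg, hLsep⟩ := ti_lambda_exists p P hPC n hn
    have h1reg : ¬ p ∣ orderOf (((1 : tiC P) : tiC P) : G) := by
      have h0 : (((1 : tiC P) : tiC P) : G) = 1 := rfl
      rw [h0, orderOf_one]
      exact (Fact.out : p.Prime).not_dvd_one
    obtain ⟨O, hO_def⟩ : ∃ O : Finset (Cfsg.IrrCharacter (tiC P)),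
        O = (L.image (tiMk (tiC P) θ₁)).filter (tiPN P hPC) := ⟨_, rfl⟩
    have hO := ti_family_card p P hPC θ₁ L hLsep
    rw [← hO_def] at hO
    have hOmem : ∀ a ∈ O, tiPN P hPC a ∧ ∃ β ∈ L, tiMk (tiC P) θ₁ β = a := by
      intro a ha
      rw [hO_def, Finset.mem_filter, Finset.mem_image] at ha
      exact ⟨ha.2, ha.1⟩
    have hOPN : ∀ a ∈ O, tiPN P hPC a := fun a ha => (hOmem a ha).1
    have hOreg : ∀ a ∈ O, ∀ y : tiC P, ¬ p ∣ orderOf (y : G) →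
        (a : tiC P → ℂ) y = (θ₁ : tiC P → ℂ) y := by
      intro a ha y hy
      obtain ⟨β, hβ, rfl⟩ := (hOmem a ha).2
      rw [tiMk_apply, hLreg β hβ y hy, Units.val_one, one_mul]
    have hOone : ∀ a ∈ O, (a : tiC P → ℂ) 1 = (θ₁ : tiC P → ℂ) 1 :=
      fun a ha => hOreg a ha 1 h1reg
    have hθ₁O : θ₁ ∈ O := by
      rw [hO_def, Finset.mem_filter, Finset.mem_image]
      exact ⟨⟨1, hL1, tiMk_one (tiC P) θ₁⟩, ⟨u₁, hu₁, hθ₁ne⟩⟩
    obtain ⟨Λ, hΛ_def⟩ : ∃ Λ : Finset (Cfsg.IrrCharacter (tiC P)),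
        Λ = (L.image (tiMk (tiC P) (trivChar (tiC P)))).filter (tiPN P hPC) := ⟨_, rfl⟩
    have hΛ := ti_family_card p P hPC (trivChar (tiC P)) L hLsep
    rw [← hΛ_def] at hΛ
    have hΛmem : ∀ a ∈ Λ, tiPN P hPC a ∧
        ∃ β ∈ L, tiMk (tiC P) (trivChar (tiC P)) β = a := by
      intro a ha
      rw [hΛ_def, Finset.mem_filter, Finset.mem_image] at ha
      exact ⟨ha.2, ha.1⟩
    have hΛPN : ∀ a ∈ Λ, tiPN P hPC a := fun a ha => (hΛmem a ha).1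
    have hΛreg : ∀ a ∈ Λ, ∀ y : tiC P, ¬ p ∣ orderOf (y : G) → (a : tiC P → ℂ) y = 1 := by
      intro a ha y hy
      obtain ⟨β, hβ, rfl⟩ := (hΛmem a ha).2
      rw [tiMk_apply, hLreg β hβ y hy, Units.val_one, one_mul]
      rfl
    have hΛone : ∀ a ∈ Λ, (a : tiC P → ℂ) 1 = 1 := fun a ha => hΛreg a ha 1 h1reg
    have hΛtriv : trivChar (tiC P) ∉ Λ := fun h => tiPN_ne_triv P hPC _ (hΛPN _ h) rfl
    have hOtriv : trivChar (tiC P) ∉ O := fun h => tiPN_ne_triv P hPC _ (hOPN _ h) rfl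
    have hΛex : ∃ nu0 ∈ Λ, tiBn (tiC P) ϑ nu0 = 0 := by
      by_contra hno
      push Not at hno
      have h5 : Λ.filter (fun θ => tiBn (tiC P) ϑ θ ≠ 0) = Λ := Finset.filter_true_of_mem hno
      have h6 := ti_count (tiC P) ϑ Λ hΛtriv
      rw [h5] at h6
      omega
    obtain ⟨nu0, hnu0Λ, hnu0z⟩ := hΛex
    have hO1 := ti_count (tiC P) ϑ O hOtriv
    have hZ : (O.filter (fun θ => tiBn (tiC P) ϑ θ ≠ 0)).card
        + (O.filter (fun θ => ¬ tiBn (tiC P) ϑ θ ≠ 0)).card = O.card :=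
      Finset.card_filter_add_card_filter_not (s := O) (fun θ => tiBn (tiC P) ϑ θ ≠ 0)
    obtain ⟨Z, hZ_def⟩ : ∃ Z : Finset (Cfsg.IrrCharacter (tiC P)),
        Z = O.filter (fun θ => ¬ tiBn (tiC P) ϑ θ ≠ 0) := ⟨_, rfl⟩
    rw [← hZ_def] at hZ
    have hZcard : e + 1 ≤ Z.card := by omega
    obtain ⟨θ₀, hθ₀Z⟩ := Finset.card_pos.mp (by omega : 0 < Z.card)
    have hZmem : ∀ a ∈ Z, a ∈ O ∧ tiBn (tiC P) ϑ a = 0 := by
      intro a ha
      rw [hZ_def, Finset.mem_filter] at ha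
      exact ⟨ha.1, not_not.mp ha.2⟩
    have hθ₀O := (hZmem θ₀ hθ₀Z).1
    have hθ₀z := (hZmem θ₀ hθ₀Z).2
    have hMθ₀ := tiM_self hT θ₀ (tiPN_good p P hPC hstar θ₀ (hOPN θ₀ hθ₀O))
    have hcl := ti_class_card hT e he θ₀ hMθ₀ Z
    have hex2 : ∃ θ₀' ∈ Z, tiM (tiC P) (tiN P) θ₀ θ₀' = 0 := by
      by_contra hno
      push Not at hno
      have h5 : Z.filter (fun c => tiM (tiC P) (tiN P) θ₀ c ≠ 0) = Z :=
        Finset.filter_true_of_mem hno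
      rw [h5] at hcl
      omega
    obtain ⟨θ₀', hθ₀'Z, hnc⟩ := hex2
    have hθ₀'O := (hZmem θ₀' hθ₀'Z).1
    have hθ₀'z := (hZmem θ₀' hθ₀'Z).2
    have hnu0g := tiPN_good p P hPC hstar nu0 (hΛPN nu0 hnu0Λ)
    have hnu0t := tiPN_ne_triv P hPC nu0 (hΛPN nu0 hnu0Λ)
    -- the hypotheses of the abstract core
    have k_deg : ∀ i : Cfsg.IrrCharacter G, (1 : ℤ) ≤ (Cfsg.charDegree (i : G → ℂ) : ℤ) := by
      intro i; exact_mod_cast irr_degree_pos i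
    have k_symm : ∀ a c : Cfsg.IrrCharacter (tiC P),
        (tiM (tiC P) (tiN P) a c : ℤ) = (tiM (tiC P) (tiN P) c a : ℤ) := by
      intro a c; rw [tiM_symm hT]
    have k_P1 : ∀ a ∈ O, ∀ b ∈ O, ∀ c ∈ O, ∀ d ∈ O,
        ((Nat.card (tiC P) : ℕ) : ℤ) * ∑ i : Cfsg.IrrCharacter G,
          ((tiBn (tiC P) i a : ℤ) - tiBn (tiC P) i b)
            * ((tiBn (tiC P) i c : ℤ) - tiBn (tiC P) i d)
        = (tiM (tiC P) (tiN P) a c : ℤ) - tiM (tiC P) (tiN P) a d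
          - tiM (tiC P) (tiN P) b c + tiM (tiC P) (tiN P) b d := by
      intro a _ b _ c hc d hd
      exact ti_P1_int hT a b c d (fun y hy => by rw [hOreg c hc y hy, hOreg d hd y hy])
    have k_P1' : ∀ c ∈ O, ∀ d ∈ O,
        ((Nat.card (tiC P) : ℕ) : ℤ) * ∑ i : Cfsg.IrrCharacter G,
          ((tiBn (tiC P) i (trivChar (tiC P)) : ℤ) - tiBn (tiC P) i nu0)
            * ((tiBn (tiC P) i c : ℤ) - tiBn (tiC P) i d)
        = (tiM (tiC P) (tiN P) (trivChar (tiC P)) c : ℤ)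
          - tiM (tiC P) (tiN P) (trivChar (tiC P)) d
          - tiM (tiC P) (tiN P) nu0 c + tiM (tiC P) (tiN P) nu0 d := by
      intro c hc d hd
      exact ti_P1_int hT _ _ c d (fun y hy => by rw [hOreg c hc y hy, hOreg d hd y hy])
    have k_P1'' : ((Nat.card (tiC P) : ℕ) : ℤ) * ∑ i : Cfsg.IrrCharacter G,
          ((tiBn (tiC P) i (trivChar (tiC P)) : ℤ) - tiBn (tiC P) i nu0)
            * ((tiBn (tiC P) i (trivChar (tiC P)) : ℤ) - tiBn (tiC P) i nu0)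
        = (tiM (tiC P) (tiN P) (trivChar (tiC P)) (trivChar (tiC P)) : ℤ)
          - tiM (tiC P) (tiN P) (trivChar (tiC P)) nu0
          - tiM (tiC P) (tiN P) nu0 (trivChar (tiC P)) + tiM (tiC P) (tiN P) nu0 nu0 :=
      ti_P1_int hT _ _ _ _ (fun y hy => by rw [hΛreg nu0 hnu0Λ y hy]; rfl)
    have k_P2 : ∀ a ∈ O, ∀ b ∈ O, ∑ i : Cfsg.IrrCharacter G,
        ((tiBn (tiC P) i a : ℤ) - tiBn (tiC P) i b) * (Cfsg.charDegree (i : G → ℂ) : ℤ)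
        = 0 := by
      intro a ha b hb
      exact ti_P2_int (tiC P) a b (by rw [hOone a ha, hOone b hb])
    have k_P2' : ∑ i : Cfsg.IrrCharacter G,
        ((tiBn (tiC P) i (trivChar (tiC P)) : ℤ) - tiBn (tiC P) i nu0)
          * (Cfsg.charDegree (i : G → ℂ) : ℤ) = 0 :=
      ti_P2_int (tiC P) _ _ (by rw [hΛone nu0 hnu0Λ]; rfl)
    have k_Mself : ∀ a ∈ O,
        (tiM (tiC P) (tiN P) a a : ℤ) = ((Nat.card (tiC P) : ℕ) : ℤ) := by
      intro a ha; rw [tiM_self hT a (tiPN_good p P hPC hstar a (hOPN a ha))]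
    have k_Mtt : (tiM (tiC P) (tiN P) (trivChar (tiC P)) (trivChar (tiC P)) : ℤ)
        = (e : ℤ) * ((Nat.card (tiC P) : ℕ) : ℤ) := by
      rw [tiM_triv_triv hT, he]; push_cast; ring
    have k_Mnn : (tiM (tiC P) (tiN P) nu0 nu0 : ℤ) = ((Nat.card (tiC P) : ℕ) : ℤ) := by
      rw [tiM_self hT nu0 hnu0g]
    have k_Mtn : (tiM (tiC P) (tiN P) (trivChar (tiC P)) nu0 : ℤ) = 0 := by
      rw [tiM_triv_zero hT nu0 hnu0t]; rfl
    have k_Mt : ∀ a ∈ O, (tiM (tiC P) (tiN P) (trivChar (tiC P)) a : ℤ) = 0 := by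
      intro a ha
      rw [tiM_triv_zero hT a (tiPN_ne_triv P hPC a (hOPN a ha))]; rfl
    have k_inv : ∀ a ∈ O, ∀ c ∈ O, (tiM (tiC P) (tiN P) a c : ℤ) ≠ 0 →
        (tiBn (tiC P) ϑ a : ℤ) = (tiBn (tiC P) ϑ c : ℤ) := by
      intro a _ c _ h
      rw [tiBn_conj hT ϑ a c (by exact_mod_cast h)]
    have k_inv' : ∀ c ∈ O, (tiM (tiC P) (tiN P) nu0 c : ℤ) ≠ 0 →
        (tiBn (tiC P) ϑ nu0 : ℤ) = (tiBn (tiC P) ϑ c : ℤ) := by
      intro c _ h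
      rw [tiBn_conj hT ϑ nu0 c (by exact_mod_cast h)]
    have k_class : ∀ a ∈ O,
        (O.filter (fun c => (tiM (tiC P) (tiN P) a c : ℤ) ≠ 0)).card ≤ e := by
      intro a ha
      refine le_trans (Finset.card_le_card ?_) (ti_class_card hT e he a
        (tiM_self hT a (tiPN_good p P hPC hstar a (hOPN a ha))) O)
      intro c hc
      rw [Finset.mem_filter] at hc ⊢
      exact ⟨hc.1, by exact_mod_cast hc.2⟩
    have k_class' : (O.filter (fun c => (tiM (tiC P) (tiN P) nu0 c : ℤ) ≠ 0)).card ≤ e := by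
      refine le_trans (Finset.card_le_card ?_) (ti_class_card hT e he nu0
        (tiM_self hT nu0 hnu0g) O)
      intro c hc
      rw [Finset.mem_filter] at hc ⊢
      exact ⟨hc.1, by exact_mod_cast hc.2⟩
    have k_card : e * e < O.card := by
      have h5 : e * e ≤ Cfsg.charDegree (ψ : G → ℂ) * Cfsg.charDegree (ψ : G → ℂ) :=
        Nat.mul_le_mul hed hed
      have h6 : Cfsg.charDegree (ψ : G → ℂ) ^ 2
          = Cfsg.charDegree (ψ : G → ℂ) * Cfsg.charDegree (ψ : G → ℂ) := sq _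
      omega
    have k_one : (tiBn (tiC P) (trivChar G) (trivChar (tiC P)) : ℤ) = 1 := by
      rw [htt]; rfl
    have k_one0 : (tiBn (tiC P) (trivChar G) nu0 : ℤ) = 0 := by
      rw [tiBn_triv, if_neg hnu0t]; rfl
    have k_oneO : ∀ a ∈ O, (tiBn (tiC P) (trivChar G) a : ℤ) = 0 := by
      intro a ha
      rw [tiBn_triv, if_neg (tiPN_ne_triv P hPC a (hOPN a ha))]; rfl
    have k_nn : ∀ (i : Cfsg.IrrCharacter G) (a : Cfsg.IrrCharacter (tiC P)),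
        (0 : ℤ) ≤ (tiBn (tiC P) i a : ℤ) := fun i a => Int.natCast_nonneg _
    have k_χ1 : (1 : ℤ) ≤ (tiBn (tiC P) ϑ (trivChar (tiC P)) : ℤ) := by
      exact_mod_cast Nat.pos_of_ne_zero haϑ
    have k_χ0 : (tiBn (tiC P) ϑ nu0 : ℤ) = 0 := by rw [hnu0z]; rfl
    have k_θ₁B : (1 : ℤ) ≤ (tiBn (tiC P) ϑ θ₁ : ℤ) := by
      exact_mod_cast Nat.pos_of_ne_zero hθ₁B
    have k_z : (tiBn (tiC P) ϑ θ₀ : ℤ) = 0 := by rw [hθ₀z]; rfl
    have k_z' : (tiBn (tiC P) ϑ θ₀' : ℤ) = 0 := by rw [hθ₀'z]; rfl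
    have k_nc : (tiM (tiC P) (tiN P) θ₀ θ₀' : ℤ) = 0 := by rw [hnc]; rfl
    exact tic_core
      (fun (i : Cfsg.IrrCharacter G) (a : Cfsg.IrrCharacter (tiC P)) => (tiBn (tiC P) i a : ℤ))
      (fun i : Cfsg.IrrCharacter G => (Cfsg.charDegree (i : G → ℂ) : ℤ))
      (fun a c : Cfsg.IrrCharacter (tiC P) => (tiM (tiC P) (tiN P) a c : ℤ))
      (Nat.card (tiC P)) e O (trivChar (tiC P)) nu0 (trivChar G) ϑ θ₁ θ₀ θ₀' hκ k_deg k_symm
      k_P1 k_P1' k_P1'' k_P2 k_P2' k_Mself k_Mtt k_Mnn k_Mtn k_Mt k_inv k_inv' k_class k_class'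
      k_card k_one k_one0 k_oneO k_nn k_χ1 k_χ0 hθ₁O k_θ₁B hθ₀O hθ₀'O k_z k_z' k_nc

theorem ti_main (p : ℕ) [Fact p.Prime] (hpG : p ∣ Nat.card G) (P : Sylow p G)
    (hstar : TIHyp P) (n : ℕ) (hn : Nat.card P = p ^ n) (ψ : Cfsg.IrrCharacter G)
    (h1 : (ψ : G → ℂ) ≠ fun _ => 1)
    (hdeg : Cfsg.charDegree (ψ : G → ℂ) ^ 2 + 1 < p ^ n)
    (hNP : ¬ ∃ K : Subgroup G, K.Normal ∧ K ≠ ⊤ ∧ (P : Subgroup G) ≤ K) :
    (∃ N : Subgroup G, N.Normal ∧ N.index = p ^ n) ∧ Cfsg.charDegree (ψ : G → ℂ) = 1 := by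
  have hPC := tig_le p P hpG hstar
  have hT := tig_data p P hPC hstar
  have hF1 : ∀ ϑ : Cfsg.IrrCharacter G, ϑ ≠ trivChar G →
      ∃ u, ∃ _ : u ∈ (P : Subgroup G), (ϑ : G → ℂ) u ≠ (ϑ : G → ℂ) 1 := by
    intro ϑ hϑ
    by_contra hcon
    push Not at hcon
    apply hNP
    refine ⟨irrKer ϑ, inferInstance, ?_, ?_⟩
    · intro htop; exact hϑ (irr_eq_trivChar_of_ker_eq_top ϑ htop)
    · intro u hu; rw [mem_irrKer]; exact hcon u hu
  have hψtriv : ψ ≠ trivChar G := by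
    intro h; apply h1; rw [h]; rfl
  have hd1 : Cfsg.charDegree (ψ : G → ℂ) = 1 := by
    by_contra hd
    exact ti_main_aux p P hstar n hn ψ hdeg hPC hT hF1 hψtriv hd
  refine ⟨?_, hd1⟩
  obtain ⟨v, hv, hvne⟩ := hF1 ψ hψtriv
  have hψ1 : (ψ : G → ℂ) 1 = 1 := by rw [irr_one_eq_degree, hd1]; simp
  apply tig_complement p P hPC hstar ⟨v, hv, ?_⟩ n hn
  rintro ⟨a, b, hab⟩
  apply hvne
  rw [hab, irr_linear_mul ψ hψ1, irr_linear_mul ψ hψ1 (a⁻¹ * b) a,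
    irr_linear_mul ψ hψ1 a⁻¹ b, hψ1]
  have e1 : (ψ : G → ℂ) a⁻¹ * (ψ : G → ℂ) a = 1 := by
    rw [← irr_linear_mul ψ hψ1, inv_mul_cancel, hψ1]
  have e2 : (ψ : G → ℂ) b * (ψ : G → ℂ) b⁻¹ = 1 := by
    rw [← irr_linear_mul ψ hψ1, mul_inv_cancel, hψ1]
  calc (ψ : G → ℂ) a⁻¹ * (ψ : G → ℂ) b * (ψ : G → ℂ) a * (ψ : G → ℂ) b⁻¹
      = ((ψ : G → ℂ) a⁻¹ * (ψ : G → ℂ) a) * ((ψ : G → ℂ) b * (ψ : G → ℂ) b⁻¹) := by ring
    _ = 1 := by rw [e1, e2, one_mul]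

theorem ti_S4486 {H : Type u} [Group H] [Finite H] (p : ℕ) (hp : p.Prime)
    (hpG : p ∣ Nat.card H) (P : Sylow p H)
    (hstar : ∀ x ∈ (P : Subgroup H), x ≠ 1 →
      Subgroup.centralizer ({x} : Set H) = Subgroup.centralizer ((P : Subgroup H) : Set H))
    (n : ℕ) (hn : Nat.card P = p ^ n) (χ : Cfsg.IrrCharacter H)
    (h1 : (χ : H → ℂ) ≠ fun _ => 1)
    (hdeg : Cfsg.charDegree (χ : H → ℂ) ^ 2 + 1 < p ^ n) :
    (∃ K : Subgroup H, K.Normal ∧ K ≠ ⊤ ∧ (P : Subgroup H) ≤ K) ∨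
      ((∃ N : Subgroup H, N.Normal ∧ N.index = p ^ n) ∧
        Cfsg.charDegree (χ : H → ℂ) = 1) := by
  haveI := Fintype.ofFinite H
  haveI : Fact p.Prime := ⟨hp⟩
  by_cases hNP : ∃ K : Subgroup H, K.Normal ∧ K ≠ ⊤ ∧ (P : Subgroup H) ≤ K
  · exact Or.inl hNP
  · exact Or.inr (ti_main p hpG P hstar n hn χ h1 hdeg hNP)

end Cfsg.Agent.Helper25
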