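import Mathlib
import Cfsg.Prelude.Def_Characters
import Cfsg.Agent.Helper25.TIMain

/-!
# Normality of the Sylow subgroup from a small faithful character (S4485, helper25)
-/

set_option autoImplicit false
set_option maxHeartbeats 400000

namespace Cfsg.Agent.Helper25

open Classical

universe u

theorem ti_S4485_aux (p : ℕ) (hp : p.Prime) (n : ℕ) :
    ∀ m : ℕ, ∀ (G : Type u) [Group G] [Finite G], Nat.card G = m → ∀ (P : Sylow p G),
      (∀ x ∈ (P : Subgroup G), x ≠ 1 → Subgroup.centralizer ({x} : Set G)
        = Subgroup.centralizer ((P : Subgroup G) : Set G)) →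
      Nat.card P = p ^ n → ∀ (χ : G → ℂ), Cfsg.IsCharacter G χ →
      (∀ g : G, χ g = χ 1 → g = 1) →
      Cfsg.charDegree χ ^ 2 + 1 < p ^ n → (P : Subgroup G).Normal := by
  intro m
  induction m using Nat.strong_induction_on with
  | _ m ih =>
    intro G _ _ hm P hstar hn χ hχ hfaith hdeg
    haveI : Fact p.Prime := ⟨hp⟩
    by_cases hNP : ∃ K : Subgroup G, K.Normal ∧ K ≠ ⊤ ∧ (P : Subgroup G) ≤ K
    · obtain ⟨K, hKn, hKtop, hPK⟩ := hNP
      haveI := hKn
      have hKcard : Nat.card K < m := by
        rw [← hm]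
        exact lt_of_le_of_ne (Subgroup.card_le_card_group K)
          (fun h => hKtop (Subgroup.eq_top_of_card_eq K h))
      obtain ⟨P', hP'def⟩ : ∃ P' : Sylow p K,
          (P' : Subgroup K) = (P : Subgroup G).subgroupOf K :=
        ⟨P.subtype hPK, Sylow.coe_subtype P hPK⟩
      have hP'mem : ∀ y : K, y ∈ (P' : Subgroup K) ↔ (y : G) ∈ (P : Subgroup G) := by
        intro y; rw [hP'def]; exact Subgroup.mem_subgroupOf
      have hstar' : ∀ x ∈ (P' : Subgroup K), x ≠ 1 → Subgroup.centralizer ({x} : Set K)
          = Subgroup.centralizer ((P' : Subgroup K) : Set K) := by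
        intro x hx hx1
        have hxG : (x : G) ∈ (P : Subgroup G) := (hP'mem x).mp hx
        have hx1G : (x : G) ≠ 1 := fun h => hx1 (Subtype.ext h)
        have hc := hstar (x : G) hxG hx1G
        ext y
        rw [Subgroup.mem_centralizer_iff, Subgroup.mem_centralizer_iff]
        constructor
        · intro h1 h hh
          have h2 : (y : G) ∈ Subgroup.centralizer ({(x : G)} : Set G) := by
            rw [Subgroup.mem_centralizer_iff]
            intro z hz
            rw [Set.mem_singleton_iff] at hz
            rw [hz]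
            exact congrArg Subtype.val (h1 x (Set.mem_singleton x))
          rw [hc, Subgroup.mem_centralizer_iff] at h2
          exact Subtype.ext (h2 (h : G) ((hP'mem h).mp hh))
        · intro h1 z hz
          rw [Set.mem_singleton_iff] at hz
          rw [hz]
          have h2 : (y : G) ∈ Subgroup.centralizer ((P : Subgroup G) : Set G) := by
            rw [Subgroup.mem_centralizer_iff]
            intro h hh
            exact congrArg Subtype.val (h1 ⟨h, hPK hh⟩ ((hP'mem _).mpr hh))
          rw [← hc, Subgroup.mem_centralizer_iff] at h2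
          exact Subtype.ext (h2 (x : G) (Set.mem_singleton _))
      have hn' : Nat.card P' = p ^ n := by
        have h1 : Nat.card ↥((P : Subgroup G).subgroupOf K) = Nat.card ↥(P : Subgroup G) :=
          Nat.card_congr (Subgroup.subgroupOfEquivOfLe hPK).toEquiv
        have h2 : Nat.card ↥(P' : Subgroup K) = Nat.card ↥((P : Subgroup G).subgroupOf K) := by
          rw [hP'def]
        exact h2.trans (h1.trans hn)
      have hχ' : Cfsg.IsCharacter K (fun k : K => χ k) := Helper2.isCharacter_restrict K hχ
      have hfaith' : ∀ k : K, (fun k : K => χ k) k = (fun k : K => χ k) 1 → k = 1 := by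
        intro k hk
        exact Subtype.ext (hfaith (k : G) hk)
      have hdeg' : Cfsg.charDegree (fun k : K => χ k) ^ 2 + 1 < p ^ n := hdeg
      have hnorm' : (P' : Subgroup K).Normal :=
        ih (Nat.card K) hKcard K rfl P' hstar' hn' _ hχ' hfaith' hdeg'
      haveI : (P' : Subgroup K).Characteristic := Sylow.characteristic_of_normal P' hnorm'
      have hmap : (P' : Subgroup K).map K.subtype = (P : Subgroup G) := by
        rw [hP'def, Subgroup.subgroupOf_map_subtype]
        exact inf_eq_left.mpr hPK
      rw [← hmap]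
      infer_instance
    · -- no proper normal subgroup contains P
      letI : Fintype G := Fintype.ofFinite G
      have hpG : p ∣ Nat.card G := by
        have hn0 : n ≠ 0 := by
          rintro rfl
          rw [pow_zero] at hdeg
          omega
        have h1 : p ∣ Nat.card P := by rw [hn]; exact dvd_pow_self p hn0
        exact h1.trans (Subgroup.card_subgroup_dvd_card (P : Subgroup G))
      have hmex : ∀ ψ : Cfsg.IrrCharacter G, ∃ k : ℕ, Cfsg.classInner χ (ψ : G → ℂ) = (k : ℂ) :=
        fun ψ => Helper2.classInner_char_nat hχ (irr_isCharacter ψ)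
      choose mχ hmχ using hmex
      have hdec : ∀ g : G, χ g = ∑ ψ : Cfsg.IrrCharacter G, (mχ ψ : ℂ) * (ψ : G → ℂ) g := by
        intro g
        have h : χ g = (∑ ψ : Cfsg.IrrCharacter G,
            Cfsg.classInner χ (ψ : G → ℂ) • (ψ : G → ℂ)) g :=
          congrFun (Helper2.classFun_eq_sum_classInner
            (Helper2.isClassFunction_of_isCharacter hχ)) g
        rw [Finset.sum_apply] at h
        rw [h]
        apply Finset.sum_congr rfl
        intro ψ _
        rw [Pi.smul_apply, smul_eq_mul, hmχ]
      have hdegsum : Cfsg.charDegree χ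
          = ∑ ψ : Cfsg.IrrCharacter G, mχ ψ * Cfsg.charDegree (ψ : G → ℂ) := by
        have h := hdec 1
        rw [char_one_eq_degree hχ] at h
        have h2 : ∀ ψ : Cfsg.IrrCharacter G, (mχ ψ : ℂ) * (ψ : G → ℂ) 1
            = ((mχ ψ * Cfsg.charDegree (ψ : G → ℂ) : ℕ) : ℂ) := by
          intro ψ; rw [irr_one_eq_degree]; push_cast; ring
        rw [Finset.sum_congr rfl (fun ψ _ => h2 ψ)] at h
        exact_mod_cast h
      have hlin : ∀ ψ : Cfsg.IrrCharacter G, mχ ψ ≠ 0 → (ψ : G → ℂ) 1 = 1 := by
        intro ψ hψ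
        have hle : Cfsg.charDegree (ψ : G → ℂ) ≤ Cfsg.charDegree χ := by
          rw [hdegsum]
          have h1 : mχ ψ * Cfsg.charDegree (ψ : G → ℂ)
              ≤ ∑ ψ' : Cfsg.IrrCharacter G, mχ ψ' * Cfsg.charDegree (ψ' : G → ℂ) :=
            Finset.single_le_sum (f := fun ψ' : Cfsg.IrrCharacter G =>
              mχ ψ' * Cfsg.charDegree (ψ' : G → ℂ)) (fun _ _ => Nat.zero_le _)
              (Finset.mem_univ ψ)
          exact le_trans (Nat.le_mul_of_pos_left _ (Nat.pos_of_ne_zero hψ)) h1
        by_cases ht : (ψ : G → ℂ) = fun _ => 1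
        · rw [ht]
        · have hdegψ : Cfsg.charDegree (ψ : G → ℂ) ^ 2 + 1 < p ^ n := by
            have h3 : Cfsg.charDegree (ψ : G → ℂ) ^ 2 ≤ Cfsg.charDegree χ ^ 2 :=
              Nat.pow_le_pow_left hle 2
            omega
          rcases ti_S4486 p hp hpG P hstar n hn ψ ht hdegψ with h4 | h4
          · exact absurd h4 hNP
          · rw [irr_one_eq_degree, h4.2]; simp
      have hcomm : ∀ a b : G, a * b = b * a := by
        intro a b
        have h1 : χ (a * b * a⁻¹ * b⁻¹) = χ 1 := by
          rw [hdec, hdec 1]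
          apply Finset.sum_congr rfl
          intro ψ _
          by_cases h0 : mχ ψ = 0
          · rw [h0]; simp
          · have hψ1 := hlin ψ h0
            congr 1
            rw [irr_linear_mul ψ hψ1, irr_linear_mul ψ hψ1 (a * b) a⁻¹,
              irr_linear_mul ψ hψ1 a b, hψ1]
            have e1 : (ψ : G → ℂ) a * (ψ : G → ℂ) a⁻¹ = 1 := by
              rw [← irr_linear_mul ψ hψ1, mul_inv_cancel, hψ1]
            have e2 : (ψ : G → ℂ) b * (ψ : G → ℂ) b⁻¹ = 1 := by
              rw [← irr_linear_mul ψ hψ1, mul_inv_cancel, hψ1]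
            calc (ψ : G → ℂ) a * (ψ : G → ℂ) b * (ψ : G → ℂ) a⁻¹ * (ψ : G → ℂ) b⁻¹
                = ((ψ : G → ℂ) a * (ψ : G → ℂ) a⁻¹)
                  * ((ψ : G → ℂ) b * (ψ : G → ℂ) b⁻¹) := by ring
              _ = 1 := by rw [e1, e2, one_mul]
        have h2 := hfaith _ h1
        calc a * b = (a * b * a⁻¹ * b⁻¹) * (b * a) := by group
          _ = b * a := by rw [h2, one_mul]
      exact ⟨fun x hx g => by
        have h3 : g * x * g⁻¹ = x := by rw [hcomm g x]; group
        rw [h3]; exact hx⟩

theorem ti_S4485 {G : Type u} [Group G] [Finite G] (p : ℕ) (hp : p.Prime) (P : Sylow p G)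
    (hstar : ∀ x ∈ (P : Subgroup G), x ≠ 1 → Subgroup.centralizer ({x} : Set G)
      = Subgroup.centralizer ((P : Subgroup G) : Set G))
    (n : ℕ) (hn : Nat.card P = p ^ n) (χ : G → ℂ) (hχ : Cfsg.IsCharacter G χ)
    (hfaith : ∀ g : G, χ g = χ 1 → g = 1) (hdeg : Cfsg.charDegree χ ^ 2 + 1 < p ^ n) :
    (P : Subgroup G).Normal :=
  ti_S4485_aux p hp n (Nat.card G) G rfl P hstar hn χ hχ hfaith hdeg

end Cfsg.Agent.Helper25
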