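import Mathlib
import Cfsg.Agent.Helper25.BlockPairs15
import Cfsg.Agent.Helper25.DerLen
import Cfsg.Agent.Helper11.CliffCorr
import Cfsg.Agent.Helper2.Cliff
import Cfsg.Agent.Helper7.Defect
import Cfsg.Agent.Helper7.MinMax
import Cfsg.Agent.Helper1.Burnside
import Cfsg.Agent.S0854

/-!
# Brauer pairs carrying a weight are centric and radical (helper25)

* `wc_vanish`: a character of defect zero modulo a normal subgroup `U` in its kernel vanishes on
  the `p`-elements outside `U`.
* `wc_constituent`: constituents on a normal subgroup of such a character have defect zero modulo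
  `U`.
* `wc_defectGroup`: a block containing a character of defect zero modulo a central `p`-subgroup
  `Z` in its kernel has defect group `Z`.
* `wc_radical`: a normal `p`-subgroup lies in `U`.
-/

set_option autoImplicit false

namespace Cfsg.Agent.Helper25

open Cfsg
open scoped ComplexConjugate Pointwise

universe u

section WC

variable {G : Type u} [Group G] {p : ℕ} {M : Ideal AlgInt}

/-- A character of defect zero modulo a normal subgroup `U` of its kernel vanishes on the
`p`-elements outside `U`. -/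
theorem wc_vanish [Finite G] [Fact p.Prime] (hM : IsPModular p M) (U : Subgroup G) [U.Normal]
    (ψ : IrrCharacter G) (hker : U ≤ irrKer ψ)
    (hdeg : (Nat.card G).factorization p
      ≤ (charDegree (ψ : G → ℂ)).factorization p + (Nat.card U).factorization p)
    (y : G) (hy : y ∉ U) (k : ℕ) (hyk : y ^ p ^ k = 1) : (ψ : G → ℂ) y = 0 := by
  classical
  have hp : p.Prime := Fact.out
  obtain ⟨ψ', hψ'⟩ := exists_deflate ψ U hker
  have hcard : Nat.card G = Nat.card (G ⧸ U) * Nat.card U :=
    Subgroup.card_eq_card_quotient_mul_card_subgroup U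
  have hdegψ : charDegree (ψ' : G ⧸ U → ℂ) = charDegree (ψ : G → ℂ) := by
    unfold charDegree
    rw [← hψ' 1]
    rfl
  have hd0 : (Nat.card (G ⧸ U)).factorization p
      ≤ (charDegree (ψ' : G ⧸ U → ℂ)).factorization p := by
    rw [hdegψ]
    rw [hcard, Nat.factorization_mul Nat.card_pos.ne' Nat.card_pos.ne'] at hdeg
    simp only [Finsupp.coe_add, Pi.add_apply] at hdeg
    omega
  rw [← hψ' y]
  apply Cfsg.Agent.Helper7.irr_vanish_of_defect_zero hM ψ' hd0
  have h1 : (QuotientGroup.mk y : G ⧸ U) ^ p ^ k = 1 := by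
    rw [← QuotientGroup.mk_pow, hyk]
    rfl
  have h2 : (QuotientGroup.mk y : G ⧸ U) ≠ 1 := by
    intro h
    exact hy ((QuotientGroup.eq_one_iff y).mp h)
  obtain ⟨j, -, hjo⟩ := (Nat.dvd_prime_pow hp).mp (orderOf_dvd_of_pow_eq_one h1)
  have hj0 : j ≠ 0 := by
    rintro rfl
    rw [pow_zero, orderOf_eq_one_iff] at hjo
    exact h2 hjo
  rw [hjo]
  exact dvd_pow_self p hj0

/-- Constituents on a normal subgroup `N` of a character of defect zero modulo `U` have defect
zero modulo `U ∩ N`. -/
theorem wc_constituent [Fintype G] [Fact p.Prime] (hM : IsPModular p M) (N U : Subgroup G)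
    [hN : N.Normal] [hU : U.Normal] [Fintype N] (χ : IrrCharacter G) (hker : U ≤ irrKer χ)
    (hdeg : (Nat.card G).factorization p
      ≤ (charDegree (χ : G → ℂ)).factorization p + (Nat.card U).factorization p)
    (θ : IrrCharacter N)
    (hθ : classInner (fun n : N => (χ : G → ℂ) n) (θ : N → ℂ) ≠ 0)
    (hUθ : U ≤ Helper2.stabChar N (θ : N → ℂ)) :
    (Nat.card N).factorization p
      ≤ (charDegree (θ : N → ℂ)).factorization p + (Nat.card (U.subgroupOf N)).factorization p := by
  classical
  have hp : p.Prime := Fact.out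
  obtain ⟨I, hI⟩ : ∃ I : Subgroup G, I = Helper2.stabChar N (θ : N → ℂ) := ⟨_, rfl⟩
  let _ : Fintype I := Fintype.ofFinite I
  have hθch : IsCharacter N (θ : N → ℂ) := Helper2.isCharacter_of_isIrrCharacter θ.2
  have hNI : N ≤ I := by
    rw [hI]
    exact Helper2.le_stabChar N _ (Helper2.isClassFunction_of_isCharacter hθch)
  have hUI : U ≤ I := by
    rw [hI]
    exact hUθ
  have hT : ∀ g : G, g ∈ I ↔ ∀ n : N,
      (θ : N → ℂ) ⟨g * n * g⁻¹, hN.conj_mem (n : G) n.2 g⟩ = (θ : N → ℂ) n := by
    intro g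
    rw [hI, Helper2.mem_stabChar]
    constructor
    · intro h n
      exact congrFun h n
    · intro h
      funext n
      exact h n
  obtain ⟨ψf, hψirr, hind, hinner⟩ := Cfsg.Agent.S0854.result N (θ : N → ℂ) θ.2 I hT hNI
    (χ : G → ℂ) χ.2 hθ
  obtain ⟨ψ, rfl⟩ : ∃ ψ : IrrCharacter I, (ψ : I → ℂ) = ψf := ⟨⟨ψf, hψirr⟩, rfl⟩
  have hψN : classInner (fun n : N => (ψ : I → ℂ) ⟨(n : G), hNI n.2⟩) (θ : N → ℂ) ≠ 0 := by
    rw [hinner]
    exact hθ
  -- `ψ` is a constituent of the restriction of `χ` to `I`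
  have hχI : classInner (fun t : I => (χ : G → ℂ) t) (ψ : I → ℂ) ≠ 0 := by
    have h1 := Helper2.frobenius_reciprocity I (ψ : I → ℂ) (χ : G → ℂ)
      (Helper2.isClassFunction_of_isCharacter (Helper2.isCharacter_of_isIrrCharacter χ.2))
    rw [hind, Helper2.classInner_irr_irr, if_pos rfl] at h1
    rw [Helper2.classInner_conj_symm (ψ : I → ℂ), ← h1]
    simp
  -- degrees
  have hdegχ : charDegree (χ : G → ℂ) = I.index * charDegree (ψ : I → ℂ) := by
    have h1 := Helper2.indFun_one_apply I (ψ : I → ℂ)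
    rw [hind, irr_one_eq_degree, irr_one_eq_degree] at h1
    exact_mod_cast h1
  -- `ψ` restricted to `N` is a multiple of `θ`
  obtain ⟨f, hf⟩ := Cfsg.Agent.Helper11.cc_b_nat N I (θ : N → ℂ) hNI θ.2 (ψ : I → ℂ)
    (Helper2.isCharacter_of_isIrrCharacter ψ.2)
  have hf0 : (f : ℂ) ≠ 0 := by
    rw [← hf]
    exact hψN
  have hres : ∀ n : N, (ψ : I → ℂ) ⟨(n : G), hNI n.2⟩ = (f : ℂ) * (θ : N → ℂ) n := by
    intro n
    rw [← hf]
    exact Cfsg.Agent.Helper11.cc_restrict N I (θ : N → ℂ) hNI hT θ.2 (ψ : I → ℂ) ψ.2 hψN n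
  -- `U ∩ I` lies in the kernel of `ψ`
  have hUn : (U.subgroupOf I).Normal := Subgroup.normal_subgroupOf
  have hkerψ : U.subgroupOf I ≤ irrKer ψ := by
    intro z hz
    rw [mem_irrKer]
    exact dl_ker_restrict I χ ψ hχI z ((mem_irrKer χ (z : G)).mp (hker (Subgroup.mem_subgroupOf.mp hz)))
  have hcardU : Nat.card (U.subgroupOf I) = Nat.card U :=
    Nat.card_congr (Subgroup.subgroupOfEquivOfLe hUI).toEquiv
  have hdegψ : (Nat.card I).factorization p
      ≤ (charDegree (ψ : I → ℂ)).factorization p + (Nat.card (U.subgroupOf I)).factorization p := by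
    rw [hcardU]
    have h1 := Subgroup.card_mul_index I
    have hidx : I.index ≠ 0 := Subgroup.index_ne_zero_of_finite
    rw [← h1, Nat.factorization_mul Nat.card_pos.ne' hidx, hdegχ,
      Nat.factorization_mul hidx (irr_degree_pos ψ).ne'] at hdeg
    simp only [Finsupp.coe_add, Pi.add_apply] at hdeg
    omega
  -- values of `θ` on a Sylow `p`-subgroup of `N`
  obtain ⟨P⟩ : Nonempty (Sylow p N) := inferInstance
  have hval : ∀ c : N, c ∈ (P : Subgroup N) →
      (θ : N → ℂ) c = if c ∈ U.subgroupOf N then (θ : N → ℂ) 1 else 0 := by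
    intro c hc
    by_cases hcU : c ∈ U.subgroupOf N
    · rw [if_pos hcU]
      exact dl_ker_restrict N χ θ hθ c
        ((mem_irrKer χ (c : G)).mp (hker (Subgroup.mem_subgroupOf.mp hcU)))
    · rw [if_neg hcU]
      obtain ⟨k, hk⟩ := P.isPGroup' ⟨c, hc⟩
      have hk' : c ^ p ^ k = 1 := by
        have := congrArg Subtype.val hk
        simpa using this
      have h1 := wc_vanish hM (U.subgroupOf I) ψ hkerψ hdegψ ⟨(c : G), hNI c.2⟩
        (fun h => hcU (Subgroup.mem_subgroupOf.mpr (Subgroup.mem_subgroupOf.mp h))) k (by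
          apply Subtype.ext
          have := congrArg Subtype.val hk'
          simpa using this)
      rw [hres c] at h1
      exact (mul_eq_zero.mp h1).resolve_left hf0
  obtain ⟨m, hm⟩ := irr_sum_subgroup θ (P : Subgroup N)
  have hsum : ∑ u : (P : Subgroup N), (θ : N → ℂ) u
      = (Nat.card ((U.subgroupOf N).subgroupOf (P : Subgroup N)) : ℂ) * (θ : N → ℂ) 1 := by
    rw [Finset.sum_congr rfl (fun (u : (P : Subgroup N)) _ => hval (u : N) u.2)]
    rw [Finset.sum_ite, Finset.sum_const_zero, add_zero, Finset.sum_const, nsmul_eq_mul]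
    congr 2
    rw [Nat.card_eq_fintype_card, Fintype.card_subtype]
    rfl
  rw [hsum, irr_one_eq_degree] at hm
  have hm' : Nat.card ((U.subgroupOf N).subgroupOf (P : Subgroup N)) * charDegree (θ : N → ℂ)
      = Nat.card (P : Subgroup N) * m := by
    exact_mod_cast hm
  have hK0 : Nat.card ((U.subgroupOf N).subgroupOf (P : Subgroup N)) ≠ 0 := Nat.card_pos.ne'
  have hd0 : charDegree (θ : N → ℂ) ≠ 0 := (irr_degree_pos θ).ne'
  have hm0 : m ≠ 0 := by
    rintro rfl
    rw [mul_zero] at hm'
    exact (mul_ne_zero hK0 hd0) hm'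
  have hfac : (Nat.card ((U.subgroupOf N).subgroupOf (P : Subgroup N))
      * charDegree (θ : N → ℂ)).factorization p
      = (Nat.card (P : Subgroup N) * m).factorization p := by
    rw [hm']
  rw [Nat.factorization_mul hK0 hd0, Nat.factorization_mul Nat.card_pos.ne' hm0,
    P.card_eq_multiplicity, Nat.Prime.factorization_pow hp] at hfac
  simp only [Finsupp.coe_add, Pi.add_apply, Finsupp.single_eq_same] at hfac
  have hKle : (Nat.card ((U.subgroupOf N).subgroupOf (P : Subgroup N))).factorization p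
      ≤ (Nat.card (U.subgroupOf N)).factorization p := by
    apply (Nat.factorization_le_iff_dvd hK0 Nat.card_pos.ne').mpr
    have h1 : Nat.card ((U.subgroupOf N).subgroupOf (P : Subgroup N))
        = Nat.card ↥(U.subgroupOf N ⊓ (P : Subgroup N)) := by
      rw [← Subgroup.inf_subgroupOf_right]
      exact Nat.card_congr (Subgroup.subgroupOfEquivOfLe inf_le_right).toEquiv
    rw [h1]
    exact Subgroup.card_dvd_of_le inf_le_left
  omega

/-- A block containing a character of defect zero modulo a central `p`-subgroup `Z` of its kernel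
has defect group `Z`. -/
theorem wc_defectGroup [Finite G] [Fact p.Prime] (hM : IsPModular p M)
    {e : Set (IrrCharacter G)} (he : IsPBlock M e) (Z : Subgroup G) [Z.Normal]
    (hZc : Z ≤ Subgroup.center G) (hZp : IsPGroup p Z) (θ : IrrCharacter G) (hθ : θ ∈ e)
    (hker : Z ≤ irrKer θ)
    (hdeg : (Nat.card G).factorization p
      ≤ (charDegree (θ : G → ℂ)).factorization p + (Nat.card Z).factorization p) :
    IsDefectGroup p M e Z := by
  classical
  have hp : p.Prime := Fact.out
  obtain ⟨g₀, hg₀, hg₀c⟩ := exists_class_of_defect_zero_mod hM Z hZc hZp θ hker hdeg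
  have hg₀' : ∀ χ ∈ e, ¬ MemLocalIdeal M (centralChar (χ : G → ℂ) g₀) := by
    intro χ hχ hli
    apply hg₀
    have h3 := sameBlock_of_mem hM he hθ hχ g₀
    have h4 := li_add hM h3 hli
    rw [sub_add_cancel] at h4
    exact h4
  obtain ⟨x₀, hx₀⟩ := exists_isDefectClass hM he
  have hZx : Z ≤ Subgroup.centralizer ({x₀} : Set G) := by
    intro z hz
    rw [Subgroup.mem_centralizer_singleton_iff]
    exact (Subgroup.mem_center_iff.mp (hZc hz) x₀).symm
  obtain ⟨S, hS⟩ := Cfsg.Agent.Helper7.exists_sylow_ge p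
    (Subgroup.centralizer ({x₀} : Set G)) Z hZp hZx
  obtain ⟨D, hD⟩ : ∃ D : Subgroup G,
      D = (S : Subgroup _).map (Subgroup.centralizer ({x₀} : Set G)).subtype := ⟨_, rfl⟩
  rw [← hD] at hS
  have hDp : IsPGroup p D := by
    rw [hD]
    exact S.isPGroup'.map _
  have hDx : D ≤ Subgroup.centralizer ({x₀} : Set G) := by
    rw [hD]
    exact Subgroup.map_subtype_le _
  obtain ⟨y, hy, hDy⟩ := Cfsg.Agent.Helper7.minmax_core hM he g₀ x₀ hg₀' hx₀.2.1 D hDp hDx
  have hcardy : Nat.card (Subgroup.centralizer ({y} : Set G))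
      = Nat.card (Subgroup.centralizer ({g₀} : Set G)) := by
    obtain ⟨t, rfl⟩ := isConj_iff.mp hy
    have h3 := index_centralizer_conj g₀ t
    have h4 := Subgroup.card_mul_index (Subgroup.centralizer ({t * g₀ * t⁻¹} : Set G))
    have h5 := Subgroup.card_mul_index (Subgroup.centralizer ({g₀} : Set G))
    rw [h3] at h4
    have hpos : 0 < (Subgroup.centralizer ({g₀} : Set G)).index :=
      Nat.pos_of_ne_zero Subgroup.index_ne_zero_of_finite
    exact Nat.eq_of_mul_eq_mul_right hpos (h4.trans h5.symm)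
  have hdvd : Nat.card D ∣ Nat.card (Subgroup.centralizer ({g₀} : Set G)) := by
    rw [← hcardy]
    exact Subgroup.card_dvd_of_le hDy
  obtain ⟨a, ha⟩ := (IsPGroup.iff_card.mp hDp)
  obtain ⟨b, hb⟩ := (IsPGroup.iff_card.mp hZp)
  have hab : a ≤ b := by
    have h3 := (Nat.factorization_le_iff_dvd Nat.card_pos.ne' Nat.card_pos.ne').mpr hdvd p
    rw [ha, Nat.Prime.factorization_pow hp] at h3
    rw [hb, Nat.Prime.factorization_pow hp] at hg₀c
    simp at h3 hg₀c
    omega
  have hEq : Z = D := Subgroup.eq_of_le_of_card_ge hS (by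
    rw [ha, hb]
    exact Nat.pow_le_pow_right hp.pos hab)
  rw [hEq]
  exact ⟨x₀, hx₀, S, hD⟩

/-- A normal `p`-subgroup lies in `U` as soon as some irreducible character has defect zero
modulo `U`. -/
theorem wc_radical [Fintype G] [Fact p.Prime] (hM : IsPModular p M) (U R : Subgroup G)
    [hU : U.Normal] [hR : R.Normal] (hRp : IsPGroup p R) (χ : IrrCharacter G)
    (hker : U ≤ irrKer χ)
    (hdeg : (Nat.card G).factorization p
      ≤ (charDegree (χ : G → ℂ)).factorization p + (Nat.card U).factorization p) : R ≤ U := by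
  classical
  let _ : Fintype R := Fintype.ofFinite R
  by_contra hne
  obtain ⟨r, hr, hrU⟩ := SetLike.not_le_iff_exists.mp hne
  have hval : ∀ c : R, (χ : G → ℂ) c = if c ∈ U.subgroupOf R then (χ : G → ℂ) 1 else 0 := by
    intro c
    by_cases hc : c ∈ U.subgroupOf R
    · rw [if_pos hc]
      exact (mem_irrKer χ _).mp (hker (Subgroup.mem_subgroupOf.mp hc))
    · rw [if_neg hc]
      obtain ⟨k', hk'⟩ := hRp c
      exact wc_vanish hM U χ hker hdeg c (fun h => hc (Subgroup.mem_subgroupOf.mpr h)) k' (by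
        have := congrArg Subtype.val hk'
        simpa using this)
  have h0 : (χ : G → ℂ) r = 0 := by
    have h1 := hval ⟨r, hr⟩
    rw [if_neg (fun h => hrU (Subgroup.mem_subgroupOf.mp h))] at h1
    exact h1
  have hcon : classInner (fun n : R => (χ : G → ℂ) n) (fun _ : R => (1 : ℂ)) ≠ 0 := by
    unfold classInner
    have hsum : ∑ g : R, (χ : G → ℂ) g * (starRingEnd ℂ) (1 : ℂ)
        = (Nat.card (U.subgroupOf R) : ℂ) * (χ : G → ℂ) 1 := by
      rw [Finset.sum_congr rfl (fun (u : R) _ => by rw [map_one, mul_one, hval u])]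
      rw [Finset.sum_ite, Finset.sum_const_zero, add_zero, Finset.sum_const, nsmul_eq_mul]
      congr 2
      rw [Nat.card_eq_fintype_card, Fintype.card_subtype]
    rw [hsum]
    refine mul_ne_zero (inv_ne_zero ?_) (mul_ne_zero ?_ (irr_one_ne_zero χ))
    · exact_mod_cast (Nat.card_pos (α := R)).ne'
    · exact_mod_cast (Nat.card_pos (α := U.subgroupOf R)).ne'
  obtain ⟨e, he0, hfun, -⟩ := Cfsg.Agent.Helper7.clifford_invariant R (fun _ => (1 : ℂ))
    (Cfsg.Agent.Helper1.isIrrCharacter_one R) (fun g n => rfl) (χ : G → ℂ) χ.2 hcon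
  have h1 := congrFun hfun ⟨r, hr⟩
  simp only [Pi.smul_apply, smul_eq_mul, mul_one] at h1
  rw [h0] at h1
  exact he0 (by exact_mod_cast h1.symm)

/-- If the idempotent of `F` (characters of `T`) is that of `e` (characters of `K ≤ T`), every
member of `F` has a constituent in `e` on `K`. -/
theorem wc_exists_constituent (T K : Subgroup G) [Fintype T] [Fintype K]
    (hKT : K ≤ T) (F : Set (IrrCharacter T)) (e : Set (IrrCharacter K))
    (hFe : ∀ t : T, blockCoeff F t = subgroupBlockCoeff K e (t : G))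
    (χ : IrrCharacter T) (hχ : χ ∈ F) :
    ∃ θ ∈ e, classInner (fun k : K => (χ : T → ℂ) ⟨(k : G), hKT k.2⟩) (θ : K → ℂ) ≠ 0 := by
  classical
  by_contra hcon
  push Not at hcon
  have h1 := sum_blockCoeff_mul F χ
  rw [if_pos hχ] at h1
  have h2 : ∑ k : K, blockCoeff e k * (χ : T → ℂ) ⟨(k : G), hKT k.2⟩
      = ∑ t : T, blockCoeff F t * (χ : T → ℂ) t := by
    apply Fintype.sum_of_injective (fun k : K => (⟨(k : G), hKT k.2⟩ : T))
    · intro a b hab
      apply Subtype.ext
      exact congrArg (fun t : T => (t : G)) hab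
    · intro t ht
      rw [hFe t]
      unfold subgroupBlockCoeff
      rw [dif_neg, zero_mul]
      intro htK
      exact ht ⟨⟨(t : G), htK⟩, rfl⟩
    · intro k
      rw [hFe]
      unfold subgroupBlockCoeff
      rw [dif_pos k.2]
  have hcl : IsClassFunction K (fun k : K => (χ : T → ℂ) ⟨(k : G), hKT k.2⟩) :=
    Helper2.isClassFunction_of_isCharacter (Helper2.isCharacter_comp (Subgroup.inclusion hKT)
      (Helper2.isCharacter_of_isIrrCharacter χ.2))
  obtain ⟨c, hc⟩ : ∃ c : IrrCharacter K → ℂ, c = fun θ : IrrCharacter K =>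
      classInner (fun k : K => (χ : T → ℂ) ⟨(k : G), hKT k.2⟩) (θ : K → ℂ) := ⟨_, rfl⟩
  have hdec : ∀ k : K, (χ : T → ℂ) ⟨(k : G), hKT k.2⟩
      = ∑ θ : IrrCharacter K, c θ * (θ : K → ℂ) k := by
    intro k
    have h3 := congrFun (Helper2.classFun_eq_sum_classInner hcl) k
    rw [Finset.sum_apply] at h3
    rw [hc]
    exact h3
  have h3 : ∑ k : K, blockCoeff e k * (χ : T → ℂ) ⟨(k : G), hKT k.2⟩ = 0 := by
    calc ∑ k : K, blockCoeff e k * (χ : T → ℂ) ⟨(k : G), hKT k.2⟩
        = ∑ k : K, ∑ θ : IrrCharacter K, c θ * (blockCoeff e k * (θ : K → ℂ) k) := by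
          apply Finset.sum_congr rfl
          intro k _
          rw [hdec k, Finset.mul_sum]
          apply Finset.sum_congr rfl
          intro θ _
          ring
      _ = ∑ θ : IrrCharacter K, c θ * ∑ k : K, blockCoeff e k * (θ : K → ℂ) k := by
          rw [Finset.sum_comm]
          apply Finset.sum_congr rfl
          intro θ _
          rw [Finset.mul_sum]
      _ = 0 := by
          apply Finset.sum_eq_zero
          intro θ _
          rw [sum_blockCoeff_mul e θ]
          by_cases hθ : θ ∈ e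
          · have h4 : c θ = 0 := by
              rw [hc]
              exact hcon θ hθ
            rw [h4, zero_mul]
          · rw [if_neg hθ, mul_zero]
  rw [h2, h1] at h3
  exact irr_one_ne_zero χ h3

/-- A Brauer pair carrying a weight is centric and radical. -/
theorem wc_main [Fintype G] [Fact p.Prime] (hM : IsPModular p M) (B : Set (IrrCharacter G))
    (Q : Subgroup G) (e : Set (IrrCharacter (Subgroup.centralizer (Q : Set G))))
    (hQe : IsBrauerPairOf p M B Q e) (T : Subgroup G)
    (hT : ∀ y : G, y ∈ T ↔ y ∈ Subgroup.normalizer (Q : Set G) ∧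
      StabilizesBlock (Subgroup.centralizer (Q : Set G)) e y)
    (F' : Set (IrrCharacter T))
    (hF'e : ∀ t : T, blockCoeff F' t
      = subgroupBlockCoeff (Subgroup.centralizer (Q : Set G)) e (t : G))
    (χ : IrrCharacter T) (hχ : χ ∈ F')
    (hχQ : ∀ q : G, q ∈ Q → ∀ t : T, ∀ t' : T, (t' : G) = q * (t : G) →
      (χ : T → ℂ) t' = (χ : T → ℂ) t)
    (hdeg : (charDegree (χ : T → ℂ)).factorization p + (Nat.card Q).factorization p
      = (Nat.card T).factorization p) :
    IsDefectGroup p M e ((Q ⊓ Subgroup.centralizer (Q : Set G)).subgroupOf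
        (Subgroup.centralizer (Q : Set G))) ∧
      ∀ R : Subgroup G, R ≤ T → IsPGroup p R →
        (∀ t ∈ T, t ∈ Subgroup.normalizer (R : Set G)) → R ≤ Q := by
  classical
  have hp : p.Prime := Fact.out
  let _ : Fintype T := Fintype.ofFinite T
  let _ : Fintype (Subgroup.centralizer (Q : Set G)) := Fintype.ofFinite _
  have hTN : T ≤ Subgroup.normalizer (Q : Set G) := fun y hy => ((hT y).mp hy).1
  have hCT : Subgroup.centralizer (Q : Set G) ≤ T := by
    intro c hc
    exact (hT c).mpr ⟨Subgroup.centralizer_le_normalizer _ hc,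
      (mem_blockStab _ e c).mp (le_blockStab_self _ e hc)⟩
  have hQT : Q ≤ T := by
    intro u hu
    refine (hT u).mpr ⟨Subgroup.le_normalizer hu, (mem_blockStab _ e u).mp ?_⟩
    apply centralizer_le_blockStab _ e
    rw [Subgroup.mem_centralizer_iff]
    intro g hg
    exact (Subgroup.mem_centralizer_iff.mp hg u hu).symm
  have hUn : (Q.subgroupOf T).Normal := Subgroup.normal_subgroupOf_of_le_normalizer hTN
  have hNn : ((Subgroup.centralizer (Q : Set G)).subgroupOf T).Normal :=
    Subgroup.normal_subgroupOf_of_le_normalizer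
      (hTN.trans (normalizer_le_normalizer_centralizer Q))
  let _ : Fintype ((Subgroup.centralizer (Q : Set G)).subgroupOf T) := Fintype.ofFinite _
  -- kernel and degree of `χ`
  have hkerχ : Q.subgroupOf T ≤ irrKer χ := by
    intro u hu
    rw [mem_irrKer]
    exact hχQ (u : G) (Subgroup.mem_subgroupOf.mp hu) 1 u (by simp)
  have hcardU : Nat.card (Q.subgroupOf T) = Nat.card Q :=
    Nat.card_congr (Subgroup.subgroupOfEquivOfLe hQT).toEquiv
  have hdegχ : (Nat.card T).factorization p
      ≤ (charDegree (χ : T → ℂ)).factorization p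
        + (Nat.card (Q.subgroupOf T)).factorization p := by
    rw [hcardU, hdeg]
  refine ⟨?_, ?_⟩
  · -- a constituent in `e`
    obtain ⟨θ, hθe, hθ⟩ := wc_exists_constituent T (Subgroup.centralizer (Q : Set G)) hCT F' e
      hF'e χ hχ
    obtain ⟨eq, heq⟩ : ∃ eq : ((Subgroup.centralizer (Q : Set G)).subgroupOf T) ≃*
        Subgroup.centralizer (Q : Set G), eq = Subgroup.subgroupOfEquivOfLe hCT := ⟨_, rfl⟩
    have heqv : ∀ x, ((eq x : Subgroup.centralizer (Q : Set G)) : G) = ((x : T) : G) := by
      intro x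
      rw [heq]
      rfl
    obtain ⟨θ', hθ'⟩ : ∃ θ' : IrrCharacter ((Subgroup.centralizer (Q : Set G)).subgroupOf T),
        θ' = irrEquiv eq θ := ⟨_, rfl⟩
    have hθ'v : ∀ x, (θ' : _ → ℂ) x = (θ : _ → ℂ) (eq x) := by
      intro x
      rw [hθ']
      rfl
    have hinner : classInner (fun n : (Subgroup.centralizer (Q : Set G)).subgroupOf T =>
        (χ : T → ℂ) n) (θ' : _ → ℂ) ≠ 0 := by
      have h1 := Cfsg.Agent.S0854.classInner_equiv eq.toEquiv
        (fun c : Subgroup.centralizer (Q : Set G) => (χ : T → ℂ) ⟨(c : G), hCT c.2⟩)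
        (θ : _ → ℂ)
      have h2 : (fun n : (Subgroup.centralizer (Q : Set G)).subgroupOf T => (χ : T → ℂ) n)
          = fun a => (fun c : Subgroup.centralizer (Q : Set G) =>
            (χ : T → ℂ) ⟨(c : G), hCT c.2⟩) (eq.toEquiv a) := by
        funext a
        show (χ : T → ℂ) a = (χ : T → ℂ) ⟨((eq a : Subgroup.centralizer (Q : Set G)) : G), _⟩
        exact congrArg (χ : T → ℂ) (Subtype.ext (heqv a).symm)
      have h3 : (θ' : _ → ℂ) = fun a => (θ : _ → ℂ) (eq.toEquiv a) := by
        funext a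
        exact hθ'v a
      rw [h2, h3, h1]
      exact hθ
    have hstab : Q.subgroupOf T
        ≤ Helper2.stabChar ((Subgroup.centralizer (Q : Set G)).subgroupOf T) (θ' : _ → ℂ) := by
      intro u hu
      rw [Helper2.mem_stabChar]
      funext n
      rw [Helper2.conjChar_apply]
      have h1 := Subgroup.mem_centralizer_iff.mp (Subgroup.mem_subgroupOf.mp n.2) (u : G)
        (Subgroup.mem_subgroupOf.mp hu)
      have h2 : (u : G) * ((n : T) : G) * (u : G)⁻¹ = ((n : T) : G) := by
        rw [h1, mul_inv_cancel_right]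
      exact congrArg (θ' : (Subgroup.centralizer (Q : Set G)).subgroupOf T → ℂ)
        (Subtype.ext (Subtype.ext h2))
    have hW := wc_constituent hM ((Subgroup.centralizer (Q : Set G)).subgroupOf T)
      (Q.subgroupOf T) χ hkerχ hdegχ θ' hinner hstab
    have hcardN : Nat.card ((Subgroup.centralizer (Q : Set G)).subgroupOf T)
        = Nat.card (Subgroup.centralizer (Q : Set G)) := Nat.card_congr eq.toEquiv
    have hdegθ' : charDegree (θ' : (Subgroup.centralizer (Q : Set G)).subgroupOf T → ℂ)
        = charDegree (θ : Subgroup.centralizer (Q : Set G) → ℂ) := by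
      unfold charDegree
      rw [hθ'v 1, map_one]
    have hcardZ : Nat.card ((Q.subgroupOf T).subgroupOf
          ((Subgroup.centralizer (Q : Set G)).subgroupOf T))
        = Nat.card (Q.subgroupOf (Subgroup.centralizer (Q : Set G))) := by
      apply Nat.card_congr
      exact eq.toEquiv.subtypeEquiv (fun x => by
        show ((x : T) : G) ∈ Q ↔ ((eq x : Subgroup.centralizer (Q : Set G)) : G) ∈ Q
        rw [heqv x])
    rw [hcardN, hdegθ', hcardZ] at hW
    haveI := subgroupOf_centralizer_normal Q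
    have hZc : Q.subgroupOf (Subgroup.centralizer (Q : Set G))
        ≤ Subgroup.center (Subgroup.centralizer (Q : Set G)) := by
      intro z hz
      rw [Subgroup.mem_center_iff]
      intro c
      apply Subtype.ext
      exact (Subgroup.mem_centralizer_iff.mp c.2 (z : G) (Subgroup.mem_subgroupOf.mp hz)).symm
    have hZp : IsPGroup p (Q.subgroupOf (Subgroup.centralizer (Q : Set G))) :=
      hQe.1.1.comap_subtype
    have hkerθ : Q.subgroupOf (Subgroup.centralizer (Q : Set G)) ≤ irrKer θ := by
      intro z hz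
      rw [mem_irrKer]
      have h1 := dl_ker_restrict ((Subgroup.centralizer (Q : Set G)).subgroupOf T) χ θ' hinner
        (eq.symm z) (by
          apply (mem_irrKer χ _).mp
          apply hkerχ
          rw [Subgroup.mem_subgroupOf, ← heqv, MulEquiv.apply_symm_apply]
          exact Subgroup.mem_subgroupOf.mp hz)
      rw [hθ'v, hθ'v, MulEquiv.apply_symm_apply, map_one] at h1
      exact h1
    have hD := wc_defectGroup hM hQe.1.2 (Q.subgroupOf (Subgroup.centralizer (Q : Set G)))
      hZc hZp θ hθe hkerθ hW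
    rw [Subgroup.inf_subgroupOf_right]
    exact hD
  · intro R hRT hRp hRn
    have hRn' : (R.subgroupOf T).Normal :=
      Subgroup.normal_subgroupOf_of_le_normalizer (fun t ht => hRn t ht)
    have hRp' : IsPGroup p (R.subgroupOf T) := hRp.comap_subtype
    have h1 := wc_radical hM (Q.subgroupOf T) (R.subgroupOf T) hRp' χ hkerχ hdegχ
    intro r hr
    exact Subgroup.mem_subgroupOf.mp
      (h1 (Subgroup.mem_subgroupOf.mpr hr : (⟨r, hRT hr⟩ : T) ∈ R.subgroupOf T))

end WC

end Cfsg.Agent.Helper25
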